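import Mathlib
import Cfsg.Agent.Lib.Helper17.Basic
import Cfsg.Agent.Lib.Helper17.AutSq

set_option autoImplicit false
set_option linter.unusedSectionVars false
set_option linter.style.haveILetI false

namespace Cfsg.Agent.Lib.Helper17

open Subgroup

variable {G : Type*} [Group G] [Finite G]

/-- For an abelian Sylow subgroup `P` (nontrivial, proper) of a simple group,
`ρ = |N(P) : C(P)|` is not `1`, divides `|Aut P|`, and `ρ * |P|` divides `|N(P)|`. -/
lemma sylow_abelian_relIndex [IsSimpleGroup G] {p : ℕ} [Fact p.Prime] (P : Sylow p G)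
    (hc : IsMulCommutative ↥(P : Subgroup G))
    (h1 : Nat.card ↥(P : Subgroup G) ≠ 1) (h2 : Nat.card ↥(P : Subgroup G) ≠ Nat.card G) :
    (centralizer ((P : Subgroup G) : Set G)).relIndex (normalizer ((P : Subgroup G) : Set G)) ≠ 1 ∧
    (centralizer ((P : Subgroup G) : Set G)).relIndex (normalizer ((P : Subgroup G) : Set G)) ∣
      Nat.card (MulAut ↥(P : Subgroup G)) ∧
    (centralizer ((P : Subgroup G) : Set G)).relIndex (normalizer ((P : Subgroup G) : Set G)) *
      Nat.card ↥(P : Subgroup G) ∣ Nat.card ↥(normalizer ((P : Subgroup G) : Set G)) := by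
  refine ⟨?_, relIndex_centralizer_normalizer_dvd _, ?_⟩
  · intro h
    rw [Subgroup.relIndex_eq_one] at h
    exact not_normalizer_le_centralizer P h1 h2 h
  · have hPC : (P : Subgroup G) ≤ centralizer ((P : Subgroup G) : Set G) := Subgroup.le_centralizer _
    have h3 : (P : Subgroup G) ≤ centralizer ((P : Subgroup G) : Set G) ⊓ normalizer ((P : Subgroup G) : Set G) :=
      le_inf hPC Subgroup.le_normalizer
    have h4 := Subgroup.card_dvd_of_le h3
    have h5 := ((centralizer ((P : Subgroup G) : Set G)).subgroupOf (normalizer ((P : Subgroup G) : Set G))).index_mul_card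
    rw [card_subgroupOf] at h5
    rw [← h5]
    exact Nat.mul_dvd_mul_left _ h4

/-- Consequence of Burnside's transfer theorem for a Sylow subgroup of prime order `s` in a simple
group of order `s * m`: some prime `t` divides `s - 1` and `t * n_s` divides `m`. -/
lemma exists_prime_of_sylow_prime [IsSimpleGroup G] {s : ℕ} [Fact s.Prime] {m : ℕ}
    (h : Nat.card G = s ^ 1 * m) (hm : ¬ s ∣ m) (hm1 : m ≠ 1) :
    ∃ t : ℕ, t.Prime ∧ t ∣ s - 1 ∧ t * Nat.card (Sylow s G) ∣ m := by
  have hs : s.Prime := Fact.out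
  obtain ⟨S⟩ : Nonempty (Sylow s G) := inferInstance
  have hS : Nat.card ↥(S : Subgroup G) = s := by simpa using (sylow_card_index S h hm).1
  have hG : Nat.card G ≠ s := by
    rw [h, pow_one]
    intro h'
    have : s * m = s * 1 := by rw [mul_one]; exact h'
    exact hm1 (Nat.eq_of_mul_eq_mul_left hs.pos this)
  obtain ⟨r1, r2, r3⟩ := sylow_prime_relIndex S hS hG
  set ρ := (centralizer ((S : Subgroup G) : Set G)).relIndex (normalizer ((S : Subgroup G) : Set G))
  refine ⟨ρ.minFac, Nat.minFac_prime r1, (Nat.minFac_dvd ρ).trans r2, ?_⟩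
  have h1 := card_sylow_mul_card_normalizer S
  rw [h, pow_one] at h1
  have h2 : Nat.card (Sylow s G) * (ρ * s) ∣ s * m := by
    rw [← h1]
    exact Nat.mul_dvd_mul_left _ r3
  have h3 : s * (ρ * Nat.card (Sylow s G)) ∣ s * m := by
    have e : s * (ρ * Nat.card (Sylow s G)) = Nat.card (Sylow s G) * (ρ * s) := by ring
    rw [e]; exact h2
  have h4 : ρ * Nat.card (Sylow s G) ∣ m := Nat.dvd_of_mul_dvd_mul_left hs.pos h3
  exact (Nat.mul_dvd_mul_right (Nat.minFac_dvd ρ) _).trans h4

/-- a simple `p`-group is commutative -/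
lemma comm_of_isPGroup [IsSimpleGroup G] {p : ℕ} [Fact p.Prime] (hpG : IsPGroup p G) :
    IsMulCommutative G := by
  have hnt : Nontrivial (Subgroup.center G) := hpG.center_nontrivial
  rcases (inferInstance : (Subgroup.center G).Normal).eq_bot_or_eq_top with hc | hc
  · exfalso
    rw [Subgroup.nontrivial_iff_ne_bot] at hnt
    exact hnt hc
  · refine ⟨⟨fun a b => ?_⟩⟩
    have hb : b ∈ Subgroup.center G := hc ▸ Subgroup.mem_top b
    exact Subgroup.mem_center_iff.mp hb a

/-- a simple group of prime power order has prime order -/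
lemma prime_card_of_card_prime_pow [IsSimpleGroup G] {p k : ℕ} (hp : p.Prime)
    (h : Nat.card G = p ^ k) : (Nat.card G).Prime := by
  have : Fact p.Prime := ⟨hp⟩
  by_contra hn
  exact not_comm_of_not_prime hn (comm_of_isPGroup (IsPGroup.of_card h))

/-- For a Sylow subgroup of order `p^2` in a simple group of order `p^2 * m`: some prime `t`
divides `(p^2-1)(p^2-p)` and `t * n_p` divides `m`. -/
lemma exists_prime_of_sylow_prime_sq [IsSimpleGroup G] {p : ℕ} [Fact p.Prime] {m : ℕ}
    (h : Nat.card G = p ^ 2 * m) (hm : ¬ p ∣ m) (hm1 : m ≠ 1) :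
    ∃ t : ℕ, t.Prime ∧ t ∣ (p ^ 2 - 1) * (p ^ 2 - p) ∧ t * Nat.card (Sylow p G) ∣ m := by
  have hp : p.Prime := Fact.out
  obtain ⟨P⟩ : Nonempty (Sylow p G) := inferInstance
  have hP : Nat.card ↥(P : Subgroup G) = p ^ 2 := (sylow_card_index P h hm).1
  have hpos : 0 < p ^ 2 := pow_pos hp.pos 2
  have hG : Nat.card ↥(P : Subgroup G) ≠ Nat.card G := by
    rw [h, hP]
    intro h'
    have : p ^ 2 * 1 = p ^ 2 * m := by rw [mul_one]; exact h'
    exact hm1 (Nat.eq_of_mul_eq_mul_left hpos this).symm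
  have hP1 : Nat.card ↥(P : Subgroup G) ≠ 1 := by
    rw [hP]
    exact (Nat.one_lt_pow (by norm_num) hp.one_lt).ne'
  obtain ⟨r1, r2, r3⟩ := sylow_abelian_relIndex P (IsPGroup.isMulCommutative_of_card_eq_prime_sq hP) hP1 hG
  set ρ := (centralizer ((P : Subgroup G) : Set G)).relIndex (normalizer ((P : Subgroup G) : Set G))
  refine ⟨ρ.minFac, Nat.minFac_prime r1,
    ((Nat.minFac_dvd ρ).trans r2).trans (card_mulAut_dvd_of_card_prime_sq hp hP), ?_⟩
  have h1 := card_sylow_mul_card_normalizer P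
  rw [h] at h1
  rw [hP] at r3
  have h2 : Nat.card (Sylow p G) * (ρ * p ^ 2) ∣ p ^ 2 * m := by
    rw [← h1]
    exact Nat.mul_dvd_mul_left _ r3
  have h3 : p ^ 2 * (ρ * Nat.card (Sylow p G)) ∣ p ^ 2 * m := by
    have e : p ^ 2 * (ρ * Nat.card (Sylow p G)) = Nat.card (Sylow p G) * (ρ * p ^ 2) := by ring
    rw [e]; exact h2
  have h4 : ρ * Nat.card (Sylow p G) ∣ m := Nat.dvd_of_mul_dvd_mul_left hpos h3
  exact (Nat.mul_dvd_mul_right (Nat.minFac_dvd ρ) _).trans h4

end Cfsg.Agent.Lib.Helper17
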