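import Cfsg.Agent.Lib.Helper17.ChevGenTab

set_option autoImplicit false

/-! Generation of the tabulated Chevalley groups by `N` and fundamental root subgroups. -/

namespace Cfsg.Agent.Lib.Helper17

open Cfsg.Lie Matrix Cfsg.Agent.Lib.Helper18

/-! ### soundness of `reach` -/

lemma reach_sound {D : ChevalleyDatum} {m : ℕ} (P : ℕ → Prop)
    (hedge : ∀ a b, a < D.rank → b < D.rank → edgeB D m a b = true → P a → P b) :
    ∀ (n : ℕ) (S : List ℕ), (∀ a ∈ S, a < D.rank ∧ P a) → ∀ b ∈ reach D m n S, b < D.rank ∧ P b := by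
  intro n
  induction n with
  | zero => intro S hS b hb; exact hS b hb
  | succ n ih =>
    intro S hS b hb
    refine ih (reachStep D m S) ?_ b hb
    intro a ha
    unfold reachStep at ha
    rcases List.mem_append.mp ha with h1 | h1
    · exact hS a h1
    · rw [List.mem_filter, Bool.and_eq_true, List.any_eq_true] at h1
      obtain ⟨h2, -, c, hc, h3⟩ := h1
      have h4 := List.mem_range.mp h2
      exact ⟨h4, hedge c a (hS c hc).1 h4 h3 (hS c hc).2⟩

variable {D : ChevalleyDatum} {F : Type*} [Field F]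

/-- the root subgroup `X_r` lies in `M` -/
def GoodR (hB : Base D F) (M : Subgroup (GL D.Idx F)) (r : ℕ) : Prop := ∀ t : F, hB.xg r t ∈ M

lemma GoodR.refl {hB : Base D F} {M : Subgroup (GL D.Idx F)} (hT : Tab D)
    (hN : D.monomialSubgroup F ≤ M) {i r : ℕ} (hi : i < D.rank) (hr : r < D.nroots)
    (h : GoodR hB M r) : GoodR hB M (D.reflectRoot i r) := by
  intro t
  obtain ⟨η, hη, hc⟩ := hB.ng_conj_xg hi hr
  have h1 := (hc (η * t)).1
  have h2 : η * (η * t) = t := by
    rcases hη with rfl | rfl <;> simp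
  rw [h2] at h1
  rw [← h1]
  have hn : hB.ng (D.simple i) 1 ∈ M := hN (hB.ng_one_mem (hT.simple_lt i hi))
  exact mul_mem (mul_mem hn (h _)) (inv_mem hn)

lemma goodR_all {hB : Base D F} {M : Subgroup (GL D.Idx F)} (hT : Tab D) (hd : descOK D = true)
    (hN : D.monomialSubgroup F ≤ M) (h0 : ∀ j, j < D.rank → GoodR hB M (D.simple j)) :
    ∀ r, r < D.nroots → GoodR hB M r := by
  intro r hr
  refine inRootSub_induction hd hT Set.univ (GoodR hB M) h0 ?_ r ⟨hr, fun i _ hi => absurd trivial hi⟩
  intro i _ hi s hs h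
  exact h.refl hT hN hi hs.1

lemma group_le_of_goodR {hB : Base D F} {M : Subgroup (GL D.Idx F)}
    (h : ∀ r, r < D.nroots → GoodR hB M r) : D.group F ≤ M := by
  unfold ChevalleyDatum.group
  rw [Subgroup.closure_le]
  rintro g ⟨r, t, hg⟩
  have : (g : Matrix D.Idx D.Idx F) = D.x F r.val t := by
    rw [hg]; unfold ChevalleyDatum.x; rw [dif_pos r.2]
  rw [hB.eq_xg this]
  exact h r.val r.2 t

lemma goodR_rEdge {hB : Base D F} {M : Subgroup (GL D.Idx F)} (hT : Tab D)
    (hN : D.monomialSubgroup F ≤ M) {a b : ℕ} (ha : a < D.rank) (hb : b < D.rank)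
    (he : rEdge D a b = true) (h : GoodR hB M (D.simple a)) : GoodR hB M (D.simple b) := by
  unfold rEdge at he
  rw [Bool.and_eq_true] at he
  have h1 : D.reflectRoot a (D.reflectRoot b (D.simple a)) = D.simple b := by simpa using he.2
  rw [← h1]
  exact (h.refl hT hN hb (hT.simple_lt a ha)).refl hT hN ha (hT.refl_lt b _ hb (hT.simple_lt a ha))

lemma goodR_edge2 {hB : Base D F} {M : Subgroup (GL D.Idx F)} (hT : Tab D)
    (hN : D.monomialSubgroup F ≤ M) {m a b : ℕ} (hm : (m : F) ≠ 0) (ha : a < D.rank) (hb : b < D.rank)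
    (he : edge2 D m a b = true) (h : GoodR hB M (D.simple a)) : GoodR hB M (D.simple b) := by
  unfold edge2 at he
  set s := (if m = 2 then D.reflectRoot b (D.simple a)
    else D.reflectRoot a (D.reflectRoot b (D.simple a))) with hs
  have hp := hT.simple_lt a ha
  have hsn : s < D.nroots := by
    rw [hs]; split_ifs
    · exact hT.refl_lt b _ hb hp
    · exact hT.refl_lt a _ ha (hT.refl_lt b _ hb hp)
  have hsG : GoodR hB M s := by
    rw [hs]; split_ifs
    · exact h.refl hT hN hb hp
    · exact (h.refl hT hN hb hp).refl hT hN ha (hT.refl_lt b _ hb hp)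
  rw [Bool.and_eq_true, Bool.and_eq_true, Bool.and_eq_true] at he
  obtain ⟨⟨⟨-, h1⟩, h2⟩, h3⟩ := he
  have h1' : s ≠ D.simple a := by simpa using h1
  have h2' : s ≠ D.neg (D.simple a) := by simpa using h2
  cases hc : D.commTerms (D.simple a) s with
  | nil => rw [hc] at h3; simp at h3
  | cons c L =>
    cases L with
    | cons c' L' => rw [hc] at h3; simp at h3
    | nil =>
      rw [hc] at h3
      simp only [Bool.and_eq_true, decide_eq_true_eq] at h3
      obtain ⟨⟨⟨⟨h4, h5⟩, h6⟩, h7⟩, h8⟩ := h3
      have hcF : ((c.2.1 : ℤ) : F) ≠ 0 := by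
        rcases Int.natAbs_eq c.2.1 with e | e
        · rw [e, h4]; simpa using hm
        · rw [e, h4]; simpa using hm
      have hcG : GoodR hB M c.1 := by
        intro v
        have e := hB.comm_xg hp hsn h1' h2' (-1) (v / ((c.2.1 : ℤ) : F))
        have e2 : hB.wg (D.commWord F (D.simple a) s (-1) (v / ((c.2.1 : ℤ) : F))) = hB.xg c.1 v := by
          unfold ChevalleyDatum.commWord Base.wg
          rw [hc]
          simp only [List.map_cons, List.map_nil, List.prod_cons, List.prod_nil, mul_one, h5, h6,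
            neg_neg, one_pow, pow_one]
          rw [mul_div_cancel₀ _ hcF]
        rw [e2] at e
        have e3 : hB.xg c.1 v = (hB.xg s (v / ((c.2.1 : ℤ) : F)))⁻¹ *
            ((hB.xg (D.simple a) (-1))⁻¹ * hB.xg s (v / ((c.2.1 : ℤ) : F)) * hB.xg (D.simple a) (-1)) := by
          rw [e]; group
        rw [e3]
        exact mul_mem (inv_mem (hsG _)) (mul_mem (mul_mem (inv_mem (h _)) (hsG _)) (h _))
      rw [← h8]
      exact hcG.refl hT hN ha h7

lemma goodR_edgeB {hB : Base D F} {M : Subgroup (GL D.Idx F)} (hT : Tab D)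
    (hN : D.monomialSubgroup F ≤ M) {m : ℕ} (hm : m ≠ 0 → (m : F) ≠ 0) (a b : ℕ) (ha : a < D.rank)
    (hb : b < D.rank) (he : edgeB D m a b = true) (h : GoodR hB M (D.simple a)) :
    GoodR hB M (D.simple b) := by
  unfold edgeB at he
  rw [Bool.or_eq_true, Bool.and_eq_true] at he
  rcases he with he | ⟨h1, he⟩
  · exact goodR_rEdge hT hN ha hb he h
  · exact goodR_edge2 hT hN (hm (by simpa using h1)) ha hb he h

/-- generation by `N` and one (short) fundamental root subgroup -/
theorem group_le_of_genOK (hB : Base D F) (hT : Tab D) (hd : descOK D = true) {m : ℕ}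
    (hg : genOK D m = true) (hm : m ≠ 0 → (m : F) ≠ 0) {i : ℕ} (hi : i < D.rank)
    (hshort : D.isLong (D.simple i) = false) :
    D.group F ≤ D.monomialSubgroup F ⊔ D.rootSubgroup F (D.simple i) := by
  set M := D.monomialSubgroup F ⊔ D.rootSubgroup F (D.simple i) with hM
  have hN : D.monomialSubgroup F ≤ M := le_sup_left
  have h0 : GoodR hB M (D.simple i) := fun t =>
    (le_sup_right : D.rootSubgroup F (D.simple i) ≤ M) (hB.xg_mem_root _ t)
  apply group_le_of_goodR (hB := hB)
  apply goodR_all hT hd hN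
  intro j hj
  unfold genOK at hg
  rw [List.all_eq_true] at hg
  have h1 := hg i (List.mem_range.mpr hi)
  rw [hshort, Bool.and_false, Bool.false_or, List.all_eq_true] at h1
  have h2 := h1 j (List.mem_range.mpr hj)
  have h3 : j ∈ reach D m D.rank [i] := by simpa using h2
  exact (reach_sound (fun a => GoodR hB M (D.simple a)) (goodR_edgeB hT hN hm) D.rank [i]
    (by intro a ha; rw [List.mem_singleton] at ha; subst ha; exact ⟨hi, h0⟩) j h3).2

/-- generation by `N` and two fundamental root subgroups, one short and one long -/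
theorem group_le_of_genOK2 (hB : Base D F) (hT : Tab D) (hd : descOK D = true)
    (hg : genOK2 D = true) {i j : ℕ} (hi : i < D.rank) (hj : j < D.rank)
    (hshort : D.isLong (D.simple i) = false) (hlong : D.isLong (D.simple j) = true)
    (hbond : D.bonds i j ≠ 0) :
    D.group F ≤ D.monomialSubgroup F ⊔ D.rootSubgroup F (D.simple i) ⊔ D.rootSubgroup F (D.simple j) := by
  set M := D.monomialSubgroup F ⊔ D.rootSubgroup F (D.simple i) ⊔ D.rootSubgroup F (D.simple j) with hM
  have hN : D.monomialSubgroup F ≤ M := le_trans le_sup_left le_sup_left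
  have h0 : GoodR hB M (D.simple i) := fun t =>
    (le_trans le_sup_right le_sup_left : D.rootSubgroup F (D.simple i) ≤ M) (hB.xg_mem_root _ t)
  have h0' : GoodR hB M (D.simple j) := fun t =>
    (le_sup_right : D.rootSubgroup F (D.simple j) ≤ M) (hB.xg_mem_root _ t)
  apply group_le_of_goodR (hB := hB)
  apply goodR_all hT hd hN
  intro k hk
  unfold genOK2 at hg
  rw [List.all_eq_true] at hg
  have h1 := hg i (List.mem_range.mpr hi)
  rw [List.all_eq_true] at h1
  have h2 := h1 j (List.mem_range.mpr hj)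
  rw [hshort, hlong, decide_eq_false hbond] at h2
  simp only [Bool.not_true, Bool.or_self, Bool.false_or, List.all_eq_true] at h2
  have h3 := h2 k (List.mem_range.mpr hk)
  have h4 : k ∈ reach D 0 D.rank [i, j] := by simpa using h3
  exact (reach_sound (fun a => GoodR hB M (D.simple a))
    (goodR_edgeB hT hN (fun h => absurd rfl h)) D.rank [i, j]
    (by
      intro a ha
      simp only [List.mem_cons, List.not_mem_nil, or_false] at ha
      rcases ha with rfl | rfl
      · exact ⟨hi, h0⟩
      · exact ⟨hj, h0'⟩) k h4).2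

end Cfsg.Agent.Lib.Helper17
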