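import Cfsg.Agent.Lib.Helper17.ChevLevi
import Cfsg.Agent.S0311
import Cfsg.Agent.S1042

set_option autoImplicit false

/-! `N_G(U_J) = P_J` for the tabulated Chevalley groups. -/

namespace Cfsg.Agent.Lib.Helper17

open Cfsg.Lie Matrix Cfsg.Agent.Lib.Helper18 Cfsg.Agent.Lib.Helper36

/-- Table check: the `i`-th coefficient of the `i`-th fundamental coroot does not vanish. -/
def smOK (D : ChevalleyDatum) : Bool :=
  (List.range D.rank).all fun i => decide (cc D (D.simple i) i ≠ 0)

theorem smOK_of_mem {D : ChevalleyDatum}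
    (hD : D ∈ [chevG2, chevB2, chevD4, chevF4, chevE6, chevE7, chevE8]) : smOK D = true := by
  simp only [List.mem_cons, List.not_mem_nil, or_false] at hD
  rcases hD with rfl | rfl | rfl | rfl | rfl | rfl | rfl <;> decide +kernel

lemma smOK_spec {D : ChevalleyDatum} (h : smOK D = true) {i : ℕ} (hi : i < D.rank) :
    cc D (D.simple i) i ≠ 0 := by
  unfold smOK at h
  rw [List.all_eq_true] at h
  simpa using h i (List.mem_range.mpr hi)

variable {D : ChevalleyDatum} {T : Fast} {W : WTab} {F : Type*} [Field F]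

/-- a nontrivial root element in the strictly triangular group has positive degree -/
lemma dJ_pos_of_mem_srGroup (h : Checks D T W) (hB : Base D F) (J : Set ℕ) {s : ℕ} (hs : s < D.nroots)
    {t : F} (ht : t ≠ 0) (hm : hB.xg s t ∈ srGroup F (dI D J)) : 0 < dJ D J s := by
  have h1 : D.x F s t ≠ 1 := fun e => ht ((hB.x_one s hs t).mp e)
  have h2 : ∃ a b, (D.x F s t - 1) a b ≠ 0 := by
    by_contra hc
    push Not at hc
    apply h1
    rw [← sub_eq_zero]
    ext a b
    exact hc a b
  obtain ⟨a, b, hab⟩ := h2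
  have h3 : dI D J b < dI D J a := hm.1 a b hab
  have hne : a ≠ b := by rintro rfl; exact lt_irrefl _ h3
  rw [Matrix.sub_apply, Matrix.one_apply_ne hne, sub_zero] at hab
  rcases x_support h J hs t a b hab with e | ⟨k, hk1, hk⟩
  · exact absurd e hne
  · rw [hk] at h3
    have h4 : (0 : ℤ) < k * dJ D J s := by omega
    exact (pos_iff_pos_of_mul_pos h4).mp (by positivity)

theorem parabolic_le_group (hB : Base D F) (hT : Tab D) (J : Set ℕ) :
    D.parabolicSubgroup F J ≤ D.group F := by
  apply sup_le (hB.B_le_group hT)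
  refine le_trans ?_ (hB.N_le_group hT)
  refine le_trans ?_ (le_sup_right : _ ≤ D.monomialSubgroup F)
  apply Subgroup.closure_mono
  rintro g ⟨j, _, hj, hg⟩
  exact ⟨D.simple j, hT.simple_lt j hj, hg⟩

theorem normalizer_urad (hD : D ∈ [chevG2, chevB2, chevD4, chevF4, chevE6, chevE7, chevE8]) (J : Set ℕ) :
    Subgroup.normalizer (D.unipotentRadical F J : Set (GL D.Idx F)) ⊓ D.group F =
      D.parabolicSubgroup F J := by
  obtain ⟨T, W, h⟩ := exists_checks D hD
  have hB := base_of_mem F hD
  have hT := tab_of_mem hD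
  have hl := lvOK_of_mem hD
  have hP := parabolic_eq_parGen hB (descOK_of_mem hD) hT J
  have hPN : D.parabolicSubgroup F J ≤
      Subgroup.normalizer (D.unipotentRadical F J : Set (GL D.Idx F)) := by
    rw [hP]; exact parGen_le_normalizer_urad h hB hl hT J
  apply le_antisymm
  · obtain ⟨P, hPB, -, hPS⟩ := Cfsg.Agent.S1042.result (F := F) D hD
    set K := Subgroup.normalizer (D.unipotentRadical F J : Set (GL D.Idx F)) ⊓ D.group F with hK
    have hBK : P.B ≤ K.subgroupOf (D.group F) := by
      rw [hPB]
      intro g hg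
      rw [Subgroup.mem_subgroupOf] at hg ⊢
      exact ⟨hPN (B_le_parabolic J hg), g.2⟩
    obtain ⟨I, hI, hKI⟩ := Cfsg.Agent.S0311.result P (K.subgroupOf (D.group F)) hBK
    have hle : P.parabolic I ≤ (D.parabolicSubgroup F J).subgroupOf (D.group F) := by
      apply sup_le
      · rw [hPB]
        intro g hg
        rw [Subgroup.mem_subgroupOf] at hg ⊢
        exact B_le_parabolic J hg
      · rw [Subgroup.closure_le]
        intro n hn
        have hnS := hI hn
        rw [hPS] at hnS
        obtain ⟨i, hi, hni⟩ := hnS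
        have hnK : n ∈ K.subgroupOf (D.group F) := by
          rw [hKI]
          exact (le_sup_right : _ ≤ P.parabolic I) (Subgroup.subset_closure hn)
        rw [Subgroup.mem_subgroupOf] at hnK
        show (n : GL D.Idx F) ∈ D.parabolicSubgroup F J
        by_cases hiJ : i ∈ J
        · exact (le_sup_right : _ ≤ D.parabolicSubgroup F J) (Subgroup.subset_closure ⟨i, hiJ, hi, hni⟩)
        · exfalso
          have hp := hT.isPos_simple hi
          have hpJ : ¬ D.InRootSub J (D.simple i) := fun hc =>
            smOK_spec (smOK_of_mem hD) hi (hc.2 i hi hiJ)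
          have hx : hB.xg (D.simple i) 1 ∈ D.unipotentRadical F J := xg_mem_urad hB ⟨hp, hpJ⟩ 1
          have hn1 := (Subgroup.mem_normalizer_iff.mp hnK.1 _).mp hx
          rw [hB.eq_ng hni] at hn1
          obtain ⟨η, hη, hc⟩ := hB.ng_conj_xg hi hp.1
          rw [(hc 1).1, hT.refl_simple i hi, ← hT.neg_eq _ hp.1] at hn1
          have h5 := dJ_pos_of_mem_srGroup h hB J (hT.neg_lt hp.1)
            (by rcases hη with rfl | rfl <;> simp) (urad_le_srGroup h hB hl (triOK_of_mem hD) J hn1)
          rw [dJ_neg h J _ hp.1] at h5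
          have h6 := dJ_pos hl hp hpJ
          omega
    intro g hg
    have h1 : (⟨g, hg.2⟩ : D.group F) ∈ K.subgroupOf (D.group F) := by
      rw [Subgroup.mem_subgroupOf]; exact hg
    rw [hKI] at h1
    exact hle h1
  · exact le_inf hPN (parabolic_le_group hB hT J)

end Cfsg.Agent.Lib.Helper17
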