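import Cfsg.Agent.Lib.Helper17.ChevCentTab
import Cfsg.Agent.Lib.Helper17.ChevLevi2
import Cfsg.Agent.Lib.Helper17.ChevOrd
import Cfsg.Agent.Lib.Helper17.ChevGen

set_option autoImplicit false

/-! The centraliser in `P_J` of the unipotent radical `U_J` lies in `U` (`J` proper). -/

namespace Cfsg.Agent.Lib.Helper17

open Cfsg.Lie Matrix Cfsg.Agent.Lib.Helper18 Cfsg.Agent.Lib.Helper36

lemma ctOK_spec1 {D : ChevalleyDatum} (h : ctOK D = true) {i j : ℕ} (hi : i < D.rank) (hj : j < D.rank) :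
    ∃ r, D.IsPosRoot r ∧ cc D r j ≠ 0 ∧ D.IsPosRoot (D.reflectRoot i r) ∧
      htR D (D.reflectRoot i r) ≠ htR D r := by
  unfold ctOK at h
  rw [List.all_eq_true] at h
  have h1 := h i (List.mem_range.mpr hi)
  rw [List.all_eq_true] at h1
  have h2 := h1 j (List.mem_range.mpr hj)
  rw [Bool.and_eq_true, List.any_eq_true] at h2
  obtain ⟨r, -, h3⟩ := h2.1
  simp only [Bool.and_eq_true, decide_eq_true_eq] at h3
  exact ⟨r, h3.1.1.1, h3.1.1.2, h3.1.2, h3.2⟩

lemma ctOK_spec2 {D : ChevalleyDatum} (h : ctOK D = true) {i j : ℕ} (hi : i < D.rank) (hj : j < D.rank)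
    (hij : i ≠ j) : ∃ s r, D.IsPosRoot s ∧ cc D s j ≠ 0 ∧ D.chainRoot (D.simple i) s 1 = some r ∧
      D.IsPosRoot r ∧ cc D r j ≠ 0 := by
  unfold ctOK at h
  rw [List.all_eq_true] at h
  have h1 := h i (List.mem_range.mpr hi)
  rw [List.all_eq_true] at h1
  have h2 := h1 j (List.mem_range.mpr hj)
  rw [Bool.and_eq_true, decide_eq_false hij, Bool.false_or] at h2
  have h2' := h2.2
  rw [List.any_eq_true] at h2'
  obtain ⟨s, -, h3⟩ := h2'
  rw [Bool.and_eq_true, Bool.and_eq_true] at h3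
  cases hc : D.chainRoot (D.simple i) s 1 with
  | none => rw [hc] at h3; simp at h3
  | some r =>
    rw [hc] at h3
    simp only [Bool.and_eq_true, decide_eq_true_eq] at h3
    exact ⟨s, r, h3.1.1, h3.1.2, hc, h3.2.1, h3.2.2⟩

lemma sum_range_eq_list (n : ℕ) (f : ℕ → ℤ) :
    ∑ k ∈ Finset.range n, f k = ((List.range n).map f).sum := by
  induction n with
  | zero => simp
  | succ n ih => rw [Finset.sum_range_succ, ih, List.range_succ, List.map_append, List.sum_append]; simp

lemma dJ_empty (D : ChevalleyDatum) (r : ℕ) : dJ D ∅ r = htR D r := by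
  classical
  unfold dJ htR
  rw [← sum_range_eq_list]
  apply Finset.sum_congr _ (fun _ _ => rfl)
  ext k
  simp

/-! ### matrices raising the grading by at least `m` -/

section
variable {ι : Type*} [Fintype ι] [DecidableEq ι] {F : Type*} [Field F] (d : ι → ℤ)

/-- matrices raising the grading `d` by at least `m` -/
def GEg (m : ℤ) (M : Matrix ι ι F) : Prop := ∀ a b, M a b ≠ 0 → d b + m ≤ d a

variable {d}

omit [Fintype ι] in
lemma GEg.one : GEg d 0 (1 : Matrix ι ι F) := by
  intro a b h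
  by_cases e : a = b
  · rw [e]; simp
  · exact absurd (Matrix.one_apply_ne e) h

omit [DecidableEq ι] in
lemma GEg.mul {m n : ℤ} {A B : Matrix ι ι F} (hA : GEg d m A) (hB : GEg d n B) :
    GEg d (m + n) (A * B) := by
  intro a b h
  rw [Matrix.mul_apply] at h
  obtain ⟨c, _, hc⟩ := Finset.exists_ne_zero_of_sum_ne_zero h
  have h1 := hA a c (left_ne_zero_of_mul hc)
  have h2 := hB c b (right_ne_zero_of_mul hc)
  omega

omit [Fintype ι] [DecidableEq ι] in
lemma SRg.geg {A : Matrix ι ι F} (hA : SRg d A) : GEg d 1 A := by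
  intro a b h
  have := hA a b h
  omega

variable (F) (d)

/-- the group of invertible matrices not lowering the grading -/
def geGroup : Subgroup (GL ι F) where
  carrier := {g | GEg d 0 (g : Matrix ι ι F) ∧ GEg d 0 ((g⁻¹ : GL ι F) : Matrix ι ι F)}
  mul_mem' := by
    rintro a b ⟨ha, ha'⟩ ⟨hb, hb'⟩
    refine ⟨by rw [Units.val_mul]; simpa using ha.mul hb, ?_⟩
    rw [_root_.mul_inv_rev, Units.val_mul]
    simpa using hb'.mul ha'
  one_mem' := by
    refine ⟨by rw [Units.val_one]; exact GEg.one, ?_⟩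
    rw [inv_one, Units.val_one]; exact GEg.one
  inv_mem' := by
    rintro a ⟨ha, ha'⟩
    exact ⟨ha', by rw [inv_inv]; exact ha⟩

end

variable {D : ChevalleyDatum} {T : Fast} {W : WTab} {F : Type*} [Field F]

lemma geg_x (h : Checks D T W) (hl : lvOK D = true) {r : ℕ} (hr : D.IsPosRoot r) (t : F) :
    GEg (dI D ∅) 0 (D.x F r t) := by
  intro a b hne
  rcases x_support h ∅ hr.1 t a b hne with rfl | ⟨k, _, hk⟩
  · simp
  · rw [hk]
    have h1 := dJ_nonneg hl ∅ hr
    have : (0 : ℤ) ≤ k * dJ D ∅ r := by positivity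
    omega

lemma geg_x_sub_one (h : Checks D T W) (hl : lvOK D = true) (hT : triOK D = true) {r : ℕ}
    (hr : D.IsPosRoot r) (t : F) : GEg (dI D ∅) (dJ D ∅ r) (D.x F r t - 1) := by
  intro a b hne
  have hab : a ≠ b := by
    rintro rfl
    exact hne (filt_x_sub_one hT hr t a a (by omega))
  rw [Matrix.sub_apply, Matrix.one_apply_ne hab, sub_zero] at hne
  rcases x_support h ∅ hr.1 t a b hne with e | ⟨k, hk1, hk⟩
  · exact absurd e hab
  · rw [hk]
    have h1 := dJ_nonneg hl ∅ hr
    have h2 : (1 : ℤ) ≤ k := by exact_mod_cast hk1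
    nlinarith

theorem borel_le_geGroup (h : Checks D T W) (hB : Base D F) (hl : lvOK D = true) :
    D.borelSubgroup F ≤ geGroup F (dI D ∅) := by
  unfold ChevalleyDatum.borelSubgroup
  apply sup_le
  · unfold ChevalleyDatum.posUnipotent
    rw [Subgroup.closure_le]
    rintro g ⟨r, t, hr, hg⟩
    rw [hB.eq_xg hg]
    refine ⟨geg_x h hl hr t, ?_⟩
    rw [hB.xg_inv]
    exact geg_x h hl hr _
  · have key : ∀ g ∈ D.diagonalSubgroup F, GEg (dI D ∅) 0 (g : Matrix D.Idx D.Idx F) := by
      intro g hg a b hne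
      obtain ⟨χ, _, h2⟩ := hB.exists_dg hg
      by_cases hab : a = b
      · rw [hab]; simp
      · rw [h2, dg, Matrix.diagonal_apply_ne _ hab] at hne
        exact absurd rfl hne
    intro g hg
    exact ⟨key g hg, key _ (inv_mem hg)⟩

lemma not_inRootSub_empty (hO : ordOK D = true) {r : ℕ} (hr : D.IsPosRoot r) : ¬ D.InRootSub ∅ r := by
  intro hc
  obtain ⟨⟨i, hi, j, hj, hij⟩, -⟩ := ordOK_spec hO hr
  have h1 := hc.2 i hi (by simp)
  have h2 := hc.2 j hj (by simp)
  rw [h1, h2] at hij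
  rcases hij with hij | hij <;> simp at hij

theorem posUnipotent_le_srGroup (h : Checks D T W) (hB : Base D F) (hl : lvOK D = true)
    (hT : triOK D = true) (hO : ordOK D = true) : D.posUnipotent F ≤ srGroup F (dI D ∅) := by
  refine le_trans ?_ (urad_le_srGroup h hB hl hT ∅)
  apply Subgroup.closure_mono
  rintro g ⟨r, t, hr, hg⟩
  exact ⟨r, t, hr, not_inRootSub_empty hO hr, hg⟩

/-- the entries in degree `ht r` in the column of `e_{-r}` -/
lemma lead_zero (h : Checks D T W) {r : ℕ} (hr : r < D.nroots) (hn : D.neg r < D.nroots) {m : ℤ}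
    {M : Matrix D.Idx D.Idx F} (hM : GEg (dI D ∅) m M) (hm : dJ D ∅ r < m) (i : Fin D.rank) :
    M (Sum.inl i) (Sum.inr ⟨D.neg r, hn⟩) = 0 := by
  by_contra hne
  have h1 := hM _ _ hne
  simp only [dI] at h1
  rw [dJ_neg h ∅ r hr] at h1
  omega

lemma cc_cancel (hO : ordOK D = true) {k : ℕ} (hk : D.IsPosRoot k) {a b : F}
    (hent : ∀ i : Fin D.rank, (((D.coroot.getD k #[]).getD i.val 0 : ℤ) : F) * a =
        (((D.coroot.getD k #[]).getD i.val 0 : ℤ) : F) * b) : a = b := by
  obtain ⟨⟨i, hi, j, hj, hij⟩, -⟩ := ordOK_spec hO hk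
  rcases hij with hij | hij
  · have := hent ⟨i, hi⟩
    simp only [hij] at this
    simpa using this
  · have e1 := hent ⟨i, hi⟩
    have e2 := hent ⟨j, hj⟩
    simp only at e1 e2
    have e3 : (((D.coroot.getD k #[]).getD i 0 - (D.coroot.getD k #[]).getD j 0 : ℤ) : F) = 1 := by
      rw [hij]; simp
    push_cast at e3
    linear_combination e1 - e2 - (a - b) * e3

lemma x_sub_one_entry (hT : triOK D = true) {k : ℕ} (hk : D.IsPosRoot k) (hn : D.neg k < D.nroots) (t : F)
    (i : Fin D.rank) : (D.x F k t - 1) (Sum.inl i) (Sum.inr ⟨D.neg k, hn⟩) =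
      (((D.coroot.getD k #[]).getD i.val 0 : ℤ) : F) * t := by
  rw [Matrix.sub_apply, x_entry hT hk hn, Matrix.one_apply_ne (by simp), sub_zero]

/-- a root element of height `< m` is not congruent to `1` modulo degree `m` -/
lemma eq_zero_of_geg (h : Checks D T W) (hT : triOK D = true) (hO : ordOK D = true) {r : ℕ}
    (hr : D.IsPosRoot r) {c : F} {m : ℤ} (hM : GEg (dI D ∅) m (D.x F r c - 1)) (hm : dJ D ∅ r < m) :
    c = 0 := by
  have hn := h.neg_lt r hr.1
  apply cc_cancel hO hr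
  intro i
  rw [← x_sub_one_entry hT hr hn, lead_zero h hr.1 hn hM hm i, mul_zero]

/-- conjugation by `B` preserves the height of a root element -/
theorem ht_eq_of_conj (h : Checks D T W) (hB : Base D F) (hl : lvOK D = true) (hT : triOK D = true)
    (hO : ordOK D = true) {b : GL D.Idx F} (hb : b ∈ D.borelSubgroup F) {r r' : ℕ} (hr : D.IsPosRoot r)
    (hr' : D.IsPosRoot r') {c c' : F} (hc : c ≠ 0) (hc' : c' ≠ 0)
    (e : b * hB.xg r' c' * b⁻¹ = hB.xg r c) : dJ D ∅ r = dJ D ∅ r' := by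
  obtain ⟨hb1, hb2⟩ := borel_le_geGroup h hB hl hb
  have e1 : D.x F r c - 1 = (b : Matrix D.Idx D.Idx F) * (D.x F r' c' - 1) *
      ((b⁻¹ : GL D.Idx F) : Matrix D.Idx D.Idx F) := by
    have := congrArg (fun g : GL D.Idx F => (g : Matrix D.Idx D.Idx F)) e
    simp only [Units.val_mul, Base.coe_xg] at this
    rw [mul_sub, sub_mul, this, mul_one, ← Units.val_mul, mul_inv_cancel, Units.val_one]
  have e2 : D.x F r' c' - 1 = ((b⁻¹ : GL D.Idx F) : Matrix D.Idx D.Idx F) * (D.x F r c - 1) *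
      (b : Matrix D.Idx D.Idx F) := by
    rw [e1]
    simp only [← mul_assoc, ← Units.val_mul, inv_mul_cancel, Units.val_one, one_mul]
    rw [mul_assoc, ← Units.val_mul, inv_mul_cancel, Units.val_one, mul_one]
  rcases lt_trichotomy (dJ D ∅ r) (dJ D ∅ r') with hlt | heq | hgt
  · exfalso
    apply hc
    have h3 : GEg (dI D ∅) (0 + dJ D ∅ r' + 0) (D.x F r c - 1) := by
      rw [e1]; exact (hb1.mul (geg_x_sub_one h hl hT hr' c')).mul hb2
    exact eq_zero_of_geg h hT hO hr h3 (by omega)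
  · exact heq
  · exfalso
    apply hc'
    have h3 : GEg (dI D ∅) (0 + dJ D ∅ r + 0) (D.x F r' c' - 1) := by
      rw [e2]; exact (hb2.mul (geg_x_sub_one h hl hT hr c)).mul hb1
    exact eq_zero_of_geg h hT hO hr' h3 (by omega)

/-- conjugation by `U` preserves the parameter of a root element -/
theorem coef_eq_of_conj (h : Checks D T W) (hB : Base D F) (hl : lvOK D = true) (hT : triOK D = true)
    (hO : ordOK D = true) {u : GL D.Idx F} (hu : u ∈ D.posUnipotent F) {r : ℕ} (hr : D.IsPosRoot r)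
    {a t : F} (e : u * hB.xg r a = hB.xg r t * u) : a = t := by
  have hn := h.neg_lt r hr.1
  have hu1 : GEg (dI D ∅) 1 ((u : Matrix D.Idx D.Idx F) - 1) :=
    (posUnipotent_le_srGroup h hB hl hT hO hu).1.geg
  have e0 := congrArg (fun g : GL D.Idx F => (g : Matrix D.Idx D.Idx F)) e
  simp only [Units.val_mul, Base.coe_xg] at e0
  have e1 : (D.x F r a - 1) + ((u : Matrix D.Idx D.Idx F) - 1) * (D.x F r a - 1) =
      (D.x F r t - 1) + (D.x F r t - 1) * ((u : Matrix D.Idx D.Idx F) - 1) := by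
    have : (D.x F r a - 1) + ((u : Matrix D.Idx D.Idx F) - 1) * (D.x F r a - 1) =
        (u : Matrix D.Idx D.Idx F) * D.x F r a - u := by noncomm_ring
    rw [this, e0]
    noncomm_ring
  apply cc_cancel hO hr
  intro i
  have e2 := congrFun (congrFun e1 (Sum.inl i)) (Sum.inr ⟨D.neg r, hn⟩)
  rw [Matrix.add_apply, Matrix.add_apply, x_sub_one_entry hT hr hn, x_sub_one_entry hT hr hn,
    lead_zero h hr.1 hn (hu1.mul (geg_x_sub_one h hl hT hr a)) (by omega) i,
    lead_zero h hr.1 hn ((geg_x_sub_one h hl hT hr t).mul hu1) (by omega) i, add_zero, add_zero] at e2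
  exact e2

/-! ### the character of an element of `H` -/

/-- the character `s ↦ ∏ c_i ^ A_{p_i, s}` -/
def chiC (D : ChevalleyDatum) (c : ℕ → F) (s : ℕ) : F :=
  ((List.range D.rank).map fun i => c i ^ D.cartan i s).prod

lemma hprod_conj_xg (hB : Base D F) (c : ℕ → F) (hc : ∀ i, i < D.rank → c i ≠ 0) {s : ℕ}
    (hs : s < D.nroots) (t : F) :
    hB.hprod c * hB.xg s t * (hB.hprod c)⁻¹ = hB.xg s (chiC D c s * t) := by
  unfold Base.hprod chiC
  have key : ∀ L : List ℕ, (∀ i ∈ L, i < D.rank) → ∀ t : F,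
      hB.hl c L * hB.xg s t * (hB.hl c L)⁻¹ = hB.xg s ((L.map fun i => c i ^ D.cartan i s).prod * t) := by
    intro L
    induction L with
    | nil => intro _ t; simp [Base.hl]
    | cons a L ih =>
      intro hL t
      have ha := hL a (by simp)
      have h1 : hB.hl c (a :: L) = hB.hg (D.simple a) (c a) * hB.hl c L := by simp [Base.hl]
      have h2 : hB.hg (D.simple a) (c a) * hB.hl c L * hB.xg s t * (hB.hg (D.simple a) (c a) * hB.hl c L)⁻¹
          = hB.hg (D.simple a) (c a) * (hB.hl c L * hB.xg s t * (hB.hl c L)⁻¹) *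
            (hB.hg (D.simple a) (c a))⁻¹ := by group
      rw [h1, h2, ih (fun i hi => hL i (by simp [hi])) t, hB.hg_simple_conj_xg ha hs (hc a ha),
        List.map_cons, List.prod_cons, mul_assoc]
  exact key _ (fun i hi => List.mem_range.mp hi) t

lemma chiC_mul (c : ℕ → F) (hc : ∀ i, i < D.rank → c i ≠ 0) {r a b : ℕ}
    (h : ∀ i, i < D.rank → D.cartan i r = D.cartan i a + D.cartan i b) :
    chiC D c r = chiC D c a * chiC D c b := by
  unfold chiC
  rw [← List.prod_map_mul]
  congr 1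
  apply List.map_congr_left
  intro i hi
  rw [h i (List.mem_range.mp hi), zpow_add₀ (hc i (List.mem_range.mp hi))]

lemma chiC_neg (h : Checks D T W) (c : ℕ → F) (hc : ∀ i, i < D.rank → c i ≠ 0) {r : ℕ}
    (hr : r < D.nroots) : chiC D c (D.neg r) * chiC D c r = 1 := by
  unfold chiC
  rw [← List.prod_map_mul]
  apply List.prod_eq_one
  intro x hx
  obtain ⟨i, hi, rfl⟩ := List.mem_map.mp hx
  rw [h.cartan_neg i (List.mem_range.mp hi) r hr, _root_.zpow_neg,
    inv_mul_cancel₀ (zpow_ne_zero _ (hc i (List.mem_range.mp hi)))]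

lemma xg_inj (hB : Base D F) {s : ℕ} (hs : s < D.nroots) {a b : F} (e : hB.xg s a = hB.xg s b) :
    a = b := by
  have : hB.xg s (a + -b) = 1 := by
    rw [← hB.xg_add, ← hB.xg_inv, e, mul_inv_cancel]
  rw [hB.xg_eq_one_iff hs] at this
  linear_combination this

lemma GoodR.refl' {hB : Base D F} {M : Subgroup (GL D.Idx F)} {i r : ℕ}
    (hn : hB.ng (D.simple i) 1 ∈ M) (hi : i < D.rank) (hr : r < D.nroots)
    (h : GoodR hB M r) : GoodR hB M (D.reflectRoot i r) := by
  intro t
  obtain ⟨η, hη, hc⟩ := hB.ng_conj_xg hi hr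
  have h1 := (hc (η * t)).1
  have h2 : η * (η * t) = t := by
    rcases hη with rfl | rfl <;> simp
  rw [h2] at h1
  rw [← h1]
  exact mul_mem (mul_mem hn (h _)) (inv_mem hn)

lemma goodR_all' {hB : Base D F} {M : Subgroup (GL D.Idx F)} (hT : Tab D) (hd : descOK D = true)
    (h0 : ∀ j, j < D.rank → GoodR hB M (D.simple j))
    (h1 : ∀ j, j < D.rank → GoodR hB M (D.neg (D.simple j))) :
    ∀ r, r < D.nroots → GoodR hB M r := by
  intro r hr
  refine inRootSub_induction hd hT Set.univ (GoodR hB M) h0 ?_ r ⟨hr, fun i _ hi => absurd trivial hi⟩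
  intro i _ hi s hs h
  exact h.refl' (mul_mem (mul_mem (h0 i hi _) (h1 i hi _)) (h0 i hi _)) hi hs.1

/-- an element of `H` whose character is trivial on the fundamental roots is trivial -/
theorem hprod_eq_one (h : Checks D T W) (hB : Base D F) (hT : Tab D) (hd : descOK D = true)
    (c : ℕ → F) (hc : ∀ i, i < D.rank → c i ≠ 0) (h1 : ∀ j, j < D.rank → chiC D c (D.simple j) = 1) :
    hB.hprod c = 1 := by
  have key : ∀ s, s < D.nroots → chiC D c s = 1 → GoodR hB (Subgroup.centralizer {hB.hprod c}) s := by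
    intro s hs e t
    rw [Subgroup.mem_centralizer_singleton_iff]
    have := hprod_conj_xg hB c hc hs t
    rw [e, one_mul, mul_inv_eq_iff_eq_mul] at this
    exact this.symm
  have hall := goodR_all' (hB := hB) (M := Subgroup.centralizer {hB.hprod c}) hT hd
    (fun j hj => key _ (hT.simple_lt j hj) (h1 j hj))
    (fun j hj => key _ (hT.neg_lt (hT.simple_lt j hj)) (by
      have := chiC_neg h c hc (hT.simple_lt j hj)
      rwa [h1 j hj, mul_one] at this))
  have hchi : ∀ s, s < D.nroots → chiC D c s = 1 := by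
    intro s hs
    have h2 := hall s hs 1
    rw [Subgroup.mem_centralizer_singleton_iff] at h2
    have h3 := hprod_conj_xg hB c hc hs 1
    rw [← h2, mul_inv_cancel_right, mul_one] at h3
    exact (xg_inj hB hs h3).symm
  apply Units.ext
  rw [hB.coe_hprod c hc, Units.val_one, ← dg_one]
  congr 1
  funext s
  exact hchi s.val s.2

/-! ### the centraliser of `U_J` -/

theorem cent_urad_le_U (hD : D ∈ [chevG2, chevB2, chevD4, chevF4, chevE6, chevE7, chevE8]) (J : Set ℕ)
    {j₀ : ℕ} (hj₀ : j₀ < D.rank) (hj₀J : j₀ ∉ J) :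
    D.parabolicSubgroup F J ⊓ Subgroup.centralizer (D.unipotentRadical F J : Set (GL D.Idx F)) ≤
      D.posUnipotent F := by
  obtain ⟨T, W, h⟩ := exists_checks D hD
  have hB := base_of_mem F hD
  have hT := tab_of_mem hD
  have hl := lvOK_of_mem hD
  have hd := descOK_of_mem hD
  have htri := triOK_of_mem hD
  have hO := ordOK_of_mem hD
  have hct := ctOK_of_mem hD
  have hP := parabolic_eq_parGen hB hd hT J
  have hPN : D.parabolicSubgroup F J ≤
      Subgroup.normalizer (D.unipotentRadical F J : Set (GL D.Idx F)) := by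
    rw [hP]; exact parGen_le_normalizer_urad h hB hl hT J
  have hPsi : ∀ r, D.IsPosRoot r → cc D r j₀ ≠ 0 → D.IsPosRoot r ∧ ¬ D.InRootSub J r :=
    fun r hr hc => ⟨hr, fun hi => hc (hi.2 j₀ hj₀ hj₀J)⟩
  set K := D.parabolicSubgroup F J ⊓
    Subgroup.centralizer (D.unipotentRadical F J : Set (GL D.Idx F)) with hK
  have hKG : K ≤ D.group F := le_trans inf_le_left (parabolic_le_group hB hT J)
  -- `B` normalises `K`
  have hBK : D.borelSubgroup F ≤ Subgroup.normalizer (K : Set (GL D.Idx F)) := by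
    rw [Subgroup.le_normalizer_iff]
    intro b hb k hk
    have hbP := B_le_parabolic J hb
    have hk := Subgroup.mem_inf.mp hk
    refine Subgroup.mem_inf.mpr ⟨mul_mem (mul_mem hbP hk.1) (inv_mem hbP), ?_⟩
    rw [Subgroup.mem_centralizer_iff]
    intro x hx
    have hx' : b⁻¹ * x * b ∈ D.unipotentRadical F J := by
      have := (Subgroup.mem_normalizer_iff.mp (hPN (inv_mem hbP)) x).mp hx
      simpa using this
    have hk2 := Subgroup.mem_centralizer_iff.mp hk.2 _ hx'
    calc x * (b * k * b⁻¹) = b * ((b⁻¹ * x * b) * k) * b⁻¹ := by group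
      _ = b * (k * (b⁻¹ * x * b)) * b⁻¹ := by rw [hk2]
      _ = b * k * b⁻¹ * x := by group
  -- `K ≤ B`
  have hKB : K ≤ D.borelSubgroup F := by
    obtain ⟨P, hPB, -, hPS⟩ := Cfsg.Agent.S1042.result (F := F) D hD
    have hBM : P.B ≤ (K ⊔ D.borelSubgroup F).subgroupOf (D.group F) := by
      rw [hPB]
      intro g hg
      rw [Subgroup.mem_subgroupOf] at hg ⊢
      exact (le_sup_right : _ ≤ K ⊔ D.borelSubgroup F) hg
    obtain ⟨I, hI, hMI⟩ := Cfsg.Agent.S0311.result P _ hBM
    have hle : P.parabolic I ≤ P.B := by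
      apply sup_le le_rfl
      rw [Subgroup.closure_le]
      intro n hn
      exfalso
      have hnS := hI hn
      rw [hPS] at hnS
      obtain ⟨i, hi, hni⟩ := hnS
      have hnM : n ∈ (K ⊔ D.borelSubgroup F).subgroupOf (D.group F) := by
        rw [hMI]
        exact (le_sup_right : _ ≤ P.parabolic I) (Subgroup.subset_closure hn)
      rw [Subgroup.mem_subgroupOf, ← SetLike.mem_coe,
        Subgroup.coe_mul_of_right_le_normalizer_left K _ hBK, Set.mem_mul] at hnM
      obtain ⟨k, hk, b, hb, hkb⟩ := hnM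
      rw [hB.eq_ng hni] at hkb
      obtain ⟨r, hr, hrc, hr', hne⟩ := ctOK_spec1 hct hi hj₀
      have hx : hB.xg r 1 ∈ D.unipotentRadical F J := xg_mem_urad hB (hPsi r hr hrc) 1
      have hk2 := Subgroup.mem_centralizer_iff.mp (Subgroup.mem_inf.mp (SetLike.mem_coe.mp hk)).2 _ hx
      obtain ⟨η, hη, hc⟩ := hB.ng_inv_conj_xg hT hi hr.1
      have hkk : k = hB.ng (D.simple i) 1 * b⁻¹ := by rw [← hkb]; group
      have e : b⁻¹ * hB.xg r 1 * (b⁻¹)⁻¹ = hB.xg (D.reflectRoot i r) (η * 1) := by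
        rw [← hc 1]
        rw [hkk] at hk2
        calc b⁻¹ * hB.xg r 1 * (b⁻¹)⁻¹
            = (hB.ng (D.simple i) 1)⁻¹ * ((hB.ng (D.simple i) 1 * b⁻¹) * hB.xg r 1) * b := by group
          _ = (hB.ng (D.simple i) 1)⁻¹ * (hB.xg r 1 * (hB.ng (D.simple i) 1 * b⁻¹)) * b := by rw [hk2]
          _ = (hB.ng (D.simple i) 1)⁻¹ * hB.xg r 1 * hB.ng (D.simple i) 1 := by group
      have := ht_eq_of_conj h hB hl htri hO (inv_mem hb) hr' hr
        (by rcases hη with rfl | rfl <;> simp) one_ne_zero e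
      rw [dJ_empty, dJ_empty] at this
      exact hne this
    intro k hk
    have h1 : (⟨k, hKG hk⟩ : D.group F) ∈ (K ⊔ D.borelSubgroup F).subgroupOf (D.group F) := by
      rw [Subgroup.mem_subgroupOf]; exact (le_sup_left : K ≤ _) hk
    rw [hMI] at h1
    have h2 := hle h1
    rw [hPB, Subgroup.mem_subgroupOf] at h2
    exact h2
  -- the `H`-part is trivial
  intro k hk
  obtain ⟨u, hu, g, hg, rfl⟩ := hB.mem_B_iff.mp (hKB hk)
  obtain ⟨c, hc, rfl⟩ := hB.exists_hprod hg
  have hchi : ∀ r, D.IsPosRoot r → cc D r j₀ ≠ 0 → chiC D c r = 1 := by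
    intro r hr hrc
    have hx : hB.xg r 1 ∈ D.unipotentRadical F J := xg_mem_urad hB (hPsi r hr hrc) 1
    have hk2 := Subgroup.mem_centralizer_iff.mp (Subgroup.mem_inf.mp hk).2 _ hx
    have e1 := hprod_conj_xg hB c hc hr.1 1
    rw [mul_inv_eq_iff_eq_mul] at e1
    have e2 : u * hB.xg r (chiC D c r * 1) = hB.xg r 1 * u := by
      have : u * hB.xg r (chiC D c r * 1) * hB.hprod c = hB.xg r 1 * u * hB.hprod c := by
        rw [mul_assoc, ← e1, ← mul_assoc, ← hk2, mul_assoc]
      exact mul_right_cancel this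
    have := coef_eq_of_conj h hB hl htri hO hu hr e2
    rwa [mul_one] at this
  have h1 : hB.hprod c = 1 := by
    apply hprod_eq_one h hB hT hd c hc
    intro j hj
    by_cases hjj : j = j₀
    · subst hjj
      exact hchi _ (hT.isPos_simple hj) (smOK_spec (smOK_of_mem hD) hj)
    · obtain ⟨s, r, hs, hsc, hch, hr, hrc⟩ := ctOK_spec2 hct hj hj₀ hjj
      have e := chiC_mul c hc (r := r) (a := D.simple j) (b := s)
        (fun i hi => h.cartan_add i hi _ _ _ (hT.simple_lt j hj) hs.1 hch)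
      rw [hchi r hr hrc, hchi s hs hsc, mul_one] at e
      exact e.symm
  rw [h1, mul_one]
  exact hu

end Cfsg.Agent.Lib.Helper17
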