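import Cfsg.Agent.Lib.Helper17.ChevLeviTab

set_option autoImplicit false

/-! Table checks for the centraliser of the unipotent radical of a parabolic subgroup. -/

namespace Cfsg.Agent.Lib.Helper17

open Cfsg.Lie Matrix Cfsg.Agent.Lib.Helper18

/-- a positive multiple of the height of a root -/
def htR (D : ChevalleyDatum) (r : ℕ) : ℤ := ((List.range D.rank).map (rcf D r)).sum

/-- Table check: for fundamental roots `i`, `j` there is a positive root involving `p_j` moved by `w_i` to a
positive root of another height; and if `i ≠ j` there are positive roots `s`, `s + p_i` involving `p_j`. -/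
def ctOK (D : ChevalleyDatum) : Bool :=
  (List.range D.rank).all fun i => (List.range D.rank).all fun j =>
    ((List.range D.nroots).any fun r => decide (D.IsPosRoot r) && decide (cc D r j ≠ 0) &&
      decide (D.IsPosRoot (D.reflectRoot i r)) && decide (htR D (D.reflectRoot i r) ≠ htR D r)) &&
    (decide (i = j) || (List.range D.nroots).any fun s => decide (D.IsPosRoot s) && decide (cc D s j ≠ 0) &&
      match D.chainRoot (D.simple i) s 1 with
      | some r => decide (D.IsPosRoot r) && decide (cc D r j ≠ 0)
      | none => false)

theorem ctOK_G2 : ctOK chevG2 = true := by decide +kernel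
theorem ctOK_B2 : ctOK chevB2 = true := by decide +kernel
theorem ctOK_D4 : ctOK chevD4 = true := by decide +kernel
theorem ctOK_F4 : ctOK chevF4 = true := by decide +kernel
theorem ctOK_E6 : ctOK chevE6 = true := by decide +kernel
theorem ctOK_E7 : ctOK chevE7 = true := by decide +kernel
theorem ctOK_E8 : ctOK chevE8 = true := by decide +kernel

theorem ctOK_of_mem {D : ChevalleyDatum}
    (hD : D ∈ [chevG2, chevB2, chevD4, chevF4, chevE6, chevE7, chevE8]) : ctOK D = true := by
  simp only [List.mem_cons, List.not_mem_nil, or_false] at hD
  rcases hD with rfl | rfl | rfl | rfl | rfl | rfl | rfl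
  · exact ctOK_G2
  · exact ctOK_B2
  · exact ctOK_D4
  · exact ctOK_F4
  · exact ctOK_E6
  · exact ctOK_E7
  · exact ctOK_E8

end Cfsg.Agent.Lib.Helper17
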