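import Cfsg.Agent.Lib.Helper17.ChevPar

set_option autoImplicit false

/-! Table checks for the generation of the tabulated Chevalley groups by `N` and fundamental root subgroups. -/

namespace Cfsg.Agent.Lib.Helper17

open Cfsg.Lie Matrix Cfsg.Agent.Lib.Helper18

/-- two fundamental roots of the same length joined in the diagram -/
def rEdge (D : ChevalleyDatum) (a b : ℕ) : Bool :=
  decide (D.bonds a b ≠ 0) && decide (D.reflectRoot a (D.reflectRoot b (D.simple a)) = D.simple b)

/-- a short fundamental root `a` joined to a long one `b`: a long root is the sum of two short ones -/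
def edge2 (D : ChevalleyDatum) (m a b : ℕ) : Bool :=
  decide (D.bonds a b ≠ 0) &&
  decide ((if m = 2 then D.reflectRoot b (D.simple a)
    else D.reflectRoot a (D.reflectRoot b (D.simple a))) ≠ D.simple a) &&
  decide ((if m = 2 then D.reflectRoot b (D.simple a)
    else D.reflectRoot a (D.reflectRoot b (D.simple a))) ≠ D.neg (D.simple a)) &&
  match D.commTerms (D.simple a) (if m = 2 then D.reflectRoot b (D.simple a)
    else D.reflectRoot a (D.reflectRoot b (D.simple a))) with
  | [c] => decide (c.2.1.natAbs = m) && decide (c.2.2.1 = 1) && decide (c.2.2.2 = 1) &&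
      decide (c.1 < D.nroots) && decide (D.reflectRoot a c.1 = D.simple b)
  | _ => false

def edgeB (D : ChevalleyDatum) (m a b : ℕ) : Bool := rEdge D a b || (m != 0 && edge2 D m a b)

def reachStep (D : ChevalleyDatum) (m : ℕ) (S : List ℕ) : List ℕ :=
  S ++ (List.range D.rank).filter fun b => !S.contains b && S.any fun a => edgeB D m a b

def reach (D : ChevalleyDatum) (m : ℕ) : ℕ → List ℕ → List ℕ
  | 0, S => S
  | n+1, S => reach D m n (reachStep D m S)

def genOK (D : ChevalleyDatum) (m : ℕ) : Bool :=
  (List.range D.rank).all fun i => (m != 0 && D.isLong (D.simple i)) ||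
    (List.range D.rank).all fun j => (reach D m D.rank [i]).contains j

def genOK2 (D : ChevalleyDatum) : Bool :=
  (List.range D.rank).all fun i => (List.range D.rank).all fun j =>
    D.isLong (D.simple i) || !D.isLong (D.simple j) || decide (D.bonds i j = 0) ||
    (List.range D.rank).all fun k => (reach D 0 D.rank [i, j]).contains k

theorem genOK_G2 : genOK chevG2 3 = true := by decide +kernel
theorem genOK_B2 : genOK chevB2 2 = true := by decide +kernel
theorem genOK_D4 : genOK chevD4 0 = true := by decide +kernel
theorem genOK_F4 : genOK chevF4 2 = true := by decide +kernel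
theorem genOK_E6 : genOK chevE6 0 = true := by decide +kernel
theorem genOK_E7 : genOK chevE7 0 = true := by decide +kernel
theorem genOK_E8 : genOK chevE8 0 = true := by decide +kernel

theorem genOK2_G2 : genOK2 chevG2 = true := by decide +kernel
theorem genOK2_B2 : genOK2 chevB2 = true := by decide +kernel
theorem genOK2_F4 : genOK2 chevF4 = true := by decide +kernel

end Cfsg.Agent.Lib.Helper17
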