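import Cfsg.Agent.Lib.Helper17.ChevLeviTab

set_option autoImplicit false

/-! Levi decomposition of the standard parabolic subgroups of the tabulated Chevalley groups. -/

namespace Cfsg.Agent.Lib.Helper17

open Cfsg.Lie Matrix Cfsg.Agent.Lib.Helper18

lemma lvOK_sign {D : ChevalleyDatum} (h : lvOK D = true) {r k : ℕ} (hr : r < D.nroots)
    (hk : k < D.rank) : Int.sign (rcf D r k) = Int.sign (cc D r k) := by
  unfold lvOK at h
  rw [List.all_eq_true] at h
  have h1 := h r (List.mem_range.mpr hr)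
  rw [List.all_eq_true] at h1
  simpa using h1 k (List.mem_range.mpr hk)

section
open Cfsg.Agent.Lib.Helper36

variable {D : ChevalleyDatum} {T : Fast} {W : WTab}

lemma rcf_neg (h : Checks D T W) (k s : ℕ) (hs : s < D.nroots) :
    rcf D (D.neg s) k = - rcf D s k := by
  unfold rcf
  have e : ((List.range D.rank).map fun i => ((adjTab D).getD k []).getD i 0 * D.cartan i (D.neg s)) =
      ((List.range D.rank).map fun i => (-1) * (((adjTab D).getD k []).getD i 0 * D.cartan i s)) := by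
    apply List.map_congr_left
    intro i hi
    rw [h.cartan_neg i (List.mem_range.mp hi) s hs]
    ring
  rw [e, List.sum_map_mul_left]
  ring

lemma rcf_ent (h : Checks D T W) (k a b : ℕ) (ha : a < D.nroots) (hb : b < D.nroots)
    (idx : ℕ) (q : ℕ × ℤ) (hq : (T.ent a b)[idx]? = some q) :
    rcf D q.1 k = (idx + 1 : ℕ) * rcf D a k + rcf D b k := by
  unfold rcf
  rw [← List.sum_map_mul_left, ← List.sum_map_add]
  congr 1
  apply List.map_congr_left
  intro i hi
  rw [(h.cartan_chain i (List.mem_range.mp hi) a b ha hb idx q hq).2]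
  ring

open Classical in
/-- the `J`-degree of a root: sum of its coefficients outside `J` -/
noncomputable def dJ (D : ChevalleyDatum) (J : Set ℕ) (r : ℕ) : ℤ :=
  ∑ k ∈ (Finset.range D.rank).filter (fun k => k ∉ J), rcf D r k

lemma dJ_neg (h : Checks D T W) (J : Set ℕ) (s : ℕ) (hs : s < D.nroots) :
    dJ D J (D.neg s) = - dJ D J s := by
  unfold dJ
  rw [← Finset.sum_neg_distrib]
  exact Finset.sum_congr rfl fun k _ => rcf_neg h k s hs

lemma dJ_ent (h : Checks D T W) (J : Set ℕ) (a b : ℕ) (ha : a < D.nroots) (hb : b < D.nroots)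
    (idx : ℕ) (q : ℕ × ℤ) (hq : (T.ent a b)[idx]? = some q) :
    q.1 < D.nroots ∧ dJ D J q.1 = (idx + 1 : ℕ) * dJ D J a + dJ D J b := by
  refine ⟨h.agree.hn ▸ h.agree.ch_lt a (h.agree.hn ▸ ha) b (h.agree.hn ▸ hb) q
    (List.mem_of_getElem? hq), ?_⟩
  unfold dJ
  rw [Finset.mul_sum, ← Finset.sum_add_distrib]
  exact Finset.sum_congr rfl fun k _ => rcf_ent h k a b ha hb idx q hq

lemma dJ_chainRoot (h : Checks D T W) (J : Set ℕ) {a b i u : ℕ} (ha : a < D.nroots)
    (hb : b < D.nroots) (hi : 1 ≤ i) (hu : D.chainRoot a b i = some u) :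
    u < D.nroots ∧ dJ D J u = i * dJ D J a + dJ D J b := by
  unfold ChevalleyDatum.chainRoot at hu
  rw [chainEntry_eq_ent h.agree a b (h.agree.hn ▸ ha) (h.agree.hn ▸ hb),
    Option.map_eq_some_iff] at hu
  obtain ⟨q, hq, rfl⟩ := hu
  have := dJ_ent h J a b ha hb _ q hq
  rwa [Nat.sub_add_cancel hi] at this

lemma dJ_chainCoeff (h : Checks D T W) (J : Set ℕ) {a b u : ℕ} (ha : a < D.nroots)
    (hb : b < D.nroots) {km : ℕ × ℤ} (hkm : km ∈ D.chainCoeff a b u) :
    1 ≤ km.1 ∧ dJ D J u = km.1 * dJ D J a + dJ D J b := by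
  rw [chainCoeff_eq, h.agree.ch_eq a (h.agree.hn ▸ ha) b (h.agree.hn ▸ hb)] at hkm
  obtain ⟨L, hL, hkm⟩ := List.mem_flatMap.mp hkm
  have hL' : L = T.ent a b := by
    split_ifs at hL
    · simp at hL
    · simpa using hL
  subst hL'
  obtain ⟨q, hq, rfl⟩ := List.mem_map.mp hkm
  rw [List.mem_filter] at hq
  have h2 : q.1.1 = u := by simpa using hq.2
  have h3 : (T.ent a b)[q.2]? = some q.1 := List.mem_zipIdx_iff_getElem?.mp hq.1
  have h4 := (dJ_ent h J a b ha hb q.2 q.1 h3).2
  rw [h2] at h4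
  exact ⟨by simp, h4⟩

lemma dJ_commTerms (h : Checks D T W) (J : Set ℕ) {r s : ℕ} (hr : r < D.nroots)
    (hs : s < D.nroots) {c : ℕ × ℤ × ℕ × ℕ} (hc : c ∈ D.commTerms r s) :
    c.1 < D.nroots ∧ ∃ i j : ℕ, 1 ≤ i ∧ 1 ≤ j ∧ dJ D J c.1 = i * dJ D J r + j * dJ D J s := by
  simp only [ChevalleyDatum.commTerms, List.mem_filterMap, List.mem_cons, List.not_mem_nil, or_false,
    Option.map_eq_some_iff] at hc
  obtain ⟨cand, hcand, k, hk, rfl⟩ := hc
  rcases hcand with rfl | rfl | rfl | rfl | rfl | rfl | rfl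
  · have := dJ_chainRoot h J hr hs (by norm_num) hk
    exact ⟨this.1, 1, 1, le_rfl, le_rfl, by rw [this.2]; push_cast; ring⟩
  · have := dJ_chainRoot h J hr hs (by norm_num) hk
    exact ⟨this.1, 2, 1, by norm_num, le_rfl, by rw [this.2]; push_cast; ring⟩
  · have := dJ_chainRoot h J hs hr (by norm_num) hk
    exact ⟨this.1, 1, 2, le_rfl, by norm_num, by rw [this.2]; push_cast; ring⟩
  · have := dJ_chainRoot h J hr hs (by norm_num) hk
    exact ⟨this.1, 3, 1, by norm_num, le_rfl, by rw [this.2]; push_cast; ring⟩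
  · have := dJ_chainRoot h J hs hr (by norm_num) hk
    exact ⟨this.1, 1, 3, le_rfl, by norm_num, by rw [this.2]; push_cast; ring⟩
  · simp only [Option.bind_eq_some_iff] at hk
    obtain ⟨m, hm, hk⟩ := hk
    have h1 := dJ_chainRoot h J hr hs (by norm_num) hm
    have := dJ_chainRoot h J h1.1 hs (by norm_num) hk
    exact ⟨this.1, 3, 2, by norm_num, by norm_num, by rw [this.2, h1.2]; push_cast; ring⟩
  · simp only [Option.bind_eq_some_iff] at hk
    obtain ⟨m, hm, hk⟩ := hk
    have h1 := dJ_chainRoot h J hs hr (by norm_num) hm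
    have := dJ_chainRoot h J h1.1 hr (by norm_num) hk
    exact ⟨this.1, 2, 3, by norm_num, by norm_num, by rw [this.2, h1.2]; push_cast; ring⟩

end

lemma getD_nonneg {a : Array ℤ} (h : ∀ c ∈ a.toList, 0 ≤ c) (k : ℕ) : 0 ≤ a.getD k 0 := by
  by_cases hk : k < a.size
  · have : a.getD k 0 = a[k] := by simp [Array.getD, hk]
    rw [this]
    exact h _ (by simp)
  · have : a.getD k 0 = 0 := by simp [Array.getD, hk]
    rw [this]

lemma getD_nonpos {a : Array ℤ} (h : ∀ c ∈ a.toList, c ≤ 0) (k : ℕ) : a.getD k 0 ≤ 0 := by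
  by_cases hk : k < a.size
  · have : a.getD k 0 = a[k] := by simp [Array.getD, hk]
    rw [this]
    exact h _ (by simp)
  · have : a.getD k 0 = 0 := by simp [Array.getD, hk]
    rw [this]

section
variable {D : ChevalleyDatum}

lemma rcf_nonneg (hl : lvOK D = true) {r k : ℕ} (hr : D.IsPosRoot r) (hk : k < D.rank) :
    0 ≤ rcf D r k := by
  rw [← Int.sign_nonneg_iff, lvOK_sign hl hr.1 hk, Int.sign_nonneg_iff]
  exact getD_nonneg hr.2 k

lemma rcf_nonpos (hl : lvOK D = true) {r k : ℕ} (hr : D.IsNegRoot r) (hk : k < D.rank) :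
    rcf D r k ≤ 0 := by
  rw [← Int.sign_nonpos_iff, lvOK_sign hl hr.1 hk, Int.sign_nonpos_iff]
  exact getD_nonpos hr.2 k

lemma rcf_eq_zero_iff (hl : lvOK D = true) {r k : ℕ} (hr : r < D.nroots) (hk : k < D.rank) :
    rcf D r k = 0 ↔ cc D r k = 0 := by
  rw [← Int.sign_eq_zero_iff_zero, lvOK_sign hl hr hk, Int.sign_eq_zero_iff_zero]

lemma dJ_eq_zero (hl : lvOK D = true) {J : Set ℕ} {r : ℕ} (hr : D.InRootSub J r) : dJ D J r = 0 := by
  classical
  unfold dJ
  apply Finset.sum_eq_zero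
  intro k hk
  rw [Finset.mem_filter, Finset.mem_range] at hk
  exact (rcf_eq_zero_iff hl hr.1 hk.1).mpr (hr.2 k hk.1 hk.2)

lemma dJ_nonneg (hl : lvOK D = true) (J : Set ℕ) {r : ℕ} (hr : D.IsPosRoot r) : 0 ≤ dJ D J r := by
  classical
  unfold dJ
  apply Finset.sum_nonneg
  intro k hk
  rw [Finset.mem_filter, Finset.mem_range] at hk
  exact rcf_nonneg hl hr hk.1

lemma dJ_nonpos (hl : lvOK D = true) (J : Set ℕ) {r : ℕ} (hr : D.IsNegRoot r) : dJ D J r ≤ 0 := by
  classical
  unfold dJ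
  apply Finset.sum_nonpos
  intro k hk
  rw [Finset.mem_filter, Finset.mem_range] at hk
  exact rcf_nonpos hl hr hk.1

lemma dJ_pos (hl : lvOK D = true) {J : Set ℕ} {r : ℕ} (hr : D.IsPosRoot r)
    (hJ : ¬ D.InRootSub J r) : 0 < dJ D J r := by
  have : ∃ i, i < D.rank ∧ i ∉ J ∧ cc D r i ≠ 0 := by
    by_contra hc
    push Not at hc
    exact hJ ⟨hr.1, hc⟩
  obtain ⟨i, hi, hiJ, hne⟩ := this
  classical
  unfold dJ
  apply Finset.sum_pos'
  · intro k hk
    rw [Finset.mem_filter, Finset.mem_range] at hk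
    exact rcf_nonneg hl hr hk.1
  · refine ⟨i, by rw [Finset.mem_filter, Finset.mem_range]; exact ⟨hi, hiJ⟩, ?_⟩
    exact lt_of_le_of_ne (rcf_nonneg hl hr hi) (fun e => hne ((rcf_eq_zero_iff hl hr.1 hi).mp e.symm))

/-- the roots of positive `J`-degree are the positive roots outside `Φ_J` -/
lemma dJ_pos_iff (hl : lvOK D = true) (hT : Tab D) {J : Set ℕ} {r : ℕ} (hr : r < D.nroots) :
    0 < dJ D J r ↔ D.IsPosRoot r ∧ ¬ D.InRootSub J r := by
  constructor
  · intro h
    refine ⟨?_, fun hc => by rw [dJ_eq_zero hl hc] at h; exact lt_irrefl _ h⟩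
    rcases hT.pos_or_neg hr with h1 | h1
    · exact h1
    · exact absurd (dJ_nonpos hl J h1) (not_le.mpr h)
  · rintro ⟨h1, h2⟩
    exact dJ_pos hl h1 h2

end

/-! ### the grading of the adjoint module -/

/-- degree of a basis vector -/
noncomputable def dI (D : ChevalleyDatum) (J : Set ℕ) : D.Idx → ℤ
  | Sum.inl _ => 0
  | Sum.inr s => dJ D J s.val

section
open Cfsg.Agent.Lib.Helper36

variable {D : ChevalleyDatum} {T : Fast} {W : WTab} {F : Type*} [Field F]

theorem x_support (h : Checks D T W) (J : Set ℕ) {r : ℕ} (hr : r < D.nroots) (t : F)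
    (row col : D.Idx) (hne : D.x F r t row col ≠ 0) :
    row = col ∨ ∃ k : ℕ, 1 ≤ k ∧ dI D J row = dI D J col + k * dJ D J r := by
  unfold ChevalleyDatum.x at hne
  rw [dif_pos hr] at hne
  rcases col with i | s
  · rcases row with i' | u
    · left
      by_contra hc
      apply hne
      have : i' ≠ i := fun e => hc (by rw [e])
      simp [xMat_def, this]
    · right
      by_cases hu : u = ⟨r, hr⟩
      · subst hu
        exact ⟨1, le_rfl, by simp [dI]⟩
      · exfalso
        apply hne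
        simp [xMat_def, hu]
  · simp only [xMat_def, Matrix.of_apply] at hne
    by_cases hs : s = ⟨r, hr⟩
    · rw [if_pos hs] at hne
      rcases row with i' | u
      · exact absurd rfl hne
      · left
        by_contra hc
        apply hne
        have : u ≠ ⟨r, hr⟩ := fun e => hc (by rw [e, hs])
        simp [this]
    · rw [if_neg hs] at hne
      by_cases hs2 : s.val = D.negIdx.getD r 0
      · rw [if_pos hs2] at hne
        have hd : dJ D J s.val = - dJ D J r := by
          rw [hs2]; exact dJ_neg h J r hr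
        rcases row with i' | u
        · right
          exact ⟨1, le_rfl, by simp [dI, hd]⟩
        · by_cases hu : u = s
          · left; rw [hu]
          · simp only [if_neg hu] at hne
            by_cases hu2 : u = ⟨r, hr⟩
            · right
              subst hu2
              exact ⟨2, by norm_num, by simp only [dI, hd]; push_cast; ring⟩
            · rw [if_neg hu2] at hne
              exact absurd rfl hne
      · rw [if_neg hs2] at hne
        rcases row with i' | u
        · exact absurd rfl hne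
        · by_cases hu : u = s
          · left; rw [hu]
          · right
            simp only [if_neg hu, zero_add] at hne
            have : D.chainCoeff r s.val u.val ≠ [] := by
              intro e
              rw [e] at hne
              exact hne rfl
            obtain ⟨km, hkm⟩ := List.exists_mem_of_ne_nil _ this
            obtain ⟨h1, h2⟩ := dJ_chainCoeff h J hr s.2 hkm
            exact ⟨km.1, h1, by simp only [dI]; rw [h2]; ring⟩

end

/-! ### block-diagonal and strictly block-triangular matrices -/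

section
variable {ι : Type*} [Fintype ι] [DecidableEq ι] {F : Type*} [Field F] (d : ι → ℤ)

/-- matrices preserving the grading `d` -/
def BDg (M : Matrix ι ι F) : Prop := ∀ a b, M a b ≠ 0 → d a = d b

/-- matrices strictly raising the grading `d` -/
def SRg (M : Matrix ι ι F) : Prop := ∀ a b, M a b ≠ 0 → d b < d a

variable {d}

lemma BDg.one : BDg d (1 : Matrix ι ι F) := by
  intro a b h
  by_cases e : a = b
  · rw [e]
  · exact absurd (Matrix.one_apply_ne e) h

lemma BDg.mul {A B : Matrix ι ι F} (hA : BDg d A) (hB : BDg d B) : BDg d (A * B) := by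
  intro a b h
  rw [Matrix.mul_apply] at h
  obtain ⟨c, _, hc⟩ := Finset.exists_ne_zero_of_sum_ne_zero h
  exact (hA a c (left_ne_zero_of_mul hc)).trans (hB c b (right_ne_zero_of_mul hc))

lemma SRg.zero : SRg d (0 : Matrix ι ι F) := fun a b h => absurd rfl h

lemma SRg.add {A B : Matrix ι ι F} (hA : SRg d A) (hB : SRg d B) : SRg d (A + B) := by
  intro a b h
  rw [Matrix.add_apply] at h
  by_cases h1 : A a b = 0
  · rw [h1, zero_add] at h
    exact hB a b h
  · exact hA a b h1

lemma SRg.mul {A B : Matrix ι ι F} (hA : SRg d A) (hB : SRg d B) : SRg d (A * B) := by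
  intro a b h
  rw [Matrix.mul_apply] at h
  obtain ⟨c, _, hc⟩ := Finset.exists_ne_zero_of_sum_ne_zero h
  exact (hB c b (right_ne_zero_of_mul hc)).trans (hA a c (left_ne_zero_of_mul hc))

lemma SRg.mul_sub_one {A B : Matrix ι ι F} (hA : SRg d (A - 1)) (hB : SRg d (B - 1)) :
    SRg d (A * B - 1) := by
  have : A * B - 1 = (A - 1) * (B - 1) + (A - 1) + (B - 1) := by noncomm_ring
  rw [this]
  exact ((hA.mul hB).add hA).add hB

variable (d) (F)

/-- the group of invertible matrices preserving the grading -/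
def bdGroup : Subgroup (GL ι F) where
  carrier := {g | BDg d (g : Matrix ι ι F) ∧ BDg d ((g⁻¹ : GL ι F) : Matrix ι ι F)}
  mul_mem' := by
    rintro a b ⟨ha, ha'⟩ ⟨hb, hb'⟩
    refine ⟨by rw [Units.val_mul]; exact ha.mul hb, ?_⟩
    rw [_root_.mul_inv_rev, Units.val_mul]
    exact hb'.mul ha'
  one_mem' := by
    refine ⟨by rw [Units.val_one]; exact BDg.one, ?_⟩
    rw [inv_one, Units.val_one]; exact BDg.one
  inv_mem' := by
    rintro a ⟨ha, ha'⟩
    exact ⟨ha', by rw [inv_inv]; exact ha⟩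

/-- the group of invertible matrices `g` with `g - 1` strictly raising the grading -/
def srGroup : Subgroup (GL ι F) where
  carrier := {g | SRg d ((g : Matrix ι ι F) - 1) ∧ SRg d (((g⁻¹ : GL ι F) : Matrix ι ι F) - 1)}
  mul_mem' := by
    rintro a b ⟨ha, ha'⟩ ⟨hb, hb'⟩
    refine ⟨by rw [Units.val_mul]; exact ha.mul_sub_one hb, ?_⟩
    rw [_root_.mul_inv_rev, Units.val_mul]
    exact hb'.mul_sub_one ha'
  one_mem' := by
    refine ⟨by rw [Units.val_one, sub_self]; exact SRg.zero, ?_⟩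
    rw [inv_one, Units.val_one, sub_self]; exact SRg.zero
  inv_mem' := by
    rintro a ⟨ha, ha'⟩
    exact ⟨ha', by rw [inv_inv]; exact ha⟩

theorem srGroup_inf_bdGroup : srGroup F d ⊓ bdGroup F d = ⊥ := by
  rw [eq_bot_iff]
  rintro g ⟨⟨h1, _⟩, ⟨h2, _⟩⟩
  rw [Subgroup.mem_bot]
  apply Units.ext
  ext a b
  by_contra hne
  have h3 : ((g : Matrix ι ι F) - 1) a b ≠ 0 := by
    rw [Matrix.sub_apply]
    exact sub_ne_zero.mpr hne
  have h4 := h1 a b h3
  have hab : a ≠ b := by rintro rfl; exact lt_irrefl _ h4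
  have h5 : (g : Matrix ι ι F) a b ≠ 0 := by
    rw [Matrix.sub_apply, Matrix.one_apply_ne hab, sub_zero] at h3
    exact h3
  have := h2 a b h5
  omega

end

/-! ### the Levi decomposition -/

section
open Cfsg.Agent.Lib.Helper36

variable {D : ChevalleyDatum} {T : Fast} {W : WTab} {F : Type*} [Field F]

lemma bdg_x (h : Checks D T W) (J : Set ℕ) {r : ℕ} (hr : r < D.nroots) (h0 : dJ D J r = 0) (t : F) :
    BDg (dI D J) (D.x F r t) := by
  intro a b hne
  rcases x_support h J hr t a b hne with rfl | ⟨k, _, hk⟩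
  · rfl
  · rw [hk, h0]; ring

lemma srg_x (h : Checks D T W) (hT : triOK D = true) (J : Set ℕ) {r : ℕ} (hr : D.IsPosRoot r)
    (h0 : 0 < dJ D J r) (t : F) : SRg (dI D J) (D.x F r t - 1) := by
  intro a b hne
  have hab : a ≠ b := by
    rintro rfl
    exact hne (filt_x_sub_one hT hr t a a (by omega))
  rw [Matrix.sub_apply, Matrix.one_apply_ne hab, sub_zero] at hne
  rcases x_support h J hr.1 t a b hne with e | ⟨k, hk1, hk⟩
  · exact absurd e hab
  · rw [hk]
    have : (0 : ℤ) < k * dJ D J r := by positivity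
    omega

theorem levi_le_bdGroup (h : Checks D T W) (hB : Base D F) (hl : lvOK D = true) (J : Set ℕ) :
    D.leviSubgroup F J ≤ bdGroup F (dI D J) := by
  unfold ChevalleyDatum.leviSubgroup
  apply sup_le
  · have key : ∀ g ∈ D.diagonalSubgroup F, BDg (dI D J) (g : Matrix D.Idx D.Idx F) := by
      intro g hg a b hne
      obtain ⟨χ, _, h2⟩ := hB.exists_dg hg
      by_cases hab : a = b
      · rw [hab]
      · rw [h2, dg, Matrix.diagonal_apply_ne _ hab] at hne
        exact absurd rfl hne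
    intro g hg
    exact ⟨key g hg, key _ (inv_mem hg)⟩
  · rw [Subgroup.closure_le]
    rintro g ⟨r, t, hr, hg⟩
    rw [hB.eq_xg hg]
    refine ⟨bdg_x h J hr.1 (dJ_eq_zero hl hr) t, ?_⟩
    rw [hB.xg_inv]
    exact bdg_x h J hr.1 (dJ_eq_zero hl hr) _

theorem urad_le_srGroup (h : Checks D T W) (hB : Base D F) (hl : lvOK D = true)
    (hT : triOK D = true) (J : Set ℕ) :
    D.unipotentRadical F J ≤ srGroup F (dI D J) := by
  unfold ChevalleyDatum.unipotentRadical
  rw [Subgroup.closure_le]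
  rintro g ⟨r, t, hr, hrJ, hg⟩
  rw [hB.eq_xg hg]
  refine ⟨srg_x h hT J hr (dJ_pos hl hr hrJ) t, ?_⟩
  rw [hB.xg_inv]
  exact srg_x h hT J hr (dJ_pos hl hr hrJ) _

theorem urad_inf_levi (h : Checks D T W) (hB : Base D F) (hl : lvOK D = true)
    (hT : triOK D = true) (J : Set ℕ) :
    D.unipotentRadical F J ⊓ D.leviSubgroup F J = ⊥ := by
  rw [eq_bot_iff, ← srGroup_inf_bdGroup F (dI D J)]
  exact inf_le_inf (urad_le_srGroup h hB hl hT J) (levi_le_bdGroup h hB hl J)

theorem urad_sup_levi (J : Set ℕ) :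
    D.unipotentRadical F J ⊔ D.leviSubgroup F J = parGen D F J := by
  apply le_antisymm
  · apply sup_le
    · refine le_trans ?_ (le_sup_right : _ ≤ parGen D F J)
      apply Subgroup.closure_mono
      rintro g ⟨r, t, hr, _, hg⟩
      exact ⟨r, t, Or.inl hr, hg⟩
    · refine sup_le le_sup_left (le_trans ?_ (le_sup_right : _ ≤ parGen D F J))
      apply Subgroup.closure_mono
      rintro g ⟨r, t, hr, hg⟩
      exact ⟨r, t, Or.inr hr, hg⟩
  · refine sup_le (le_trans le_sup_left le_sup_right) ?_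
    rw [Subgroup.closure_le]
    rintro g ⟨r, t, hr, hg⟩
    by_cases hJ : D.InRootSub J r
    · exact (le_sup_right : D.leviSubgroup F J ≤ _)
        ((le_sup_right : _ ≤ D.leviSubgroup F J) (Subgroup.subset_closure ⟨r, t, hJ, hg⟩))
    · have hp : D.IsPosRoot r := hr.resolve_right hJ
      exact (le_sup_left : D.unipotentRadical F J ≤ _) (Subgroup.subset_closure ⟨r, t, hp, hJ, hg⟩)

lemma urad_eq (hB : Base D F) (J : Set ℕ) : D.unipotentRadical F J =
    Subgroup.closure {g | ∃ (r : ℕ) (t : F), (D.IsPosRoot r ∧ ¬ D.InRootSub J r) ∧ g = hB.xg r t} := by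
  unfold ChevalleyDatum.unipotentRadical
  congr 1
  ext g
  constructor
  · rintro ⟨s, t, h1, h2, h⟩; exact ⟨s, t, ⟨h1, h2⟩, hB.eq_xg h⟩
  · rintro ⟨s, t, ⟨h1, h2⟩, rfl⟩; exact ⟨s, t, h1, h2, rfl⟩

lemma xg_mem_urad (hB : Base D F) {J : Set ℕ} {r : ℕ} (hr : D.IsPosRoot r ∧ ¬ D.InRootSub J r) (t : F) :
    hB.xg r t ∈ D.unipotentRadical F J :=
  Subgroup.subset_closure ⟨r, t, hr.1, hr.2, rfl⟩

theorem root_le_normalizer_urad (h : Checks D T W) (hB : Base D F) (hl : lvOK D = true) (hT : Tab D)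
    (J : Set ℕ) {r : ℕ} (hr : D.IsPosRoot r ∨ D.InRootSub J r) :
    D.rootSubgroup F r ≤ Subgroup.normalizer (D.unipotentRadical F J : Set (GL D.Idx F)) := by
  have hrn : r < D.nroots := hr.elim (fun h => h.1) (fun h => h.1)
  have hr0 : 0 ≤ dJ D J r := hr.elim (fun h => dJ_nonneg hl J h) (fun h => (dJ_eq_zero hl h).ge)
  rw [urad_eq hB, Subgroup.le_normalizer_closure_iff, ← urad_eq hB]
  rintro g hg _ ⟨s, u, hs, rfl⟩
  have hg' : g ∈ (D.rootSubgroup F r : Set (GL D.Idx F)) := hg
  rw [hB.rootSubgroup_eq] at hg'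
  obtain ⟨t, rfl⟩ := hg'
  have hs0 : 0 < dJ D J s := dJ_pos hl hs.1 hs.2
  by_cases h1 : s = r
  · subst h1
    rw [hB.xg_inv, hB.xg_add, hB.xg_add]
    exact xg_mem_urad hB hs _
  have h2 : s ≠ D.neg r := by
    rintro rfl
    rw [dJ_neg h J r hrn] at hs0
    omega
  have e : hB.xg r t * hB.xg s u * (hB.xg r t)⁻¹ = (hB.xg r (-t))⁻¹ * hB.xg s u * hB.xg r (-t) := by
    rw [hB.xg_inv r (-t), neg_neg, hB.xg_inv]
  rw [e, hB.comm_xg hrn hs.1.1 h1 h2]
  refine mul_mem (xg_mem_urad hB hs u) ?_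
  apply Subgroup.list_prod_mem
  intro x hx
  obtain ⟨p, hp, rfl⟩ := List.mem_map.mp hx
  unfold ChevalleyDatum.commWord at hp
  obtain ⟨c, hc, rfl⟩ := List.mem_map.mp hp
  obtain ⟨hcn, i, j, hi, hj, hd⟩ := dJ_commTerms h J hrn hs.1.1 hc
  apply xg_mem_urad hB
  rw [← dJ_pos_iff hl hT hcn, hd]
  have h3 : (0 : ℤ) ≤ i * dJ D J r := by positivity
  have h4 : (0 : ℤ) < j * dJ D J s := by positivity
  omega

theorem parGen_le_normalizer_urad (h : Checks D T W) (hB : Base D F) (hl : lvOK D = true) (hT : Tab D)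
    (J : Set ℕ) :
    parGen D F J ≤ Subgroup.normalizer (D.unipotentRadical F J : Set (GL D.Idx F)) := by
  apply sup_le
  · rw [urad_eq hB, Subgroup.le_normalizer_closure_iff]
    rintro g hg _ ⟨r, t, hr, rfl⟩
    obtain ⟨c, _, hc⟩ := hB.H_conj_xg hg hr.1.1
    rw [hc t]
    exact Subgroup.subset_closure ⟨r, _, hr, rfl⟩
  · rw [Subgroup.closure_le]
    rintro g ⟨r, t, hr, hg⟩
    rw [hB.eq_xg hg]
    exact root_le_normalizer_urad h hB hl hT J hr (hB.xg_mem_root r t)

end

end Cfsg.Agent.Lib.Helper17
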