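import Cfsg.Agent.Lib.Helper17.ChevPar

set_option autoImplicit false

/-! Levi decomposition of the standard parabolic subgroups of the tabulated Chevalley groups. -/

namespace Cfsg.Agent.Lib.Helper17

open Cfsg.Lie Matrix Cfsg.Agent.Lib.Helper18

/-- adjugates of the Cartan matrices -/
def adjTab (D : ChevalleyDatum) : List (List ℤ) :=
  if D.nroots = 12 then [[2,3],[1,2]]
  else if D.nroots = 8 then [[2,2],[1,2]]
  else if D.nroots = 24 then [[4,4,2,2],[4,8,4,4],[2,4,4,2],[2,4,2,4]]
  else if D.nroots = 48 then [[2,3,4,2],[3,6,8,4],[2,4,6,3],[1,2,3,2]]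
  else if D.nroots = 72 then [[4,3,5,6,4,2],[3,6,6,9,6,3],[5,6,10,12,8,4],[6,9,12,18,12,6],
    [4,6,8,12,10,5],[2,3,4,6,5,4]]
  else if D.nroots = 126 then [[4,4,6,8,6,4,2],[4,7,8,12,9,6,3],[6,8,12,16,12,8,4],
    [8,12,16,24,18,12,6],[6,9,12,18,15,10,5],[4,6,8,12,10,8,4],[2,3,4,6,5,4,3]]
  else [[4,5,7,10,8,6,4,2],[5,8,10,15,12,9,6,3],[7,10,14,20,16,12,8,4],[10,15,20,30,24,18,12,6],
    [8,12,16,24,20,15,10,5],[6,9,12,18,15,12,8,4],[4,6,8,12,10,8,6,3],[2,3,4,6,5,4,3,2]]

/-- a positive multiple of the coefficient of the root `r` on the `k`-th fundamental root -/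
def rcf (D : ChevalleyDatum) (r k : ℕ) : ℤ :=
  ((List.range D.rank).map fun i => ((adjTab D).getD k []).getD i 0 * D.cartan i r).sum

/-- Table check: signs of the root coefficients. -/
def lvOK (D : ChevalleyDatum) : Bool :=
  (List.range D.nroots).all fun r => (List.range D.rank).all fun k =>
    decide (Int.sign (rcf D r k) = Int.sign (cc D r k))

theorem lvOK_G2 : lvOK chevG2 = true := by decide +kernel
theorem lvOK_B2 : lvOK chevB2 = true := by decide +kernel
theorem lvOK_D4 : lvOK chevD4 = true := by decide +kernel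
theorem lvOK_F4 : lvOK chevF4 = true := by decide +kernel
theorem lvOK_E6 : lvOK chevE6 = true := by decide +kernel
theorem lvOK_E7 : lvOK chevE7 = true := by decide +kernel
theorem lvOK_E8 : lvOK chevE8 = true := by decide +kernel

theorem lvOK_of_mem {D : ChevalleyDatum}
    (hD : D ∈ [chevG2, chevB2, chevD4, chevF4, chevE6, chevE7, chevE8]) : lvOK D = true := by
  simp only [List.mem_cons, List.not_mem_nil, or_false] at hD
  rcases hD with rfl | rfl | rfl | rfl | rfl | rfl | rfl
  · exact lvOK_G2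
  · exact lvOK_B2
  · exact lvOK_D4
  · exact lvOK_F4
  · exact lvOK_E6
  · exact lvOK_E7
  · exact lvOK_E8

end Cfsg.Agent.Lib.Helper17
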