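import Cfsg.Agent.Lib.Helper18.ChevFinal

set_option autoImplicit false

/-! Standard parabolic subgroups of the tabulated Chevalley groups: `P_J = ⟨H, X_r : r ∈ Φ⁺ ∪ Φ_J⟩`. -/

namespace Cfsg.Agent.Lib.Helper17

open Cfsg.Lie Matrix Cfsg.Agent.Lib.Helper18

/-- coefficient of the coroot of `r` on the `i`-th fundamental coroot -/
def cc (D : ChevalleyDatum) (r i : ℕ) : ℤ := (D.coroot.getD r #[]).getD i 0

/-- height of the coroot -/
def corSum (D : ChevalleyDatum) (r : ℕ) : ℤ := ((List.range D.rank).map (cc D r)).sum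

/-- distance to the fundamental roots -/
def muP (D : ChevalleyDatum) (r : ℕ) : ℕ := (corSum D r).natAbs + (if corSum D r < 0 then 1 else 0)

/-- Table check: every root that is not fundamental is moved closer to the fundamental roots by a
fundamental reflection in its support; only one coordinate changes. -/
def descOK (D : ChevalleyDatum) : Bool :=
  ((List.range D.nroots).all fun r =>
    ((List.range D.rank).any fun j => decide (r = D.simple j)) ||
    ((List.range D.rank).any fun i => decide (cc D r i ≠ 0) &&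
      decide (muP D (D.reflectRoot i r) < muP D r) &&
      (List.range D.rank).all fun k => decide (k = i) || decide (cc D (D.reflectRoot i r) k = cc D r k))) &&
  ((List.range D.rank).all fun j => (List.range D.rank).all fun k =>
    decide (k = j) || (decide (cc D (D.simple j) k = 0) && decide (cc D (D.neg (D.simple j)) k = 0)))

theorem descOK_G2 : descOK chevG2 = true := by decide +kernel
theorem descOK_B2 : descOK chevB2 = true := by decide +kernel
theorem descOK_D4 : descOK chevD4 = true := by decide +kernel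
theorem descOK_F4 : descOK chevF4 = true := by decide +kernel
theorem descOK_E6 : descOK chevE6 = true := by decide +kernel
theorem descOK_E7 : descOK chevE7 = true := by decide +kernel
theorem descOK_E8 : descOK chevE8 = true := by decide +kernel

theorem descOK_of_mem {D : ChevalleyDatum}
    (hD : D ∈ [chevG2, chevB2, chevD4, chevF4, chevE6, chevE7, chevE8]) : descOK D = true := by
  simp only [List.mem_cons, List.not_mem_nil, or_false] at hD
  rcases hD with rfl | rfl | rfl | rfl | rfl | rfl | rfl
  · exact descOK_G2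
  · exact descOK_B2
  · exact descOK_D4
  · exact descOK_F4
  · exact descOK_E6
  · exact descOK_E7
  · exact descOK_E8

lemma descOK_spec {D : ChevalleyDatum} (h : descOK D = true) {r : ℕ} (hr : r < D.nroots) :
    (∃ j, j < D.rank ∧ r = D.simple j) ∨ ∃ i, i < D.rank ∧ cc D r i ≠ 0 ∧
      muP D (D.reflectRoot i r) < muP D r ∧
      ∀ k, k < D.rank → k ≠ i → cc D (D.reflectRoot i r) k = cc D r k := by
  unfold descOK at h
  rw [Bool.and_eq_true, List.all_eq_true] at h
  have h1 := h.1 r (List.mem_range.mpr hr)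
  rw [Bool.or_eq_true, List.any_eq_true, List.any_eq_true] at h1
  rcases h1 with ⟨j, hj, h2⟩ | ⟨i, hi, h2⟩
  · exact Or.inl ⟨j, List.mem_range.mp hj, by simpa using h2⟩
  · right
    rw [Bool.and_eq_true, Bool.and_eq_true, List.all_eq_true] at h2
    refine ⟨i, List.mem_range.mp hi, by simpa using h2.1.1, by simpa using h2.1.2, ?_⟩
    intro k hk hki
    have := h2.2 k (List.mem_range.mpr hk)
    simpa [hki] using this

lemma descOK_simple {D : ChevalleyDatum} (h : descOK D = true) {j k : ℕ} (hj : j < D.rank)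
    (hk : k < D.rank) (hkj : k ≠ j) :
    cc D (D.simple j) k = 0 ∧ cc D (D.neg (D.simple j)) k = 0 := by
  unfold descOK at h
  rw [Bool.and_eq_true, List.all_eq_true, List.all_eq_true] at h
  have h1 := h.2 j (List.mem_range.mpr hj)
  rw [List.all_eq_true] at h1
  have h2 := h1 k (List.mem_range.mpr hk)
  simpa [hkj] using h2

lemma inRootSub_iff {D : ChevalleyDatum} {J : Set ℕ} {r : ℕ} :
    D.InRootSub J r ↔ r < D.nroots ∧ ∀ i, i < D.rank → i ∉ J → cc D r i = 0 := Iff.rfl

/-- Induction over the roots of the subsystem `Φ_J`. -/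
theorem inRootSub_induction {D : ChevalleyDatum} (hd : descOK D = true) (hT : Tab D) (J : Set ℕ)
    (P : ℕ → Prop) (h0 : ∀ j, j < D.rank → P (D.simple j))
    (hstep : ∀ i, i ∈ J → i < D.rank → ∀ r, D.InRootSub J r → P r → P (D.reflectRoot i r)) :
    ∀ r, D.InRootSub J r → P r := by
  have main : ∀ n r, muP D r ≤ n → D.InRootSub J r → P r := by
    intro n
    induction n with
    | zero =>
      intro r hn hr
      rcases descOK_spec hd hr.1 with ⟨j, hj, rfl⟩ | ⟨i, _, _, h3, _⟩
      · exact h0 j hj
      · omega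
    | succ n ih =>
      intro r hn hr
      rcases descOK_spec hd hr.1 with ⟨j, hj, rfl⟩ | ⟨i, hi, h2, h3, h4⟩
      · exact h0 j hj
      · have hiJ : i ∈ J := by
          by_contra hc
          exact h2 (hr.2 i hi hc)
        have hr' : D.InRootSub J (D.reflectRoot i r) := by
          refine ⟨hT.refl_lt i r hi hr.1, fun k hk hkJ => ?_⟩
          have hki : k ≠ i := fun e => hkJ (e ▸ hiJ)
          exact (h4 k hk hki).trans (hr.2 k hk hkJ)
        have := hstep i hiJ hi _ hr' (ih _ (by omega) hr')
        rwa [hT.refl_refl i r hi hr.1] at this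
  intro r hr
  exact main _ r le_rfl hr

lemma inRootSub_simple {D : ChevalleyDatum} (hd : descOK D = true) (hT : Tab D) {J : Set ℕ} {j : ℕ}
    (hj : j < D.rank) (hjJ : j ∈ J) :
    D.InRootSub J (D.simple j) ∧ D.InRootSub J (D.neg (D.simple j)) := by
  refine ⟨⟨hT.simple_lt j hj, fun i hi hiJ => ?_⟩, ⟨hT.neg_lt (hT.simple_lt j hj), fun i hi hiJ => ?_⟩⟩
  · exact (descOK_simple hd hj hi (fun e => hiJ (e ▸ hjJ))).1
  · exact (descOK_simple hd hj hi (fun e => hiJ (e ▸ hjJ))).2

/-- the group `⟨H, X_r : r ∈ Φ⁺ ∪ Φ_J⟩` -/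
def parGen (D : ChevalleyDatum) (F : Type*) [Field F] (J : Set ℕ) : Subgroup (GL D.Idx F) :=
  D.diagonalSubgroup F ⊔ Subgroup.closure {g : GL D.Idx F | ∃ (r : ℕ) (t : F),
    (D.IsPosRoot r ∨ D.InRootSub J r) ∧ (g : Matrix D.Idx D.Idx F) = D.x F r t}

variable {D : ChevalleyDatum} {F : Type*} [Field F]

lemma ng_simple_mem_parabolic (hB : Base D F) {J : Set ℕ} {j : ℕ} (hj : j < D.rank) (hjJ : j ∈ J) :
    hB.ng (D.simple j) 1 ∈ D.parabolicSubgroup F J :=
  (le_sup_right : _ ≤ D.parabolicSubgroup F J) (Subgroup.subset_closure ⟨j, hjJ, hj, by simp⟩)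

lemma B_le_parabolic (J : Set ℕ) : D.borelSubgroup F ≤ D.parabolicSubgroup F J := le_sup_left

/-- root elements of `Φ_J` lie in `P_J` -/
theorem xg_mem_parabolic (hB : Base D F) (hd : descOK D = true) (hT : Tab D) (J : Set ℕ) :
    ∀ r, D.InRootSub J r → ∀ t : F, hB.xg r t ∈ D.parabolicSubgroup F J := by
  apply inRootSub_induction hd hT J
  · intro j hj t
    exact B_le_parabolic J (Base.U_le_B (hB.xg_mem_pos (hT.isPos_simple hj) t))
  · intro i hiJ hi r hr ih t
    obtain ⟨η, hη, h⟩ := hB.ng_conj_xg hi hr.1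
    have h1 := (h (η * t)).1
    have h2 : η * (η * t) = t := by
      rcases hη with rfl | rfl <;> simp
    rw [h2] at h1
    rw [← h1]
    have hn := ng_simple_mem_parabolic hB hi hiJ
    exact mul_mem (mul_mem hn (ih _)) (inv_mem hn)

theorem parabolic_eq_parGen (hB : Base D F) (hd : descOK D = true) (hT : Tab D) (J : Set ℕ) :
    D.parabolicSubgroup F J = parGen D F J := by
  apply le_antisymm
  · unfold ChevalleyDatum.parabolicSubgroup ChevalleyDatum.borelSubgroup
    refine sup_le (sup_le ?_ le_sup_left) ?_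
    · refine le_trans ?_ (le_sup_right : _ ≤ parGen D F J)
      unfold ChevalleyDatum.posUnipotent
      apply Subgroup.closure_mono
      rintro g ⟨r, t, hr, hg⟩
      exact ⟨r, t, Or.inl hr, hg⟩
    · rw [Subgroup.closure_le]
      rintro g ⟨j, hjJ, hj, hg⟩
      rw [hB.eq_ng hg]
      obtain ⟨h1, h2⟩ := inRootSub_simple hd hT hj hjJ
      have key : ∀ (r : ℕ) (t : F), D.InRootSub J r → hB.xg r t ∈ parGen D F J := fun r t hr =>
        (le_sup_right : _ ≤ parGen D F J) (Subgroup.subset_closure ⟨r, t, Or.inr hr, rfl⟩)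
      exact mul_mem (mul_mem (key _ _ h1) (key _ _ h2)) (key _ _ h1)
  · refine sup_le (le_trans Base.H_le_B (B_le_parabolic J)) ?_
    rw [Subgroup.closure_le]
    rintro g ⟨r, t, hr | hr, hg⟩
    · rw [hB.eq_xg hg]
      exact B_le_parabolic J (Base.U_le_B (hB.xg_mem_pos hr t))
    · rw [hB.eq_xg hg]
      exact xg_mem_parabolic hB hd hT J r hr t

end Cfsg.Agent.Lib.Helper17
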