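import Cfsg.Agent.Lib.Helper17.StMon2

set_option autoImplicit false

/-! The Bruhat decomposition in a group satisfying (R1), (R2), and the centrality of the kernel. -/

namespace Cfsg.Agent.Lib.Helper17

open Cfsg.Lie Matrix Cfsg.Agent.Lib.Helper18 Cfsg.Agent.Lib.Helper36

variable {D : ChevalleyDatum} {T : Fast} {W : WTab} {K : Type*} [Field K] {Γ : Type*} [Group Γ]

/-- all the hypotheses on the datum -/
structure AllH (D : ChevalleyDatum) (T : Fast) (W : WTab) (K : Type*) [Field K] : Prop where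
  h : Checks D T W
  hB : Base D K
  hl : lvOK D = true
  hd : descOK D = true
  hT : Tab D
  hO : ordOK D = true
  hs : stOK D = true
  UN : D.posUnipotent K ⊓ D.monomialSubgroup K = ⊥

lemma AllH.neg_ne (A : AllH D T W K) {r : ℕ} (hr : r < D.nroots) : D.neg r ≠ r := by
  intro e
  rcases A.hT.pos_or_neg hr with h1 | h1
  · have := A.hT.isNeg_neg h1
    rw [e] at this
    exact A.hT.not_pos_and_neg h1 this
  · have := A.hT.isPos_neg h1
    rw [e] at this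
    exact A.hT.not_pos_and_neg this h1

lemma AllH.xg_eq_xg (A : AllH D T W K) {s s' : ℕ} (hs : s < D.nroots) (hs' : s' < D.nroots) {a b : K}
    (ha : a ≠ 0) (e : A.hB.xg s a = A.hB.xg s' b) : s = s' ∧ a = b := by
  have hss : s = s' := by
    by_contra hne
    apply ha
    apply cc_cancel_gen A.hs hs
    intro i
    have hn := A.hT.neg_lt hs
    have e1 := x_entry_gen hs hn (A.neg_ne hs) a i
    have e2 := x_entry_zero A.hT hs' hs hn (fun e => hne e.symm) b i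
    have e3 : D.x K s a = D.x K s' b := by
      rw [← A.hB.coe_xg, ← A.hB.coe_xg, e]
    rw [← e1, e3, e2, mul_zero]
  subst hss
  exact ⟨rfl, xg_inj A.hB hs e⟩

namespace StD

variable (S : StD D K Γ)

/-- conjugation of a root element by `n_p(u)` -/
theorem nn_conj (A : AllH D T W K) {i s : ℕ} (hi : i < D.rank) (hs : s < D.nroots) {u c : K} (hu : u ≠ 0)
    (hc : ∀ t : K, A.hB.ng (D.simple i) u * A.hB.xg s t * (A.hB.ng (D.simple i) u)⁻¹ =
      A.hB.xg (D.reflectRoot i s) (c * t)) (t : K) :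
    S.nn i u * S.X s t * (S.nn i u)⁻¹ = S.X (D.reflectRoot i s) (c * t) := by
  have hp := A.hT.simple_lt i hi
  have hrn := A.hT.refl_lt i s hi hs
  have hθ : S.θ (S.nn i u * S.X s t * (S.nn i u)⁻¹) = S.θ (S.X (D.reflectRoot i s) (c * t)) := by
    rw [map_mul, map_mul, map_inv, S.θ_nn A.hB A.hT hi, S.θ_X A.hB hs, S.θ_X A.hB hrn, hc]
  rcases stOK_gd A.hs hs hi with rfl | rfl | hg | hg
  · have h1 := S.nn_conj_z_mem A.h A.hB A.hl A.hd A.hT A.hO A.hs (Or.inl rfl) hi hu t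
    have hz : zE D 1 i = D.simple i := if_pos rfl
    rw [hz] at h1
    refine S.θ_inj A.h A.hB A.hT A.hs h1 (S.X_mem_UE hrn ?_ _) hθ
    rw [fE_neg_one_pos_iff A.h A.hl A.hT A.hO hrn, A.hT.refl_simple' hi]
    exact A.hT.isNeg_neg (A.hT.isPos_simple hi)
  · have h1 := S.nn_conj_z_mem A.h A.hB A.hl A.hd A.hT A.hO A.hs (Or.inr rfl) hi hu t
    have hz : zE D (-1) i = D.neg (D.simple i) := if_neg (by norm_num)
    rw [hz, neg_neg] at h1
    refine S.θ_inj A.h A.hB A.hT A.hs h1 (S.X_mem_UE hrn ?_ _) hθ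
    rw [fE_one_pos_iff A.hl A.hT A.hO hrn, A.hT.refl_neg' hi hp, A.hT.refl_simple' hi, A.hT.neg_neg hp]
    exact A.hT.isPos_simple hi
  · exact S.nn_conj_good A.h A.hB A.hl A.hd A.hT A.hO A.hs (Or.inl rfl) hi hs hg hc t
  · exact S.nn_conj_good A.h A.hB A.hl A.hd A.hT A.hO A.hs (Or.inr rfl) hi hs hg hc t

theorem nn_conj' (A : AllH D T W K) {i s : ℕ} (hi : i < D.rank) (hs : s < D.nroots) {u : K} (hu : u ≠ 0) :
    ∃ c : K, c ≠ 0 ∧ ∀ t : K, S.nn i u * S.X s t * (S.nn i u)⁻¹ = S.X (D.reflectRoot i s) (c * t) := by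
  obtain ⟨c, hc0, hc⟩ := ng_u_conj_xg A.hB A.hT hi hs hu
  exact ⟨c, hc0, S.nn_conj A hi hs hu hc⟩

/-- `g` permutes the root subgroups, compatibly with negation -/
def Mon (g : Γ) : Prop := ∀ s, s < D.nroots → ∃ s', s' < D.nroots ∧ ∃ c c' : K, c ≠ 0 ∧ c' ≠ 0 ∧
  ∀ t, g * S.X s t * g⁻¹ = S.X s' (c * t) ∧ g * S.X (D.neg s) t * g⁻¹ = S.X (D.neg s') (c' * t)

lemma mon_one : S.Mon 1 := fun s hs => ⟨s, hs, 1, 1, one_ne_zero, one_ne_zero, fun t => by simp⟩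

lemma Mon.mul {g g' : Γ} (hg : S.Mon g) (hg' : S.Mon g') : S.Mon (g * g') := by
  intro s hs
  obtain ⟨s₁, hs₁, c₁, c₁', h1, h1', e1⟩ := hg' s hs
  obtain ⟨s₂, hs₂, c₂, c₂', h2, h2', e2⟩ := hg s₁ hs₁
  refine ⟨s₂, hs₂, c₂ * c₁, c₂' * c₁', mul_ne_zero h2 h1, mul_ne_zero h2' h1', fun t => ⟨?_, ?_⟩⟩
  · rw [mul_assoc c₂, ← (e2 _).1, ← (e1 _).1]; group
  · rw [mul_assoc c₂', ← (e2 _).2, ← (e1 _).2]; group

lemma mon_nn (A : AllH D T W K) {i : ℕ} (hi : i < D.rank) {u : K} (hu : u ≠ 0) : S.Mon (S.nn i u) := by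
  intro s hs
  obtain ⟨c, hc0, hc⟩ := S.nn_conj' A hi hs hu
  obtain ⟨c', hc0', hc'⟩ := S.nn_conj' A hi (A.hT.neg_lt hs) hu
  refine ⟨_, A.hT.refl_lt i s hi hs, c, c', hc0, hc0', fun t => ⟨hc t, ?_⟩⟩
  rw [hc' t, A.hT.refl_neg' hi hs]

/-- the subgroup generated by the `n_p(u)` -/
def NN : Subgroup Γ := Subgroup.closure {g | ∃ (i : ℕ) (u : K), i < D.rank ∧ u ≠ 0 ∧ g = S.nn i u}

lemma nn_mem_NN {i : ℕ} (hi : i < D.rank) {u : K} (hu : u ≠ 0) : S.nn i u ∈ S.NN :=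
  Subgroup.subset_closure ⟨i, u, hi, hu, rfl⟩

lemma mon_of_mem (A : AllH D T W K) {g : Γ} (hg : g ∈ S.NN) : S.Mon g := by
  unfold NN at hg
  induction hg using Subgroup.closure_induction_left with
  | one => exact S.mon_one
  | mul_left x hx y _ ih =>
    obtain ⟨i, u, hi, hu, rfl⟩ := hx
    exact (S.mon_nn A hi hu).mul S ih
  | inv_mul_cancel x hx y _ ih =>
    obtain ⟨i, u, hi, hu, rfl⟩ := hx
    rw [S.nn_inv A.hT hi]
    exact (S.mon_nn A hi (neg_ne_zero.mpr hu)).mul S ih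

lemma θ_mem_N (A : AllH D T W K) {g : Γ} (hg : g ∈ S.NN) : S.θ g ∈ D.monomialSubgroup K := by
  have : S.NN ≤ (D.monomialSubgroup K).comap S.θ := by
    unfold NN
    rw [Subgroup.closure_le]
    rintro _ ⟨i, u, hi, hu, rfl⟩
    show S.θ (S.nn i u) ∈ D.monomialSubgroup K
    rw [S.θ_nn A.hB A.hT hi]
    exact A.hB.ng_mem (A.hT.simple_lt i hi) hu
  exact this hg

lemma θ_mem_U (A : AllH D T W K) {g : Γ} (hg : g ∈ S.UE 1) : S.θ g ∈ D.posUnipotent K := by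
  have : S.UE 1 ≤ (D.posUnipotent K).comap S.θ := by
    unfold UE
    rw [Subgroup.closure_le]
    rintro _ ⟨r, t, hr, h0, rfl⟩
    show S.θ (S.X r t) ∈ D.posUnipotent K
    rw [S.θ_X A.hB hr]
    exact A.hB.xg_mem_pos ((fE_one_pos_iff A.hl A.hT A.hO hr).mp h0) t
  exact this hg

/-- `U = U_i X_p` -/
lemma UE_eq (A : AllH D T W K) {i : ℕ} (hi : i < D.rank) {a : Γ} (ha : a ∈ S.UE 1) :
    ∃ a₁ ∈ S.UEi 1 i, ∃ t : K, a = a₁ * S.X (D.simple i) t := by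
  have hp := A.hT.simple_lt i hi
  have hle : S.UE 1 ≤ S.UEi 1 i ⊔ S.XS (D.simple i) hp := by
    unfold UE
    rw [Subgroup.closure_le]
    rintro _ ⟨r, t, hr, h0, rfl⟩
    have hpos := (fE_one_pos_iff A.hl A.hT A.hO hr).mp h0
    rcases stOK_gd A.hs hr hi with rfl | rfl | hg | hg
    · exact (le_sup_right : S.XS (D.simple i) hp ≤ _) ⟨t, rfl⟩
    · exact absurd (A.hT.isNeg_neg (A.hT.isPos_simple hi)) (fun h => A.hT.not_pos_and_neg hpos h)
    · exact (le_sup_left : S.UEi 1 i ≤ _) (S.X_mem_UEi hr hg t)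
    · have := (fE_neg_one_pos_iff A.h A.hl A.hT A.hO hr).mp (hg.fE_pos A.h A.hl A.hT A.hO (Or.inr rfl) hr)
      exact absurd this (fun h => A.hT.not_pos_and_neg hpos h)
  have h1 := hle ha
  rw [← SetLike.mem_coe, Subgroup.coe_mul_of_right_le_normalizer_left _ _
    (S.XS_le_normalizer A.h A.hl A.hd A.hT (Or.inl rfl) hi (Or.inl rfl) hp), Set.mem_mul] at h1
  obtain ⟨a₁, ha₁, x, ⟨t, rfl⟩, rfl⟩ := h1
  exact ⟨a₁, ha₁, t, rfl⟩

/-- the big set `U N U` -/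
def Big (g : Γ) : Prop := ∃ a ∈ S.UE 1, ∃ n ∈ S.NN, ∃ b ∈ S.UE 1, g = a * n * b

lemma X_pos_mem (A : AllH D T W K) {r : ℕ} (hr : D.IsPosRoot r) (t : K) : S.X r t ∈ S.UE 1 :=
  S.X_mem_UE hr.1 ((fE_one_pos_iff A.hl A.hT A.hO hr.1).mpr hr) t

lemma big_nn_mul (A : AllH D T W K) {i : ℕ} (hi : i < D.rank) {u : K} (hu : u ≠ 0) {g : Γ} (hg : S.Big g) :
    S.Big (S.nn i u * g) := by
  obtain ⟨a, ha, n, hn, b, hb, rfl⟩ := hg
  obtain ⟨a₁, ha₁, t, rfl⟩ := S.UE_eq A hi ha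
  have hp := A.hT.simple_lt i hi
  have hN : S.nn i u ∈ S.NN := S.nn_mem_NN hi hu
  have ha₁' : S.nn i u * a₁ * (S.nn i u)⁻¹ ∈ S.UE 1 :=
    S.UEi_le A.h A.hl A.hT A.hO (Or.inl rfl) i
      ((Subgroup.mem_normalizer_iff.mp (S.nn_mem_normalizer A.h A.hl A.hd A.hT (Or.inl rfl) hi u) _).mp ha₁)
  obtain ⟨s', hs', c, c', hc, hc', e⟩ := S.mon_of_mem A (inv_mem hn) (D.simple i) hp
  rcases A.hT.pos_or_neg hs' with hpos | hneg
  · refine ⟨S.nn i u * a₁ * (S.nn i u)⁻¹, ha₁', S.nn i u * n, mul_mem hN hn, S.X s' (c * t) * b,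
      mul_mem (S.X_pos_mem A hpos _) hb, ?_⟩
    rw [← (e t).1]; group
  · obtain ⟨d, hd0, hd⟩ := S.nn_conj' A hi hp hu
    rw [A.hT.refl_simple' hi] at hd
    by_cases ht : t = 0
    · subst ht
      refine ⟨S.nn i u * a₁ * (S.nn i u)⁻¹, ha₁', S.nn i u * n, mul_mem hN hn, b, hb, ?_⟩
      rw [S.X_zero hp]; group
    · have hv : d * t ≠ 0 := mul_ne_zero hd0 ht
      have e1 : S.X (D.neg (D.simple i)) (d * t) =
          S.X (D.simple i) (d * t)⁻¹ * S.nn i (-(d * t)⁻¹) * S.X (D.simple i) (d * t)⁻¹ := by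
        unfold nn
        rw [inv_neg, inv_inv, neg_neg, ← S.X_inv hp]; group
      obtain ⟨f, hf0, hf⟩ := S.nn_conj' A hi hp (neg_ne_zero.mpr hu)
      rw [← S.nn_inv A.hT hi, A.hT.refl_simple' hi] at hf
      have key : S.nn i u * S.X (D.simple i) t =
          S.X (D.simple i) (d * t)⁻¹ * S.nn i (-(d * t)⁻¹) * S.X (D.simple i) (d * t)⁻¹ * S.nn i u := by
        rw [← e1, ← hd t]; group
      refine ⟨S.nn i u * a₁ * (S.nn i u)⁻¹ * S.X (D.simple i) (d * t)⁻¹,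
        mul_mem ha₁' (S.X_pos_mem A (A.hT.isPos_simple hi) _),
        S.nn i (-(d * t)⁻¹) * S.nn i u * n,
        mul_mem (mul_mem (S.nn_mem_NN hi (neg_ne_zero.mpr (inv_ne_zero hv))) hN) hn,
        S.X (D.neg s') (c' * (f * (d * t)⁻¹)) * b,
        mul_mem (S.X_pos_mem A (A.hT.isPos_neg hneg) _) hb, ?_⟩
      calc S.nn i u * (a₁ * S.X (D.simple i) t * n * b)
          = S.nn i u * a₁ * (S.nn i u)⁻¹ * (S.nn i u * S.X (D.simple i) t) * n * b := by group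
        _ = S.nn i u * a₁ * (S.nn i u)⁻¹ * (S.X (D.simple i) (d * t)⁻¹ * S.nn i (-(d * t)⁻¹) *
              S.X (D.simple i) (d * t)⁻¹ * S.nn i u) * n * b := by rw [key]
        _ = _ := by rw [← (e _).2, ← hf]; group

/-- the subgroup generated by `U` and `N` -/
def MM : Subgroup Γ := Subgroup.closure
  ({g | ∃ (r : ℕ) (t : K), D.IsPosRoot r ∧ g = S.X r t} ∪ {g | ∃ (i : ℕ) (u : K), i < D.rank ∧ u ≠ 0 ∧ g = S.nn i u})

lemma big_of_mem (A : AllH D T W K) {g : Γ} (hg : g ∈ S.MM) : S.Big g := by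
  unfold MM at hg
  have hX : ∀ (r : ℕ) (t : K) (y : Γ), D.IsPosRoot r → S.Big y → S.Big (S.X r t * y) := by
    rintro r t _ hr ⟨a, ha, n, hn, b, hb, rfl⟩
    exact ⟨S.X r t * a, mul_mem (S.X_pos_mem A hr t) ha, n, hn, b, hb, by group⟩
  induction hg using Subgroup.closure_induction_left with
  | one => exact ⟨1, one_mem _, 1, one_mem _, 1, one_mem _, by simp⟩
  | mul_left x hx y _ ih =>
    rcases hx with ⟨r, t, hr, rfl⟩ | ⟨i, u, hi, hu, rfl⟩
    · exact hX r t y hr ih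
    · exact S.big_nn_mul A hi hu ih
  | inv_mul_cancel x hx y _ ih =>
    rcases hx with ⟨r, t, hr, rfl⟩ | ⟨i, u, hi, hu, rfl⟩
    · rw [S.X_inv hr.1]
      exact hX r _ y hr ih
    · rw [S.nn_inv A.hT hi]
      exact S.big_nn_mul A hi (neg_ne_zero.mpr hu) ih

lemma X_mem_MM (A : AllH D T W K) : ∀ r, r < D.nroots → ∀ t : K, S.X r t ∈ S.MM := by
  apply A.hT.transport
  · intro j hj t
    exact Subgroup.subset_closure (Or.inl ⟨_, t, A.hT.isPos_simple hj, rfl⟩)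
  · intro i r hi hr ih t
    obtain ⟨c, hc0, hc⟩ := S.nn_conj' A hi hr (one_ne_zero)
    have h1 : S.nn i (1 : K) ∈ S.MM := Subgroup.subset_closure (Or.inr ⟨i, 1, hi, one_ne_zero, rfl⟩)
    have := hc (c⁻¹ * t)
    rw [mul_inv_cancel_left₀ hc0] at this
    rw [← this]
    exact mul_mem (mul_mem h1 (ih _)) (inv_mem h1)

theorem big_all (A : AllH D T W K)
    (gen : Subgroup.closure {g | ∃ (r : ℕ) (t : K), r < D.nroots ∧ g = S.X r t} = ⊤) (g : Γ) : S.Big g := by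
  apply S.big_of_mem A
  have : (⊤ : Subgroup Γ) ≤ S.MM := by
    rw [← gen, Subgroup.closure_le]
    rintro _ ⟨r, t, hr, rfl⟩
    exact S.X_mem_MM A r hr t
  exact this (Subgroup.mem_top g)

/-- an element of `N` in the kernel is central -/
lemma mem_center_of_NN (A : AllH D T W K)
    (gen : Subgroup.closure {g | ∃ (r : ℕ) (t : K), r < D.nroots ∧ g = S.X r t} = ⊤) {n : Γ} (hn : n ∈ S.NN)
    (h1 : S.θ n = 1) : n ∈ Subgroup.center Γ := by
  have hle : (⊤ : Subgroup Γ) ≤ Subgroup.centralizer {n} := by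
    rw [← gen, Subgroup.closure_le]
    rintro _ ⟨s, t, hs, rfl⟩
    obtain ⟨s', hs', c, c', hc, hc', e⟩ := S.mon_of_mem A hn s hs
    have e1 := congrArg S.θ (e 1).1
    rw [map_mul, map_mul, map_inv, h1, S.θ_X A.hB hs, S.θ_X A.hB hs', one_mul, inv_one, mul_one] at e1
    obtain ⟨rfl, hc1⟩ := A.xg_eq_xg hs hs' one_ne_zero e1
    rw [mul_one] at hc1
    have e2 := (e t).1
    rw [← hc1, one_mul] at e2
    rw [SetLike.mem_coe, Subgroup.mem_centralizer_iff]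
    intro h hh
    rw [Set.mem_singleton_iff] at hh
    subst hh
    exact mul_inv_eq_iff_eq_mul.mp e2
  rw [Subgroup.mem_center_iff]
  intro g
  have := hle (Subgroup.mem_top g)
  rw [Subgroup.mem_centralizer_iff] at this
  exact (this n rfl).symm

/-- **Steinberg**: the kernel of `θ` is central. -/
theorem ker_le_center (A : AllH D T W K)
    (gen : Subgroup.closure {g | ∃ (r : ℕ) (t : K), r < D.nroots ∧ g = S.X r t} = ⊤) :
    S.θ.ker ≤ Subgroup.center Γ := by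
  intro g hg
  obtain ⟨a, ha, n, hn, b, hb, rfl⟩ := S.big_all A gen g
  rw [MonoidHom.mem_ker, map_mul, map_mul] at hg
  have h1 : S.θ n = (S.θ a)⁻¹ * (S.θ b)⁻¹ := by
    rw [eq_mul_inv_iff_mul_eq]
    rw [mul_assoc] at hg
    exact (mul_eq_one_iff_inv_eq.mp hg).symm
  have h2 : S.θ n ∈ D.posUnipotent K ⊓ D.monomialSubgroup K :=
    Subgroup.mem_inf.mpr ⟨h1 ▸ mul_mem (inv_mem (S.θ_mem_U A ha)) (inv_mem (S.θ_mem_U A hb)), S.θ_mem_N A hn⟩
  rw [A.UN, Subgroup.mem_bot] at h2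
  have h3 : a * b = 1 := by
    apply S.θ_inj A.h A.hB A.hT A.hs (mul_mem ha hb) (one_mem _)
    rw [map_mul, map_one]
    rw [h2, mul_one] at hg
    exact hg
  have hcen := S.mem_center_of_NN A gen hn h2
  have hb' : b = a⁻¹ := eq_inv_of_mul_eq_one_right h3
  rw [hb', (Subgroup.mem_center_iff.mp hcen a), mul_assoc, mul_inv_cancel, mul_one]
  exact hcen

end StD

end Cfsg.Agent.Lib.Helper17
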