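import Cfsg.Agent.Lib.Helper17.StHt

set_option autoImplicit false

/-! Groups satisfying Steinberg's relations (R1), (R2), mapping to the Chevalley group: the map is injective on
the subgroups generated by the positive (negative) root elements. -/

namespace Cfsg.Agent.Lib.Helper17

open Cfsg.Lie Matrix Cfsg.Agent.Lib.Helper18 Cfsg.Agent.Lib.Helper36

/-- a group with elements `X r t` satisfying (R1), (R2), and a homomorphism to `GL` with `X r t ↦ x_r(t)` -/
structure StD (D : ChevalleyDatum) (K : Type*) [Field K] (Γ : Type*) [Group Γ] where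
  X : ℕ → K → Γ
  θ : Γ →* GL D.Idx K
  add : ∀ r, r < D.nroots → ∀ t u : K, X r t * X r u = X r (t + u)
  comm : ∀ r s, r < D.nroots → s < D.nroots → s ≠ r → s ≠ D.neg r → ∀ t u : K,
    X s u * X r t = X r t * X s u * ((D.commWord K r s t u).map fun p => X p.1 p.2).prod
  θX : ∀ r, r < D.nroots → ∀ t : K, ((θ (X r t) : GL D.Idx K) : Matrix D.Idx D.Idx K) = D.x K r t

variable {D : ChevalleyDatum} {T : Fast} {W : WTab} {K : Type*} [Field K] {Γ : Type*} [Group Γ]

namespace StD

variable (S : StD D K Γ)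

lemma X_zero {r : ℕ} (hr : r < D.nroots) : S.X r 0 = 1 := by
  have := S.add r hr 0 0
  rw [add_zero] at this
  exact mul_eq_left.mp this

lemma X_inv {r : ℕ} (hr : r < D.nroots) (t : K) : (S.X r t)⁻¹ = S.X r (-t) := by
  rw [inv_eq_iff_mul_eq_one, S.add r hr, add_neg_cancel, S.X_zero hr]

lemma θ_X (hB : Base D K) {r : ℕ} (hr : r < D.nroots) (t : K) : S.θ (S.X r t) = hB.xg r t :=
  Units.ext (S.θX r hr t)

/-- the element of a word -/
def wd (w : List (ℕ × K)) : Γ := (w.map fun p => S.X p.1 p.2).prod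

/-- ordered products -/
def op (L : List ℕ) (t : ℕ → K) : Γ := (L.map fun r => S.X r (t r)).prod

lemma op_nil (t : ℕ → K) : S.op [] t = 1 := rfl

lemma op_cons (k : ℕ) (L : List ℕ) (t : ℕ → K) : S.op (k :: L) t = S.X k (t k) * S.op L t := by
  simp [op]

lemma wd_cons (p : ℕ × K) (w : List (ℕ × K)) : S.wd (p :: w) = S.X p.1 p.2 * S.wd w := by
  simp [wd]

lemma op_congr {L : List ℕ} {t t' : ℕ → K} (h : ∀ r ∈ L, t r = t' r) : S.op L t = S.op L t' := by
  unfold op
  congr 1
  exact List.map_congr_left fun r hr => by rw [h r hr]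

lemma θ_op (hB : Base D K) (L : List ℕ) (hL : ∀ r ∈ L, r < D.nroots) (t : ℕ → K) :
    S.θ (S.op L t) = gp hB L t := by
  induction L with
  | nil => simp [op, gp]
  | cons k L ih =>
    rw [op_cons, gp_cons, map_mul, S.θ_X hB (hL k List.mem_cons_self),
      ih (fun r hr => hL r (List.mem_cons_of_mem _ hr))]

lemma word_collect {L : List ℕ}
    (h1 : ∀ s ∈ L, ∀ (u : K) (t : ℕ → K), ∃ t', S.X s u * S.op L t = S.op L t') :
    ∀ (w : List (ℕ × K)), (∀ p ∈ w, p.1 ∈ L) → ∀ t : ℕ → K, ∃ t', S.wd w * S.op L t = S.op L t' := by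
  intro w
  induction w with
  | nil => intro _ t; exact ⟨t, by simp [wd]⟩
  | cons p w ih =>
    intro hw t
    obtain ⟨t1, ht1⟩ := ih (fun q hq => hw q (List.mem_cons_of_mem _ hq)) t
    obtain ⟨t2, ht2⟩ := h1 p.1 (hw p List.mem_cons_self) p.2 t1
    exact ⟨t2, by rw [wd_cons, mul_assoc, ht1, ht2]⟩

theorem collect (h : Checks D T W) {ε : ℤ} :
    ∀ L : List ℕ, HL D ε L → ∀ s ∈ L, ∀ (u : K) (t : ℕ → K), ∃ t', S.X s u * S.op L t = S.op L t' := by
  intro L
  induction L with
  | nil => intro _ s hs; simp at hs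
  | cons k L ih =>
    intro hU s hs u t
    have hU' := hU.tail
    have hkL : ∀ r ∈ L, r ≠ k := fun r hr e => (List.nodup_cons.mp hU.nodup).1 (e ▸ hr)
    obtain ⟨hk, hk0⟩ := hU.pos k List.mem_cons_self
    rcases List.mem_cons.mp hs with rfl | hsL
    · refine ⟨Function.update t s (u + t s), ?_⟩
      rw [op_cons, op_cons, ← mul_assoc, S.add s hk, Function.update_self]
      congr 1
      refine S.op_congr fun r hr => ?_
      rw [Function.update_of_ne (hkL r hr)]
    · obtain ⟨hsn, hs0⟩ := hU.pos s hs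
      have hks : fE D ε k ≤ fE D ε s := (List.pairwise_cons.mp hU.sorted).1 s hsL
      have hneg : s ≠ D.neg k := by
        rintro rfl
        rw [fE_neg h ε hk] at hs0
        omega
      have hcomm := S.comm k s hk hsn (hkL s hsL) hneg (t k) u
      obtain ⟨t1, ht1⟩ := S.word_collect (ih hU') (D.commWord K k s (t k) u) (by
        intro p hp
        unfold ChevalleyDatum.commWord at hp
        rw [List.mem_map] at hp
        obtain ⟨c, hc, rfl⟩ := hp
        obtain ⟨hcn, i, j, hi, hj, hd⟩ := dJ_commTerms h ∅ hk hsn hc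
        have hf : fE D ε c.1 = i * fE D ε k + j * fE D ε s := by
          unfold fE; rw [hd]; ring
        have h1 : (1 : ℤ) ≤ i := by exact_mod_cast hi
        have h2 : (1 : ℤ) ≤ j := by exact_mod_cast hj
        have h3 : fE D ε s < fE D ε c.1 := by rw [hf]; nlinarith
        have h4 := hU.up s hs c.1 hcn h3
        rcases List.mem_cons.mp h4 with h5 | h5
        · exfalso
          show False
          rw [h5] at h3
          omega
        · exact h5) t
      obtain ⟨t2, ht2⟩ := ih hU' s hsL u t1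
      refine ⟨Function.update t2 k (t k), ?_⟩
      have hcomm' : S.X s u * S.X k (t k) = S.X k (t k) * S.X s u * S.wd (D.commWord K k s (t k) u) := hcomm
      rw [op_cons, ← mul_assoc, hcomm', mul_assoc, ht1, mul_assoc, ht2, op_cons, Function.update_self]
      congr 1
      refine S.op_congr fun r hr => ?_
      rw [Function.update_of_ne (hkL r hr)]

/-- the subgroup generated by the root elements of sign `ε` -/
def UE (ε : ℤ) : Subgroup Γ :=
  Subgroup.closure {g | ∃ (r : ℕ) (t : K), r < D.nroots ∧ 0 < fE D ε r ∧ g = S.X r t}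

lemma X_mem_UE {ε : ℤ} {r : ℕ} (hr : r < D.nroots) (h0 : 0 < fE D ε r) (t : K) : S.X r t ∈ S.UE ε :=
  Subgroup.subset_closure ⟨r, t, hr, h0, rfl⟩

theorem exists_op (h : Checks D T W) {ε : ℤ} {L : List ℕ} (hL : HL D ε L)
    (hmem : ∀ r, r ∈ L ↔ (r < D.nroots ∧ 0 < fE D ε r)) {g : Γ} (hg : g ∈ S.UE ε) :
    ∃ t : ℕ → K, g = S.op L t := by
  unfold UE at hg
  induction hg using Subgroup.closure_induction_left with
  | one =>
    refine ⟨fun _ => 0, ?_⟩
    have : ∀ L : List ℕ, (∀ r ∈ L, r < D.nroots) → S.op L (fun _ => (0 : K)) = 1 := by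
      intro L
      induction L with
      | nil => intro _; rfl
      | cons k L ih =>
        intro hL
        rw [op_cons, ih (fun r hr => hL r (List.mem_cons_of_mem _ hr)), S.X_zero (hL k List.mem_cons_self),
          one_mul]
    rw [this L (fun r hr => (hL.pos r hr).1)]
  | mul_left x hx y _ ih =>
    obtain ⟨r, u, hr, h0, rfl⟩ := hx
    obtain ⟨t, rfl⟩ := ih
    obtain ⟨t', ht'⟩ := S.collect h L hL r ((hmem r).mpr ⟨hr, h0⟩) u t
    exact ⟨t', ht'⟩
  | inv_mul_cancel x hx y _ ih =>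
    obtain ⟨r, u, hr, h0, rfl⟩ := hx
    obtain ⟨t, rfl⟩ := ih
    obtain ⟨t', ht'⟩ := S.collect h L hL r ((hmem r).mpr ⟨hr, h0⟩) (-u) t
    exact ⟨t', by rw [S.X_inv hr, ht']⟩

/-- `θ` is injective on the subgroup generated by the root elements of one sign -/
theorem θ_inj (h : Checks D T W) (hB : Base D K) (hT : Tab D) (hs : stOK D = true) {ε : ℤ} {g g' : Γ}
    (hg : g ∈ S.UE ε) (hg' : g' ∈ S.UE ε) (e : S.θ g = S.θ g') : g = g' := by
  obtain ⟨L, hL, hmem⟩ := exists_HL D ε
  obtain ⟨t, rfl⟩ := S.exists_op h hL hmem hg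
  obtain ⟨t', rfl⟩ := S.exists_op h hL hmem hg'
  have hLn : ∀ r ∈ L, r < D.nroots := fun r hr => (hL.pos r hr).1
  rw [S.θ_op hB L hLn, S.θ_op hB L hLn] at e
  exact S.op_congr (gp_inj h hB hT hs L hL t t' e)

end StD

end Cfsg.Agent.Lib.Helper17
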