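import Cfsg.Agent.Lib.Helper17.StTab
import Cfsg.Agent.Lib.Helper17.ChevCent

set_option autoImplicit false

/-! Products of root elements ordered by height: uniqueness in the Chevalley group, collection in any group
satisfying Steinberg's relations (R1), (R2). -/

namespace Cfsg.Agent.Lib.Helper17

open Cfsg.Lie Matrix Cfsg.Agent.Lib.Helper18 Cfsg.Agent.Lib.Helper36

lemma stOK_cc {D : ChevalleyDatum} (h : stOK D = true) {r : ℕ} (hr : r < D.nroots) :
    ∃ i, i < D.rank ∧ ∃ j, j < D.rank ∧ (cc D r i = 1 ∨ cc D r i = -1 ∨ cc D r i - cc D r j = 1) := by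
  unfold stOK ccOK at h
  rw [Bool.and_eq_true, Bool.and_eq_true, List.all_eq_true] at h
  have h1 := h.1.1 r (List.mem_range.mpr hr)
  rw [List.any_eq_true] at h1
  obtain ⟨i, hi, h2⟩ := h1
  rw [List.any_eq_true] at h2
  obtain ⟨j, hj, h3⟩ := h2
  simp only [Bool.or_eq_true, decide_eq_true_eq] at h3
  exact ⟨i, List.mem_range.mp hi, j, List.mem_range.mp hj, by tauto⟩

section
variable {ι : Type*} {F : Type*} [Field F] {d : ι → ℤ}

lemma GEg.zero (m : ℤ) : GEg d m (0 : Matrix ι ι F) := fun _ _ h => absurd rfl h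

lemma GEg.add {m : ℤ} {A B : Matrix ι ι F} (hA : GEg d m A) (hB : GEg d m B) : GEg d m (A + B) := by
  intro a b h
  rw [Matrix.add_apply] at h
  by_cases h1 : A a b = 0
  · rw [h1, zero_add] at h
    exact hB a b h
  · exact hA a b h1

lemma GEg.mono {m n : ℤ} (hmn : m ≤ n) {A : Matrix ι ι F} (hA : GEg d n A) : GEg d m A := by
  intro a b h
  have := hA a b h
  omega

end

variable {D : ChevalleyDatum} {T : Fast} {W : WTab} {K : Type*} [Field K]

/-- signed height of a root -/
noncomputable def fE (D : ChevalleyDatum) (ε : ℤ) (r : ℕ) : ℤ := ε * dJ D ∅ r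

/-- signed degree of a basis vector -/
noncomputable def dE (D : ChevalleyDatum) (ε : ℤ) (a : D.Idx) : ℤ := ε * dI D ∅ a

lemma fE_neg (h : Checks D T W) (ε : ℤ) {r : ℕ} (hr : r < D.nroots) : fE D ε (D.neg r) = - fE D ε r := by
  unfold fE; rw [dJ_neg h ∅ r hr]; ring

lemma x_supportE (h : Checks D T W) (ε : ℤ) {r : ℕ} (hr : r < D.nroots) (t : K)
    (row col : D.Idx) (hne : D.x K r t row col ≠ 0) :
    row = col ∨ ∃ k : ℕ, 1 ≤ k ∧ dE D ε row = dE D ε col + k * fE D ε r := by
  rcases x_support h ∅ hr t row col hne with e | ⟨k, hk, e⟩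
  · exact Or.inl e
  · exact Or.inr ⟨k, hk, by unfold dE fE; rw [e]; ring⟩

lemma x_diag (h : Checks D T W) {r : ℕ} (hr : r < D.nroots) (h0 : dJ D ∅ r ≠ 0) (t : K) (a : D.Idx) :
    D.x K r t a a = 1 := by
  unfold ChevalleyDatum.x
  rw [dif_pos hr]
  rcases a with i | s
  · simp [xMat_def]
  · simp only [xMat_def, Matrix.of_apply]
    by_cases hs : s = ⟨r, hr⟩
    · rw [if_pos hs, if_pos hs]
    · rw [if_neg hs]
      by_cases hs2 : s.val = D.negIdx.getD r 0
      · rw [if_pos hs2]; simp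
      · rw [if_neg hs2]
        have : D.chainCoeff r s.val s.val = [] := by
          rw [List.eq_nil_iff_forall_not_mem]
          intro km hkm
          obtain ⟨h1, h2⟩ := dJ_chainCoeff h ∅ hr s.2 hkm
          have h3 : (km.1 : ℤ) * dJ D ∅ r = 0 := by linarith
          rcases mul_eq_zero.mp h3 with h4 | h4
          · have : km.1 = 0 := by exact_mod_cast h4
            omega
          · exact h0 h4
        simp [this]

lemma gegE_x_sub_one (h : Checks D T W) {ε : ℤ} {r : ℕ} (hr : r < D.nroots) (h0 : 0 < fE D ε r) (t : K) :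
    GEg (dE D ε) (fE D ε r) (D.x K r t - 1) := by
  have h0' : dJ D ∅ r ≠ 0 := by
    intro e; unfold fE at h0; rw [e, mul_zero] at h0; exact lt_irrefl _ h0
  intro a b hne
  have hab : a ≠ b := by
    rintro rfl
    apply hne
    rw [Matrix.sub_apply, x_diag h hr h0', Matrix.one_apply_eq, sub_self]
  rw [Matrix.sub_apply, Matrix.one_apply_ne hab, sub_zero] at hne
  rcases x_supportE h ε hr t a b hne with e | ⟨k, hk1, hk⟩
  · exact absurd e hab
  · rw [hk]
    have h2 : (1 : ℤ) ≤ k := by exact_mod_cast hk1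
    nlinarith

lemma x_entry_gen {r : ℕ} (hr : r < D.nroots) (hn : D.neg r < D.nroots) (hne : D.neg r ≠ r) (t : K)
    (i : Fin D.rank) : D.x K r t (Sum.inl i) (Sum.inr ⟨D.neg r, hn⟩) = ((cc D r i.val : ℤ) : K) * t := by
  unfold ChevalleyDatum.x
  rw [dif_pos hr]
  have hne1 : (⟨D.neg r, hn⟩ : Fin D.nroots) ≠ ⟨r, hr⟩ := by
    intro e; exact hne (congrArg Fin.val e)
  have h3 : D.neg r = D.negIdx.getD r 0 := rfl
  simp only [xMat_def, Matrix.of_apply, if_neg hne1]
  rw [if_pos h3]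
  rfl

lemma x_entry_zero (hT : Tab D) {r k : ℕ} (hr : r < D.nroots) (hk : k < D.nroots) (hn : D.neg k < D.nroots)
    (hne : r ≠ k) (t : K) (i : Fin D.rank) : D.x K r t (Sum.inl i) (Sum.inr ⟨D.neg k, hn⟩) = 0 := by
  unfold ChevalleyDatum.x
  rw [dif_pos hr]
  simp only [xMat_def, Matrix.of_apply]
  by_cases hs : (⟨D.neg k, hn⟩ : Fin D.nroots) = ⟨r, hr⟩
  · rw [if_pos hs]
  · rw [if_neg hs]
    have h3 : ¬ (D.neg k = D.negIdx.getD r 0) := by
      intro e
      apply hne
      have e' : D.neg k = D.neg r := e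
      rw [← hT.neg_neg hr, ← e', hT.neg_neg hk]
    rw [if_neg h3]

lemma cc_cancel_gen (hs : stOK D = true) {k : ℕ} (hk : k < D.nroots) {a b : K}
    (hent : ∀ i : Fin D.rank, ((cc D k i.val : ℤ) : K) * a = ((cc D k i.val : ℤ) : K) * b) : a = b := by
  obtain ⟨i, hi, j, hj, hij⟩ := stOK_cc hs hk
  rcases hij with hij | hij | hij
  · have := hent ⟨i, hi⟩
    simp only [hij] at this
    simpa using this
  · have := hent ⟨i, hi⟩
    simp only [hij] at this
    simpa using this
  · have e1 := hent ⟨i, hi⟩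
    have e2 := hent ⟨j, hj⟩
    simp only at e1 e2
    have e3 : ((cc D k i - cc D k j : ℤ) : K) = 1 := by
      rw [hij]; simp
    push_cast at e3
    linear_combination e1 - e2 - (a - b) * e3

lemma lead_zeroE (h : Checks D T W) {ε : ℤ} {r : ℕ} (hr : r < D.nroots) (hn : D.neg r < D.nroots) {m : ℤ}
    {M : Matrix D.Idx D.Idx K} (hM : GEg (dE D ε) m M) (hm : fE D ε r < m) (i : Fin D.rank) :
    M (Sum.inl i) (Sum.inr ⟨D.neg r, hn⟩) = 0 := by
  by_contra hne
  have h1 := hM _ _ hne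
  simp only [dE, dI] at h1
  rw [dJ_neg h ∅ r hr] at h1
  unfold fE at hm
  linarith

/-! ### lists of roots sorted by height -/

/-- lists of `ε`-roots sorted by height and closed upwards -/
structure HL (D : ChevalleyDatum) (ε : ℤ) (L : List ℕ) : Prop where
  nodup : L.Nodup
  pos : ∀ r ∈ L, r < D.nroots ∧ 0 < fE D ε r
  sorted : L.Pairwise (fun a b => fE D ε a ≤ fE D ε b)
  up : ∀ r ∈ L, ∀ u, u < D.nroots → fE D ε r < fE D ε u → u ∈ L

lemma HL.tail {ε : ℤ} {k : ℕ} {L : List ℕ} (h : HL D ε (k :: L)) : HL D ε L where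
  nodup := (List.nodup_cons.mp h.nodup).2
  pos := fun r hr => h.pos r (List.mem_cons_of_mem _ hr)
  sorted := (List.pairwise_cons.mp h.sorted).2
  up := fun r hr u hu hru => by
    have h1 := h.up r (List.mem_cons_of_mem _ hr) u hu hru
    have h2 := (List.pairwise_cons.mp h.sorted).1 r hr
    rcases List.mem_cons.mp h1 with rfl | h3
    · omega
    · exact h3

theorem exists_HL (D : ChevalleyDatum) (ε : ℤ) :
    ∃ L, HL D ε L ∧ ∀ r, r ∈ L ↔ (r < D.nroots ∧ 0 < fE D ε r) := by
  classical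
  let R : ℕ → ℕ → Prop := fun a b => fE D ε a ≤ fE D ε b
  haveI : Std.Total R := ⟨fun a b => le_total _ _⟩
  haveI : IsTrans ℕ R := ⟨fun a b c h1 h2 => le_trans h1 h2⟩
  let L0 := (List.range D.nroots).filter fun r => decide (0 < fE D ε r)
  have hmem : ∀ r, r ∈ L0.insertionSort R ↔ (r < D.nroots ∧ 0 < fE D ε r) := by
    intro r
    rw [List.mem_insertionSort, List.mem_filter, List.mem_range]
    simp
  refine ⟨L0.insertionSort R, ⟨?_, fun r hr => (hmem r).mp hr, List.pairwise_insertionSort R L0, ?_⟩, hmem⟩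
  · exact (List.perm_insertionSort R L0).nodup_iff.mpr (List.nodup_range.filter _)
  · intro r hr u hu hru
    have := (hmem r).mp hr
    exact (hmem u).mpr ⟨hu, by omega⟩

/-! ### uniqueness in the Chevalley group -/

/-- the product `∏_{r ∈ L} x_r(t_r)` in `GL` -/
def gp (hB : Base D K) (L : List ℕ) (t : ℕ → K) : GL D.Idx K := (L.map fun r => hB.xg r (t r)).prod

lemma gp_cons (hB : Base D K) (k : ℕ) (L : List ℕ) (t : ℕ → K) :
    gp hB (k :: L) t = hB.xg k (t k) * gp hB L t := by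
  simp [gp]

lemma sub_one_mul_eq {n : Type*} [Fintype n] [DecidableEq n] (A B : Matrix n n K) :
    A * B - 1 = (A - 1) * (B - 1) + (A - 1) + (B - 1) := by noncomm_ring

lemma gp_tail (h : Checks D T W) (hB : Base D K) (hT : Tab D) {ε : ℤ} {k : ℕ} (hk : k < D.nroots)
    (hn : D.neg k < D.nroots) (h0 : 0 < fE D ε k) (t : ℕ → K) :
    ∀ L : List ℕ, (∀ r ∈ L, r < D.nroots ∧ fE D ε k ≤ fE D ε r ∧ r ≠ k) →
      GEg (dE D ε) (fE D ε k) ((gp hB L t : Matrix D.Idx D.Idx K) - 1) ∧
      ∀ i : Fin D.rank, ((gp hB L t : Matrix D.Idx D.Idx K) - 1) (Sum.inl i) (Sum.inr ⟨D.neg k, hn⟩) = 0 := by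
  intro L
  induction L with
  | nil =>
    intro _
    have : ((gp hB [] t : GL D.Idx K) : Matrix D.Idx D.Idx K) - 1 = 0 := by simp [gp]
    rw [this]
    exact ⟨GEg.zero _, fun i => rfl⟩
  | cons r L ih =>
    intro hL
    obtain ⟨ih1, ih2⟩ := ih (fun s hs => hL s (List.mem_cons_of_mem _ hs))
    obtain ⟨hr, hkr, hne⟩ := hL r List.mem_cons_self
    have hx : GEg (dE D ε) (fE D ε k) (D.x K r (t r) - 1) :=
      (gegE_x_sub_one h hr (by omega) (t r)).mono hkr
    have hprod := hx.mul ih1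
    rw [gp_cons, Units.val_mul, Base.coe_xg, sub_one_mul_eq]
    refine ⟨((hprod.mono (by omega)).add hx).add ih1, fun i => ?_⟩
    rw [Matrix.add_apply, Matrix.add_apply, ih2 i, lead_zeroE h hk hn hprod (by omega) i,
      Matrix.sub_apply, x_entry_zero hT hr hk hn hne, Matrix.one_apply_ne (by simp)]
    simp

theorem gp_inj (h : Checks D T W) (hB : Base D K) (hT : Tab D) (hs : stOK D = true) {ε : ℤ} :
    ∀ L : List ℕ, HL D ε L → ∀ t t' : ℕ → K, gp hB L t = gp hB L t' → ∀ r ∈ L, t r = t' r := by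
  intro L
  induction L with
  | nil => intro _ _ _ _ r hr; simp at hr
  | cons k L ih =>
    intro hL t t' heq
    obtain ⟨hk, h0⟩ := hL.pos k List.mem_cons_self
    have hn := hT.neg_lt hk
    have hnk : D.neg k ≠ k := by
      intro e
      have := fE_neg h ε hk
      rw [e] at this
      omega
    have hLt : ∀ r ∈ L, r < D.nroots ∧ fE D ε k ≤ fE D ε r ∧ r ≠ k := fun r hr =>
      ⟨(hL.pos r (List.mem_cons_of_mem _ hr)).1, (List.pairwise_cons.mp hL.sorted).1 r hr,
        fun e => (List.nodup_cons.mp hL.nodup).1 (e ▸ hr)⟩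
    have key : ∀ (t : ℕ → K) (i : Fin D.rank),
        ((gp hB (k :: L) t : Matrix D.Idx D.Idx K) - 1) (Sum.inl i) (Sum.inr ⟨D.neg k, hn⟩) =
          ((cc D k i.val : ℤ) : K) * t k := by
      intro t i
      obtain ⟨h1, h2⟩ := gp_tail h hB hT hk hn h0 t L hLt
      have hx := gegE_x_sub_one h hk h0 (t k)
      rw [gp_cons, Units.val_mul, Base.coe_xg, sub_one_mul_eq, Matrix.add_apply, Matrix.add_apply, h2 i,
        lead_zeroE h hk hn (hx.mul h1) (by omega) i, Matrix.sub_apply, x_entry_gen hk hn hnk,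
        Matrix.one_apply_ne (by simp)]
      simp
    have htk : t k = t' k := by
      apply cc_cancel_gen hs hk
      intro i
      rw [← key t i, ← key t' i, heq]
    have heq' : gp hB L t = gp hB L t' := by
      rw [gp_cons, gp_cons, htk] at heq
      exact mul_left_cancel heq
    intro r hr
    rcases List.mem_cons.mp hr with rfl | hr
    · exact htk
    · exact ih hL.tail t t' heq' r hr

end Cfsg.Agent.Lib.Helper17
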