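import Cfsg.Agent.Lib.Helper17.StCol

set_option autoImplicit false

/-! Conjugation of the root elements by the elements `n_p(u)` in a group satisfying (R1), (R2). -/

namespace Cfsg.Agent.Lib.Helper17

open Cfsg.Lie Matrix Cfsg.Agent.Lib.Helper18 Cfsg.Agent.Lib.Helper36

variable {D : ChevalleyDatum} {T : Fast} {W : WTab} {K : Type*} [Field K] {Γ : Type*} [Group Γ]

/-- `s` has a coefficient of sign `ε` at a fundamental root other than `p_i` -/
def Gd (D : ChevalleyDatum) (ε : ℤ) (i s : ℕ) : Prop := ∃ q, q < D.rank ∧ q ≠ i ∧ 0 < ε * cc D s q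

lemma gdB_iff {ε : ℤ} {i s : ℕ} : gdB D ε i s = true ↔ Gd D ε i s := by
  unfold gdB Gd
  rw [List.any_eq_true]
  constructor
  · rintro ⟨q, hq, h⟩
    simp only [Bool.and_eq_true, decide_eq_true_eq] at h
    exact ⟨q, List.mem_range.mp hq, h.1, h.2⟩
  · rintro ⟨q, hq, h1, h2⟩
    exact ⟨q, List.mem_range.mpr hq, by simp [h1, h2]⟩

lemma stOK_gd (h : stOK D = true) {s i : ℕ} (hs : s < D.nroots) (hi : i < D.rank) :
    s = D.simple i ∨ s = D.neg (D.simple i) ∨ Gd D 1 i s ∨ Gd D (-1) i s := by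
  unfold stOK gdOK at h
  rw [Bool.and_eq_true, Bool.and_eq_true, List.all_eq_true] at h
  have h1 := h.1.2 s (List.mem_range.mpr hs)
  rw [List.all_eq_true] at h1
  have h2 := h1 i (List.mem_range.mpr hi)
  simp only [Bool.or_eq_true, decide_eq_true_eq, gdB_iff] at h2
  tauto

/-- the `q`-th coordinate as a `J`-degree -/
lemma dJ_single {q : ℕ} (hq : q < D.rank) (r : ℕ) : dJ D {k | k ≠ q} r = rcf D r q := by
  classical
  unfold dJ
  rw [Finset.sum_eq_single q]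
  · intro b hb hbq
    simp only [Finset.mem_filter, Set.mem_setOf_eq, not_not] at hb
    exact absurd hb.2 hbq
  · intro hn
    exfalso
    apply hn
    simp [hq]

lemma mul_pos_iff_of_sign {a b ε : ℤ} (hε : ε = 1 ∨ ε = -1) (h : a.sign = b.sign) :
    0 < ε * a ↔ 0 < ε * b := by
  rcases hε with rfl | rfl
  · rw [one_mul, one_mul, ← Int.sign_eq_one_iff_pos, ← Int.sign_eq_one_iff_pos, h]
  · have e1 : 0 < -1 * a ↔ a < 0 := by constructor <;> intro <;> omega
    have e2 : 0 < -1 * b ↔ b < 0 := by constructor <;> intro <;> omega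
    rw [e1, e2, ← Int.sign_eq_neg_one_iff_neg, ← Int.sign_eq_neg_one_iff_neg, h]

lemma gd_iff_rcf (hl : lvOK D = true) {ε : ℤ} (hε : ε = 1 ∨ ε = -1) {i s : ℕ} (hs : s < D.nroots) :
    Gd D ε i s ↔ ∃ q, q < D.rank ∧ q ≠ i ∧ 0 < ε * rcf D s q := by
  constructor
  · rintro ⟨q, hq, h1, h2⟩
    exact ⟨q, hq, h1, (mul_pos_iff_of_sign hε (lvOK_sign hl hs hq)).mpr h2⟩
  · rintro ⟨q, hq, h1, h2⟩
    exact ⟨q, hq, h1, (mul_pos_iff_of_sign hε (lvOK_sign hl hs hq)).mp h2⟩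

lemma fE_one_pos_iff (hl : lvOK D = true) (hT : Tab D) (hO : ordOK D = true) {r : ℕ} (hr : r < D.nroots) :
    0 < fE D 1 r ↔ D.IsPosRoot r := by
  unfold fE
  rw [one_mul, dJ_pos_iff hl hT hr]
  exact ⟨fun h => h.1, fun h => ⟨h, not_inRootSub_empty hO h⟩⟩

lemma fE_neg_one_pos_iff (h : Checks D T W) (hl : lvOK D = true) (hT : Tab D) (hO : ordOK D = true) {r : ℕ}
    (hr : r < D.nroots) : 0 < fE D (-1) r ↔ D.IsNegRoot r := by
  have e : fE D (-1) r = fE D 1 (D.neg r) := by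
    unfold fE; rw [dJ_neg h ∅ r hr]; ring
  rw [e, fE_one_pos_iff hl hT hO (hT.neg_lt hr)]
  constructor
  · intro hp
    have := hT.isNeg_neg hp
    rwa [hT.neg_neg hr] at this
  · exact hT.isPos_neg

lemma Gd.fE_pos (h : Checks D T W) (hl : lvOK D = true) (hT : Tab D) (hO : ordOK D = true) {ε : ℤ}
    (hε : ε = 1 ∨ ε = -1) {i s : ℕ} (hs : s < D.nroots) (hg : Gd D ε i s) : 0 < fE D ε s := by
  obtain ⟨q, hq, -, h2⟩ := hg
  rcases hε with rfl | rfl
  · rw [fE_one_pos_iff hl hT hO hs]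
    rcases hT.pos_or_neg hs with h3 | h3
    · exact h3
    · have := getD_nonpos h3.2 q
      unfold cc at h2
      omega
  · rw [fE_neg_one_pos_iff h hl hT hO hs]
    rcases hT.pos_or_neg hs with h3 | h3
    · have := getD_nonneg h3.2 q
      unfold cc at h2
      omega
    · exact h3

lemma rcf_simple_eq_zero (hl : lvOK D = true) (hd : descOK D = true) (hT : Tab D) {i q : ℕ}
    (hi : i < D.rank) (hq : q < D.rank) (hqi : q ≠ i) :
    rcf D (D.simple i) q = 0 ∧ rcf D (D.neg (D.simple i)) q = 0 := by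
  have := descOK_simple hd hi hq hqi
  exact ⟨(rcf_eq_zero_iff hl (hT.simple_lt i hi) hq).mpr this.1,
    (rcf_eq_zero_iff hl (hT.neg_lt (hT.simple_lt i hi)) hq).mpr this.2⟩

lemma Gd.ne (hd : descOK D = true) {ε : ℤ} {i s : ℕ} (hi : i < D.rank) (hg : Gd D ε i s) :
    s ≠ D.simple i ∧ s ≠ D.neg (D.simple i) := by
  obtain ⟨q, hq, h1, h2⟩ := hg
  have := descOK_simple hd hi hq h1
  constructor
  · rintro rfl; rw [this.1, mul_zero] at h2; exact lt_irrefl _ h2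
  · rintro rfl; rw [this.2, mul_zero] at h2; exact lt_irrefl _ h2

/-- the terms of the commutator formula of `± p_i` with a good root are good -/
lemma Gd.commTerms (h : Checks D T W) (hl : lvOK D = true) (hd : descOK D = true) (hT : Tab D) {ε : ℤ}
    (hε : ε = 1 ∨ ε = -1) {i r s : ℕ} (hi : i < D.rank) (hr : r = D.simple i ∨ r = D.neg (D.simple i))
    (hs : s < D.nroots) (hg : Gd D ε i s) {c : ℕ × ℤ × ℕ × ℕ} (hc : c ∈ D.commTerms r s) :
    c.1 < D.nroots ∧ Gd D ε i c.1 := by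
  have hrn : r < D.nroots := by
    rcases hr with rfl | rfl
    · exact hT.simple_lt i hi
    · exact hT.neg_lt (hT.simple_lt i hi)
  obtain ⟨q, hq, hqi, h2⟩ := (gd_iff_rcf hl hε hs).mp hg
  obtain ⟨hcn, a, b, _, hb, hd'⟩ := dJ_commTerms h {k | k ≠ q} hrn hs hc
  rw [dJ_single hq, dJ_single hq, dJ_single hq] at hd'
  have hr0 : rcf D r q = 0 := by
    rcases hr with rfl | rfl
    · exact (rcf_simple_eq_zero hl hd hT hi hq hqi).1
    · exact (rcf_simple_eq_zero hl hd hT hi hq hqi).2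
  refine ⟨hcn, (gd_iff_rcf hl hε hcn).mpr ⟨q, hq, hqi, ?_⟩⟩
  rw [hd', hr0, mul_zero, zero_add]
  have hb' : (0 : ℤ) < b := by exact_mod_cast hb
  have : ε * (b * rcf D s q) = b * (ε * rcf D s q) := by ring
  rw [this]
  positivity

lemma dJ_reflect (h : Checks D T W) (hT : Tab D) (J : Set ℕ) {i s : ℕ} (hi : i < D.rank) (hs : s < D.nroots)
    (h0 : dJ D J (D.simple i) = 0) : dJ D J (D.reflectRoot i s) = dJ D J s := by
  have hp := hT.simple_lt i hi
  have hn0 : dJ D J (D.neg (D.simple i)) = 0 := by rw [dJ_neg h J _ hp, h0, neg_zero]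
  unfold ChevalleyDatum.reflectRoot
  simp only
  split_ifs with h1 h2 h3 h4
  · rw [h1, hn0, h0]
  · rw [h2, hn0, h0]
  · cases hc : D.chainRoot (D.neg (D.simple i)) s (D.cartan i s).toNat with
    | none => rfl
    | some u =>
      have := (dJ_chainRoot h J (hT.neg_lt hp) hs (by omega) hc).2
      rw [hn0, mul_zero, zero_add] at this
      exact this
  · cases hc : D.chainRoot (D.simple i) s (-D.cartan i s).toNat with
    | none => rfl
    | some u =>
      have := (dJ_chainRoot h J hp hs (by omega) hc).2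
      rw [h0, mul_zero, zero_add] at this
      exact this
  · rfl

lemma Gd.reflect (h : Checks D T W) (hl : lvOK D = true) (hd : descOK D = true) (hT : Tab D) {ε : ℤ}
    (hε : ε = 1 ∨ ε = -1) {i s : ℕ} (hi : i < D.rank) (hs : s < D.nroots) (hg : Gd D ε i s) :
    Gd D ε i (D.reflectRoot i s) := by
  obtain ⟨q, hq, hqi, h2⟩ := (gd_iff_rcf hl hε hs).mp hg
  refine (gd_iff_rcf hl hε (hT.refl_lt i s hi hs)).mpr ⟨q, hq, hqi, ?_⟩
  have := dJ_reflect h hT {k | k ≠ q} hi hs (by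
    rw [dJ_single hq]; exact (rcf_simple_eq_zero hl hd hT hi hq hqi).1)
  rw [dJ_single hq, dJ_single hq] at this
  rwa [this]

namespace StD

variable (S : StD D K Γ)

/-- the root subgroup -/
def XS (r : ℕ) (hr : r < D.nroots) : Subgroup Γ where
  carrier := Set.range (S.X r)
  mul_mem' := by rintro _ _ ⟨a, rfl⟩ ⟨b, rfl⟩; exact ⟨a + b, (S.add r hr a b).symm⟩
  one_mem' := ⟨0, S.X_zero hr⟩
  inv_mem' := by rintro _ ⟨a, rfl⟩; exact ⟨-a, (S.X_inv hr a).symm⟩

/-- the subgroup generated by the root elements of sign `ε` other than those of `ε p_i` -/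
def UEi (ε : ℤ) (i : ℕ) : Subgroup Γ :=
  Subgroup.closure {g | ∃ (s : ℕ) (t : K), (s < D.nroots ∧ Gd D ε i s) ∧ g = S.X s t}

lemma X_mem_UEi {ε : ℤ} {i s : ℕ} (hs : s < D.nroots) (hg : Gd D ε i s) (t : K) : S.X s t ∈ S.UEi ε i :=
  Subgroup.subset_closure ⟨s, t, ⟨hs, hg⟩, rfl⟩

lemma UEi_le (h : Checks D T W) (hl : lvOK D = true) (hT : Tab D) (hO : ordOK D = true) {ε : ℤ}
    (hε : ε = 1 ∨ ε = -1) (i : ℕ) : S.UEi ε i ≤ S.UE ε := by
  apply Subgroup.closure_mono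
  rintro g ⟨s, t, ⟨hs, hg⟩, rfl⟩
  exact ⟨s, t, hs, hg.fE_pos h hl hT hO hε hs, rfl⟩

lemma conj_eq {r s : ℕ} (hr : r < D.nroots) (hs : s < D.nroots) (h1 : s ≠ r) (h2 : s ≠ D.neg r) (t u : K) :
    S.X r t * S.X s u * (S.X r t)⁻¹ = S.X s u * S.wd (D.commWord K r s (-t) u) := by
  have := S.comm r s hr hs h1 h2 (-t) u
  rw [S.X_inv hr, mul_assoc, this, ← mul_assoc, ← mul_assoc, S.add r hr, add_neg_cancel, S.X_zero hr, one_mul]
  rfl

theorem XS_le_normalizer (h : Checks D T W) (hl : lvOK D = true) (hd : descOK D = true) (hT : Tab D)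
    {ε : ℤ} (hε : ε = 1 ∨ ε = -1) {i r : ℕ} (hi : i < D.rank)
    (hr : r = D.simple i ∨ r = D.neg (D.simple i)) (hrn : r < D.nroots) :
    S.XS r hrn ≤ Subgroup.normalizer (S.UEi ε i : Set Γ) := by
  unfold UEi
  rw [Subgroup.le_normalizer_closure_iff]
  rintro g ⟨t, rfl⟩ _ ⟨s, u, ⟨hs, hg⟩, rfl⟩
  have hne := hg.ne hd hi
  have hp := hT.simple_lt i hi
  have h1 : s ≠ r := by rcases hr with rfl | rfl; exacts [hne.1, hne.2]
  have h2 : s ≠ D.neg r := by
    rcases hr with rfl | rfl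
    · exact hne.2
    · rw [hT.neg_neg hp]; exact hne.1
  rw [S.conj_eq hrn hs h1 h2]
  refine mul_mem (Subgroup.subset_closure ⟨s, u, ⟨hs, hg⟩, rfl⟩) ?_
  apply Subgroup.list_prod_mem
  intro x hx
  obtain ⟨p, hp', rfl⟩ := List.mem_map.mp hx
  unfold ChevalleyDatum.commWord at hp'
  obtain ⟨c, hc, rfl⟩ := List.mem_map.mp hp'
  exact Subgroup.subset_closure ⟨c.1, _, hg.commTerms h hl hd hT hε hi hr hs hc, rfl⟩

/-- the element `n_{p_i}(u)` -/
def nn (i : ℕ) (u : K) : Γ := S.X (D.simple i) u * S.X (D.neg (D.simple i)) (-u⁻¹) * S.X (D.simple i) u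

lemma θ_nn (hB : Base D K) (hT : Tab D) {i : ℕ} (hi : i < D.rank) (u : K) :
    S.θ (S.nn i u) = hB.ng (D.simple i) u := by
  have hp := hT.simple_lt i hi
  unfold nn Base.ng
  rw [map_mul, map_mul, S.θ_X hB hp, S.θ_X hB (hT.neg_lt hp)]

lemma nn_inv (hT : Tab D) {i : ℕ} (hi : i < D.rank) (u : K) : (S.nn i u)⁻¹ = S.nn i (-u) := by
  have hp := hT.simple_lt i hi
  unfold nn
  rw [_root_.mul_inv_rev, _root_.mul_inv_rev, S.X_inv hp, S.X_inv (hT.neg_lt hp), inv_neg, neg_neg, mul_assoc]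

theorem nn_mem_normalizer (h : Checks D T W) (hl : lvOK D = true) (hd : descOK D = true) (hT : Tab D)
    {ε : ℤ} (hε : ε = 1 ∨ ε = -1) {i : ℕ} (hi : i < D.rank) (u : K) :
    S.nn i u ∈ Subgroup.normalizer (S.UEi ε i : Set Γ) := by
  have hp := hT.simple_lt i hi
  have h1 := S.XS_le_normalizer h hl hd hT hε hi (Or.inl rfl) hp
  have h2 := S.XS_le_normalizer h hl hd hT hε hi (Or.inr rfl) (hT.neg_lt hp)
  exact mul_mem (mul_mem (h1 ⟨u, rfl⟩) (h2 ⟨_, rfl⟩)) (h1 ⟨u, rfl⟩)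

end StD

/-- conjugation by `n_p(u)` in the Chevalley group -/
lemma ng_u_conj_xg (hB : Base D K) (hT : Tab D) {i s : ℕ} (hi : i < D.rank) (hs : s < D.nroots) {u : K}
    (hu : u ≠ 0) : ∃ c : K, c ≠ 0 ∧ ∀ t : K,
      hB.ng (D.simple i) u * hB.xg s t * (hB.ng (D.simple i) u)⁻¹ = hB.xg (D.reflectRoot i s) (c * t) := by
  obtain ⟨η, hη, hc⟩ := hB.ng_conj_xg hi hs
  refine ⟨u ^ (D.cartan i (D.reflectRoot i s)) * η, mul_ne_zero (zpow_ne_zero _ hu)
    (by rcases hη with rfl | rfl <;> simp), fun t => ?_⟩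
  rw [hB.ng_eq_hg_mul, mul_assoc (u ^ (D.cartan i (D.reflectRoot i s))) η t,
    ← hB.hg_simple_conj_xg hi (hT.refl_lt i s hi hs) hu, ← (hc t).1]
  group

namespace StD

variable (S : StD D K Γ)

/-- conjugation of a good root element by `n_p(u)` -/
theorem nn_conj_good (h : Checks D T W) (hB : Base D K) (hl : lvOK D = true) (hd : descOK D = true)
    (hT : Tab D) (hO : ordOK D = true) (hs' : stOK D = true) {ε : ℤ} (hε : ε = 1 ∨ ε = -1) {i s : ℕ}
    (hi : i < D.rank) (hs : s < D.nroots) (hg : Gd D ε i s) {u c : K}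
    (hc : ∀ t : K, hB.ng (D.simple i) u * hB.xg s t * (hB.ng (D.simple i) u)⁻¹ =
      hB.xg (D.reflectRoot i s) (c * t)) (t : K) :
    S.nn i u * S.X s t * (S.nn i u)⁻¹ = S.X (D.reflectRoot i s) (c * t) := by
  have hle := S.UEi_le h hl hT hO hε i
  have h1 : S.nn i u * S.X s t * (S.nn i u)⁻¹ ∈ S.UEi ε i :=
    (Subgroup.mem_normalizer_iff.mp (S.nn_mem_normalizer h hl hd hT hε hi u) _).mp (S.X_mem_UEi hs hg t)
  have hrn := hT.refl_lt i s hi hs
  have h2 : S.X (D.reflectRoot i s) (c * t) ∈ S.UEi ε i :=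
    S.X_mem_UEi hrn (hg.reflect h hl hd hT hε hi hs) _
  apply S.θ_inj h hB hT hs' (hle h1) (hle h2)
  rw [map_mul, map_mul, map_inv, S.θ_nn hB hT hi, S.θ_X hB hs, S.θ_X hB hrn, hc]

end StD

end Cfsg.Agent.Lib.Helper17
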