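import Cfsg.Agent.Lib.Helper17.StMon

set_option autoImplicit false

/-! Conjugation of `x_{± p}(t)` by `n_p(u)` in a group satisfying (R1), (R2). -/

namespace Cfsg.Agent.Lib.Helper17

open Cfsg.Lie Matrix Cfsg.Agent.Lib.Helper18 Cfsg.Agent.Lib.Helper36

variable {D : ChevalleyDatum} {T : Fast} {W : WTab} {K : Type*} [Field K] {Γ : Type*} [Group Γ]

/-- the root `ε p_i` -/
def zE (D : ChevalleyDatum) (ε : ℤ) (i : ℕ) : ℕ := if ε = 1 then D.simple i else D.neg (D.simple i)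

/-- the data extracted from `witB` -/
structure Wit (D : ChevalleyDatum) (ε : ℤ) (i a b : ℕ) : Prop where
  ha : a < D.nroots
  hb : b < D.nroots
  hba : b ≠ a
  hbn : b ≠ D.neg a
  ga : Gd D 1 i a ∨ Gd D (-1) i a
  gb : Gd D 1 i b ∨ Gd D (-1) i b
  hba' : D.reflectRoot i b ≠ D.reflectRoot i a
  hbn' : D.reflectRoot i b ≠ D.neg (D.reflectRoot i a)
  split : ∃ L₁ c₀ L₂, D.commTerms a b = L₁ ++ c₀ :: L₂ ∧ c₀.1 = zE D ε i ∧ (c₀.2.1 = 1 ∨ c₀.2.1 = -1) ∧
    (c₀.2.2.1 = 1 ∨ c₀.2.2.2 = 1) ∧ (∀ c ∈ L₁, Gd D (-ε) i c.1) ∧ (∀ c ∈ L₂, Gd D (-ε) i c.1)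
  terms : ∀ c ∈ D.commTerms (D.reflectRoot i a) (D.reflectRoot i b),
    if ε = 1 then D.IsNegRoot c.1 else D.IsPosRoot c.1

lemma wit_of_witB {ε : ℤ} {i a b : ℕ} (h : witB D ε i a b = true) : Wit D ε i a b := by
  unfold witB at h
  simp only [Bool.and_eq_true, Bool.or_eq_true, decide_eq_true_eq, gdB_iff, List.all_eq_true] at h
  obtain ⟨⟨⟨⟨⟨⟨⟨⟨⟨⟨h1, h2⟩, h3⟩, h4⟩, h5⟩, h6⟩, h7⟩, h8⟩, h9⟩, h10⟩, h11⟩ := h
  refine ⟨h1, h2, h3, h4, h5, h6, h7, h8, ?_, ?_⟩
  · cases hd : (D.commTerms a b).dropWhile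
      fun c => decide (c.1 ≠ if ε = 1 then D.simple i else D.neg (D.simple i)) with
    | nil => rw [hd] at h10; simp at h10
    | cons c₀ L₂ =>
      rw [hd] at h10
      simp only [Bool.and_eq_true, decide_eq_true_eq, List.all_eq_true, gdB_iff] at h10
      refine ⟨_, c₀, L₂, ?_, h10.1.1.1, h10.1.1.2, h10.1.2, h9, h10.2⟩
      rw [← hd, List.takeWhile_append_dropWhile]
  · intro c hc
    have := h11 c hc
    split_ifs at this ⊢ with he
    · simpa using this
    · simpa using this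

lemma stOK_wit (h : stOK D = true) {i : ℕ} (hi : i < D.rank) :
    (∃ a b, Wit D 1 i a b) ∧ ∃ a b, Wit D (-1) i a b := by
  unfold stOK witOK at h
  rw [Bool.and_eq_true, List.all_eq_true] at h
  have h1 := h.2 i (List.mem_range.mpr hi)
  rw [Bool.and_eq_true] at h1
  exact ⟨⟨_, _, wit_of_witB h1.1⟩, ⟨_, _, wit_of_witB h1.2⟩⟩

namespace StD

variable (S : StD D K Γ)

lemma wd_append (w₁ w₂ : List (ℕ × K)) : S.wd (w₁ ++ w₂) = S.wd w₁ * S.wd w₂ := by
  simp [wd]

/-- `n_p(u) x_{ε p}(v) n_p(u)⁻¹` lies in the subgroup generated by the root elements of sign `-ε` -/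
theorem nn_conj_z_mem (h : Checks D T W) (hB : Base D K) (hl : lvOK D = true) (hd : descOK D = true)
    (hT : Tab D) (hO : ordOK D = true) (hs' : stOK D = true) {ε : ℤ} (hε : ε = 1 ∨ ε = -1) {i : ℕ}
    (hi : i < D.rank) {u : K} (hu : u ≠ 0) (v : K) :
    S.nn i u * S.X (zE D ε i) v * (S.nn i u)⁻¹ ∈ S.UE (-ε) := by
  have hε' : -ε = 1 ∨ -ε = -1 := by rcases hε with rfl | rfl <;> simp
  obtain ⟨a, b, w⟩ : ∃ a b, Wit D ε i a b := by
    rcases hε with rfl | rfl
    · exact (stOK_wit hs' hi).1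
    · exact (stOK_wit hs' hi).2
  obtain ⟨L₁, c₀, L₂, hsplit, hc0, hC, hij, hL₁, hL₂⟩ := w.split
  -- the subgroup of the elements conjugated into `UE (-ε)`
  let A : Subgroup Γ := (S.UE (-ε)).comap (MulAut.conj (S.nn i u)).toMonoidHom
  have hA : ∀ g, g ∈ A ↔ S.nn i u * g * (S.nn i u)⁻¹ ∈ S.UE (-ε) := fun g => Iff.rfl
  rw [← hA]
  have hgood : ∀ (s : ℕ) (t : K), s < D.nroots → Gd D (-ε) i s → S.X s t ∈ A := by
    intro s t hs hg
    rw [hA]
    exact S.UEi_le h hl hT hO hε' i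
      ((Subgroup.mem_normalizer_iff.mp (S.nn_mem_normalizer h hl hd hT hε' hi u) _).mp (S.X_mem_UEi hs hg t))
  obtain ⟨ca, -, hca⟩ := ng_u_conj_xg hB hT hi w.ha hu
  obtain ⟨cb, -, hcb⟩ := ng_u_conj_xg hB hT hi w.hb hu
  have hXa : ∀ t, S.nn i u * S.X a t * (S.nn i u)⁻¹ = S.X (D.reflectRoot i a) (ca * t) := by
    intro t
    rcases w.ga with hg | hg
    · exact S.nn_conj_good h hB hl hd hT hO hs' (Or.inl rfl) hi w.ha hg hca t
    · exact S.nn_conj_good h hB hl hd hT hO hs' (Or.inr rfl) hi w.ha hg hca t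
  have hXb : ∀ t, S.nn i u * S.X b t * (S.nn i u)⁻¹ = S.X (D.reflectRoot i b) (cb * t) := by
    intro t
    rcases w.gb with hg | hg
    · exact S.nn_conj_good h hB hl hd hT hO hs' (Or.inl rfl) hi w.hb hg hcb t
    · exact S.nn_conj_good h hB hl hd hT hO hs' (Or.inr rfl) hi w.hb hg hcb t
  have ha' := hT.refl_lt i a hi w.ha
  have hb' := hT.refl_lt i b hi w.hb
  -- the commutator word lies in `A`
  have hW : ∀ t t' : K, S.wd (D.commWord K a b t t') ∈ A := by
    intro t t'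
    rw [hA]
    have e1 : S.wd (D.commWord K a b t t') = (S.X b t')⁻¹ * (S.X a t)⁻¹ * S.X b t' * S.X a t := by
      have := S.comm a b w.ha w.hb w.hba w.hbn t t'
      have e : S.X b t' * S.X a t = S.X a t * S.X b t' * S.wd (D.commWord K a b t t') := this
      rw [mul_assoc _ (S.X b t'), e]; group
    have e2 : S.wd (D.commWord K (D.reflectRoot i a) (D.reflectRoot i b) (ca * t) (cb * t')) =
        (S.X (D.reflectRoot i b) (cb * t'))⁻¹ * (S.X (D.reflectRoot i a) (ca * t))⁻¹ *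
          S.X (D.reflectRoot i b) (cb * t') * S.X (D.reflectRoot i a) (ca * t) := by
      have := S.comm _ _ ha' hb' w.hba' w.hbn' (ca * t) (cb * t')
      have e : S.X (D.reflectRoot i b) (cb * t') * S.X (D.reflectRoot i a) (ca * t) =
        S.X (D.reflectRoot i a) (ca * t) * S.X (D.reflectRoot i b) (cb * t') *
          S.wd (D.commWord K (D.reflectRoot i a) (D.reflectRoot i b) (ca * t) (cb * t')) := this
      rw [mul_assoc _ (S.X (D.reflectRoot i b) (cb * t')), e]; group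
    have e3 : S.nn i u * S.wd (D.commWord K a b t t') * (S.nn i u)⁻¹ =
        S.wd (D.commWord K (D.reflectRoot i a) (D.reflectRoot i b) (ca * t) (cb * t')) := by
      rw [e1, e2, ← hXa, ← hXb]; group
    rw [e3]
    apply Subgroup.list_prod_mem
    intro x hx
    obtain ⟨p, hp', rfl⟩ := List.mem_map.mp hx
    unfold ChevalleyDatum.commWord at hp'
    obtain ⟨c, hc, rfl⟩ := List.mem_map.mp hp'
    have hcn := (dJ_commTerms h ∅ ha' hb' hc).1
    have hsign := w.terms c hc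
    apply S.X_mem_UE hcn
    rcases hε with rfl | rfl
    · rw [if_pos rfl] at hsign
      exact (fE_neg_one_pos_iff h hl hT hO hcn).mpr hsign
    · rw [if_neg (by norm_num)] at hsign
      rw [neg_neg]
      exact (fE_one_pos_iff hl hT hO hcn).mpr hsign
  -- isolate the term of `ε p_i`
  have hterm : ∀ t t' : K, S.X (zE D ε i) ((c₀.2.1 : K) * (-t) ^ c₀.2.2.1 * t' ^ c₀.2.2.2) ∈ A := by
    intro t t'
    have hw := hW t t'
    unfold ChevalleyDatum.commWord at hw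
    rw [hsplit, List.map_append, List.map_cons, S.wd_append, S.wd_cons, hc0] at hw
    have hmem : ∀ L : List (ℕ × ℤ × ℕ × ℕ), (∀ c ∈ L, c ∈ D.commTerms a b) → (∀ c ∈ L, Gd D (-ε) i c.1) →
        S.wd (L.map fun c => (c.1, (c.2.1 : K) * (-t) ^ c.2.2.1 * t' ^ c.2.2.2)) ∈ A := by
      intro L hLc hL
      apply Subgroup.list_prod_mem
      intro x hx
      obtain ⟨p, hp', rfl⟩ := List.mem_map.mp hx
      obtain ⟨c, hc, rfl⟩ := List.mem_map.mp hp'
      exact hgood _ _ (dJ_commTerms h ∅ w.ha w.hb (hLc c hc)).1 (hL c hc)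
    have h1 := hmem L₁ (fun c hc => by rw [hsplit]; simp [hc]) hL₁
    have h2 := hmem L₂ (fun c hc => by rw [hsplit]; simp [hc]) hL₂
    have := mul_mem (mul_mem (inv_mem h1) hw) (inv_mem h2)
    simpa [mul_assoc] using this
  have hCK : ((c₀.2.1 : ℤ) : K) ≠ 0 := by
    rcases hC with e | e <;> rw [e] <;> simp
  rcases hij with e | e
  · have := hterm (-(v / ((c₀.2.1 : ℤ) : K))) 1
    rw [e, neg_neg, pow_one, one_pow, mul_one, mul_div_cancel₀ _ hCK] at this
    exact this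
  · have := hterm (-1) (v / ((c₀.2.1 : ℤ) : K))
    rw [e, neg_neg, pow_one, one_pow, mul_one, mul_div_cancel₀ _ hCK] at this
    exact this

end StD

end Cfsg.Agent.Lib.Helper17
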