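import Cfsg.Agent.Lib.Helper17.StBru
import Cfsg.Agent.Lib.Helper17.ChevLevi2
import Cfsg.Agent.S1040
import Cfsg.Agent.S1051
import Cfsg.Agent.S1076
import Cfsg.Prelude.Def_SteinbergCover

set_option autoImplicit false

/-! Steinberg's presented groups as instances of `StD`. -/

namespace Cfsg.Agent.Lib.Helper17

open Cfsg.Lie Matrix Cfsg.Agent.Lib.Helper18 Cfsg.Agent.Lib.Helper36

variable {D : ChevalleyDatum} {T : Fast} {W : WTab} {K : Type*} [Field K]

theorem exists_allH (K : Type*) [Field K] (hD : D ∈ [chevG2, chevB2, chevD4, chevF4, chevE6, chevE7, chevE8]) :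
    ∃ T W, AllH D T W K := by
  obtain ⟨T, W, h⟩ := exists_checks D hD
  exact ⟨T, W, h, base_of_mem K hD, lvOK_of_mem hD, descOK_of_mem hD, tab_of_mem hD, ordOK_of_mem hD,
    stOK_of_mem hD, (Cfsg.Agent.S1040.result D hD).1⟩

/-- the map on generators -/
def genMap (hB : Base D K) : Fin D.nroots × K → GL D.Idx K := fun p => hB.xg p.1 p.2

lemma lift_stX (hB : Base D K) (r : ℕ) (t : K) : FreeGroup.lift (genMap hB) (D.stX r t) = hB.xg r t := by
  unfold ChevalleyDatum.stX
  split_ifs with h
  · rw [FreeGroup.lift_apply_of]; rfl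
  · rw [map_one]
    exact (Units.ext (by rw [hB.coe_xg, x_ge h]; rfl))

lemma lift_stWord (hB : Base D K) (w : List (ℕ × K)) :
    FreeGroup.lift (genMap hB) (D.stWord w) = hB.wg w := by
  unfold ChevalleyDatum.stWord Base.wg
  rw [map_list_prod, List.map_map]
  congr 1
  apply List.map_congr_left
  intro p _
  exact lift_stX hB p.1 p.2

lemma wg_hWord (hB : Base D K) (r : ℕ) (t : K) : hB.wg (D.hWord r t) = hB.hg r t :=
  Units.ext (by rw [hB.coe_wg, hB.coe_hg]; rfl)

lemma lift_relsAB (hB : Base D K) : ∀ g ∈ D.steinbergRelsAB K, FreeGroup.lift (genMap hB) g = 1 := by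
  rintro g (⟨r, t₁, t₂, hr, rfl⟩ | ⟨r, s, t, u, hr, hs, h1, h2, rfl⟩)
  · rw [map_mul, map_mul, map_inv, lift_stX, lift_stX, lift_stX, hB.xg_add, mul_inv_cancel]
  · rw [map_mul, map_mul, map_mul, map_mul, map_inv, map_inv, map_inv, lift_stX, lift_stX, lift_stWord]
    have := hB.comm_xg hr hs h1 h2 t u
    rw [mul_assoc (hB.xg s u)⁻¹, mul_assoc (hB.xg s u)⁻¹, this]
    group

lemma lift_rels (hD : D ∈ [chevG2, chevB2, chevD4, chevF4, chevE6, chevE7, chevE8]) (hB : Base D K) :
    ∀ g ∈ D.steinbergRels K, FreeGroup.lift (genMap hB) g = 1 := by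
  rintro g (hg | ⟨r, t₁, t₂, hr, h1, h2, rfl⟩)
  · exact lift_relsAB hB g hg
  · unfold ChevalleyDatum.stH
    rw [map_mul, map_mul, map_inv, lift_stWord, lift_stWord, lift_stWord, wg_hWord, wg_hWord, wg_hWord]
    have : hB.hg r t₁ * hB.hg r t₂ = hB.hg r (t₁ * t₂) :=
      Units.ext (by
        rw [Units.val_mul, hB.coe_hg, hB.coe_hg, hB.coe_hg]
        exact Cfsg.Agent.S1076.result D hD r hr t₁ t₂ h1 h2)
    rw [this, mul_inv_cancel]

section generic

variable (hB : Base D K) (rels : Set (FreeGroup (Fin D.nroots × K)))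
  (hAB : D.steinbergRelsAB K ⊆ rels) (hrel : ∀ g ∈ rels, FreeGroup.lift (genMap hB) g = 1)

lemma mk_stWord (w : List (ℕ × K)) : PresentedGroup.mk rels (D.stWord w) =
    (w.map fun p => PresentedGroup.mk rels (D.stX p.1 p.2)).prod := by
  unfold ChevalleyDatum.stWord
  rw [map_list_prod, List.map_map]
  rfl

/-- the presented group as an instance of `StD` -/
def stdOf : StD D K (PresentedGroup rels) where
  X := fun r t => PresentedGroup.mk rels (D.stX r t)
  θ := PresentedGroup.toGroup hrel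
  add := by
    intro r hr t u
    have h1 : D.stX r t * D.stX r u * (D.stX r (t + u))⁻¹ ∈ rels := hAB (Or.inl ⟨r, t, u, hr, rfl⟩)
    have h2 := PresentedGroup.one_of_mem h1
    rw [map_mul, map_mul, map_inv] at h2
    exact mul_inv_eq_one.mp h2
  comm := by
    intro r s hr hs h1 h2 t u
    have h3 : (D.stX s u)⁻¹ * (D.stX r t)⁻¹ * D.stX s u * D.stX r t * (D.stWord (D.commWord K r s t u))⁻¹ ∈ rels :=
      hAB (Or.inr ⟨r, s, t, u, hr, hs, h1, h2, rfl⟩)
    have h4 := PresentedGroup.one_of_mem h3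
    rw [map_mul, map_mul, map_mul, map_mul, map_inv, map_inv, map_inv, mk_stWord] at h4
    have h5 := mul_inv_eq_one.mp h4
    rw [← h5]
    group
  θX := by
    intro r hr t
    have : PresentedGroup.toGroup hrel (PresentedGroup.mk rels (D.stX r t)) = hB.xg r t := lift_stX hB r t
    rw [this]; rfl

lemma stdOf_gen : Subgroup.closure {g | ∃ (r : ℕ) (t : K), r < D.nroots ∧ g = (stdOf hB rels hAB hrel).X r t} = ⊤ := by
  rw [eq_top_iff, ← PresentedGroup.closure_range_of]
  apply Subgroup.closure_mono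
  rintro _ ⟨⟨r, t⟩, rfl⟩
  refine ⟨r.1, t, r.2, ?_⟩
  show _ = PresentedGroup.mk rels (D.stX r.1 t)
  unfold ChevalleyDatum.stX
  rw [dif_pos r.2]
  rfl

lemma toGroup_mem (x : PresentedGroup rels) : PresentedGroup.toGroup hrel x ∈ D.group K := by
  have : (⊤ : Subgroup (PresentedGroup rels)) ≤ (D.group K).comap (PresentedGroup.toGroup hrel) := by
    rw [← PresentedGroup.closure_range_of, Subgroup.closure_le]
    rintro _ ⟨⟨r, t⟩, rfl⟩
    show PresentedGroup.toGroup hrel (PresentedGroup.of (r, t)) ∈ D.group K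
    rw [PresentedGroup.toGroup.of]
    exact hB.xg_mem_group r.2 t
  exact this (Subgroup.mem_top x)

/-- the homomorphism to the Chevalley group -/
def thetaOf : PresentedGroup rels →* ↥(D.group K) :=
  (PresentedGroup.toGroup hrel).codRestrict (D.group K) (toGroup_mem hB rels hrel)

lemma thetaOf_surj : Function.Surjective (thetaOf hB rels hrel) := by
  have hle : D.group K ≤ (PresentedGroup.toGroup hrel).range := by
    rw [hB.group_eq, Subgroup.closure_le]
    rintro _ ⟨r, t, hr, rfl⟩
    exact ⟨PresentedGroup.mk rels (D.stX r t), lift_stX hB r t⟩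
  rintro ⟨g, hg⟩
  obtain ⟨x, hx⟩ := hle hg
  exact ⟨x, Subtype.ext hx⟩

lemma thetaOf_ker : (thetaOf hB rels hrel).ker = (PresentedGroup.toGroup hrel).ker := by
  ext x
  rw [MonoidHom.mem_ker, MonoidHom.mem_ker]
  constructor
  · intro h; exact congrArg Subtype.val h
  · intro h; exact Subtype.ext h

include hAB in
theorem generic_main (A : AllH D T W K) :
    Function.Surjective (thetaOf hB rels hrel) ∧
    (thetaOf hB rels hrel).ker ≤ Subgroup.center (PresentedGroup rels) ∧
      ∀ (r : ℕ) (t : K), r < D.nroots →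
        ((thetaOf hB rels hrel (PresentedGroup.mk rels (D.stX r t)) : GL D.Idx K) : Matrix D.Idx D.Idx K) =
          D.x K r t := by
  refine ⟨thetaOf_surj hB rels hrel, ?_, ?_⟩
  · rw [thetaOf_ker]
    exact (stdOf hB rels hAB hrel).ker_le_center A (stdOf_gen hB rels hAB hrel)
  · intro r t hr
    exact (stdOf hB rels hAB hrel).θX r hr t

end generic

/-- the Chevalley group has trivial centre -/
theorem center_group (hD : D ∈ [chevG2, chevB2, chevD4, chevF4, chevE6, chevE7, chevE8]) :
    Subgroup.center ↥(D.group K) = ⊥ := by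
  rw [eq_bot_iff]
  intro z hz
  rw [Subgroup.mem_center_iff] at hz
  have hB := base_of_mem K hD
  have hcomm : ∀ g ∈ D.group K, g * (z : GL D.Idx K) = z * g := fun g hg =>
    congrArg Subtype.val (hz ⟨g, hg⟩)
  have hU : D.unipotentRadical K ∅ ≤ D.group K := by
    unfold ChevalleyDatum.unipotentRadical
    rw [Subgroup.closure_le]
    rintro g ⟨r, t, hr, -, hg⟩
    rw [hB.eq_xg hg]
    exact hB.xg_mem_group hr.1 t
  have h1 : (z : GL D.Idx K) ∈ Subgroup.normalizer (D.unipotentRadical K ∅ : Set (GL D.Idx K)) ⊓ D.group K := by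
    refine Subgroup.mem_inf.mpr ⟨?_, z.2⟩
    rw [Subgroup.mem_normalizer_iff]
    intro g
    constructor
    · intro hg
      rw [← hcomm g (hU hg), mul_inv_cancel_right]
      exact hg
    · intro hg
      have e := hcomm _ (hU hg)
      have : g = (z : GL D.Idx K) * g * (z : GL D.Idx K)⁻¹ := by
        have e' : (z : GL D.Idx K) * g = (z : GL D.Idx K) * ((z : GL D.Idx K) * g * (z : GL D.Idx K)⁻¹) := by
          rw [← e]; group
        exact mul_left_cancel e'
      rw [this]
      exact hg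
  rw [normalizer_urad hD] at h1
  have h2 : (z : GL D.Idx K) ∈ D.borelSubgroup K := by
    unfold ChevalleyDatum.parabolicSubgroup at h1
    have : {g : GL D.Idx K | ∃ j ∈ (∅ : Set ℕ), j < D.rank ∧
        (g : Matrix D.Idx D.Idx K) = D.nMat K (D.simple j) 1} = ∅ := by
      ext g; simp
    rw [this, Subgroup.closure_empty, sup_bot_eq] at h1
    exact h1
  have h3 : z ∈ ((D.borelSubgroup K).subgroupOf (D.group K)).normalCore := by
    intro b
    rw [hz b, mul_inv_cancel_right]
    exact h2
  rw [Cfsg.Agent.S1051.result D hD] at h3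
  exact h3

end Cfsg.Agent.Lib.Helper17
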