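import Cfsg.Agent.Lib.Helper17.StWeyl2
import Cfsg.Agent.Lib.Helper18.ChevWeylCoxData

set_option autoImplicit false
set_option maxRecDepth 100000

/-! The braid relation checks for the seven types. -/

namespace Cfsg.Agent.Lib.Helper17

open Cfsg.Lie Matrix Cfsg.Agent.Lib.Helper18

theorem brOK_G2 : ∀ i j : Fin chevG2.rank, brB chevG2 i j (CoxeterMatrix.G₂ i j) = true := by decide +kernel
theorem brOK_B2 : ∀ i j : Fin chevB2.rank, brB chevB2 i j (CoxeterMatrix.B 2 i j) = true := by decide +kernel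
theorem brOK_D4 : ∀ i j : Fin chevD4.rank, brB chevD4 i j (Cfsg.Lie.coxeterD4 i j) = true := by decide +kernel
theorem brOK_F4 : ∀ i j : Fin chevF4.rank, brB chevF4 i j (CoxeterMatrix.F₄ i j) = true := by decide +kernel
theorem brOK_E6 : ∀ i j : Fin chevE6.rank, brB chevE6 i j (CoxeterMatrix.E₆ i j) = true := by decide +kernel
theorem brOK_E7 : ∀ i j : Fin chevE7.rank, brB chevE7 i j (CoxeterMatrix.E₇ i j) = true := by decide +kernel
theorem brOK_E8 : ∀ i j : Fin chevE8.rank, brB chevE8 i j (CoxeterMatrix.E₈ i j) = true := by decide +kernel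

theorem exists_cox {D : ChevalleyDatum} (K : Type*) [Field K]
    (hD : D ∈ [chevG2, chevB2, chevD4, chevF4, chevE6, chevE7, chevE8]) :
    ∃ (M : CoxeterMatrix (Fin D.rank)) (φ : ↥(D.monomialSubgroup K) →* M.Group),
      (∀ i j : Fin D.rank, brB D i j (M i j) = true) ∧
      φ.ker = (D.diagonalSubgroup K).subgroupOf (D.monomialSubgroup K) ∧
      ∀ (i : Fin D.rank) (g : ↥(D.monomialSubgroup K)),
        ((g : GL D.Idx K) : Matrix D.Idx D.Idx K) = D.nMat K (D.simple i) 1 → φ g = M.simple i := by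
  simp only [List.mem_cons, List.not_mem_nil, or_false] at hD
  rcases hD with rfl | rfl | rfl | rfl | rfl | rfl | rfl
  · obtain ⟨φ, -, h1, h2⟩ := exists_cox_hom_G2 K
    exact ⟨_, φ, brOK_G2, h1, h2⟩
  · obtain ⟨φ, -, h1, h2⟩ := exists_cox_hom_B2 K
    exact ⟨_, φ, brOK_B2, h1, h2⟩
  · obtain ⟨φ, -, h1, h2⟩ := exists_cox_hom_D4 K
    exact ⟨_, φ, brOK_D4, h1, h2⟩
  · obtain ⟨φ, -, h1, h2⟩ := exists_cox_hom_F4 K
    exact ⟨_, φ, brOK_F4, h1, h2⟩
  · obtain ⟨φ, -, h1, h2⟩ := exists_cox_hom_E6 K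
    exact ⟨_, φ, brOK_E6, h1, h2⟩
  · obtain ⟨φ, -, h1, h2⟩ := exists_cox_hom_E7 K
    exact ⟨_, φ, brOK_E7, h1, h2⟩
  · obtain ⟨φ, -, h1, h2⟩ := exists_cox_hom_E8 K
    exact ⟨_, φ, brOK_E8, h1, h2⟩

end Cfsg.Agent.Lib.Helper17
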