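import Cfsg.Agent.Lib.Helper17.StPres
import Cfsg.Agent.Lib.Helper17.StWeylData

set_option autoImplicit false

/-! The kernel of a homomorphism from a presented group to the Chevalley group lies in `H̄`. -/

namespace Cfsg.Agent.Lib.Helper17

open Cfsg.Lie Matrix Cfsg.Agent.Lib.Helper18 Cfsg.Agent.Lib.Helper36

variable {D : ChevalleyDatum} {T : Fast} {W : WTab} {K : Type*} [Field K]

section generic

variable (hB : Base D K) (rels : Set (FreeGroup (Fin D.nroots × K)))
  (hAB : D.steinbergRelsAB K ⊆ rels) (hrel : ∀ g ∈ rels, FreeGroup.lift (genMap hB) g = 1)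

/-- the presented group with a given homomorphism as an instance of `StD` -/
def stdOf' (θ : PresentedGroup rels →* ↥(D.group K))
    (hθ : ∀ (r : ℕ) (t : K), r < D.nroots →
      ((θ (PresentedGroup.mk rels (D.stX r t)) : GL D.Idx K) : Matrix D.Idx D.Idx K) = D.x K r t) :
    StD D K (PresentedGroup rels) :=
  { stdOf hB rels hAB hrel with
    θ := (D.group K).subtype.comp θ
    θX := fun r hr t => hθ r t hr }

lemma stdOf'_X (θ : PresentedGroup rels →* ↥(D.group K))
    (hθ : ∀ (r : ℕ) (t : K), r < D.nroots →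
      ((θ (PresentedGroup.mk rels (D.stX r t)) : GL D.Idx K) : Matrix D.Idx D.Idx K) = D.x K r t) (r : ℕ) (t : K) :
    (stdOf' hB rels hAB hrel θ hθ).X r t = PresentedGroup.mk rels (D.stX r t) := rfl

lemma stdOf'_hh (θ : PresentedGroup rels →* ↥(D.group K))
    (hθ : ∀ (r : ℕ) (t : K), r < D.nroots →
      ((θ (PresentedGroup.mk rels (D.stX r t)) : GL D.Idx K) : Matrix D.Idx D.Idx K) = D.x K r t) (i : ℕ) (t : K) :
    (stdOf' hB rels hAB hrel θ hθ).hh i t = PresentedGroup.mk rels (D.stH (D.simple i) t) := by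
  unfold ChevalleyDatum.stH
  rw [mk_stWord]
  simp only [StD.hh, StD.nn, stdOf'_X, ChevalleyDatum.hWord, ChevalleyDatum.nWord, List.cons_append,
    List.nil_append, List.map_cons, List.map_nil, List.prod_cons, List.prod_nil, mul_one, mul_assoc]

include hB hAB hrel in
theorem generic_ker_le (hD : D ∈ [chevG2, chevB2, chevD4, chevF4, chevE6, chevE7, chevE8]) (A : AllH D T W K)
    (θ : PresentedGroup rels →* ↥(D.group K))
    (hθ : ∀ (r : ℕ) (t : K), r < D.nroots →
      ((θ (PresentedGroup.mk rels (D.stX r t)) : GL D.Idx K) : Matrix D.Idx D.Idx K) = D.x K r t) :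
    θ.ker ≤ Subgroup.closure {h | ∃ (i : ℕ) (t : K), i < D.rank ∧ t ≠ 0 ∧
      h = PresentedGroup.mk rels (D.stH (D.simple i) t)} := by
  obtain ⟨M, φ, hM, hker, hφ⟩ := exists_cox K hD
  have h1 := (stdOf' hB rels hAB hrel θ hθ).ker_le_HH A (stdOf_gen hB rels hAB hrel) M hM φ hker hφ
  intro g hg
  have h2 : g ∈ (stdOf' hB rels hAB hrel θ hθ).HH := by
    apply h1
    rw [MonoidHom.mem_ker] at hg ⊢
    show ((θ g : ↥(D.group K)) : GL D.Idx K) = 1
    rw [hg]; rfl
  unfold StD.HH at h2
  simp only [stdOf'_hh] at h2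
  exact h2

end generic

end Cfsg.Agent.Lib.Helper17
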