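import Cfsg.Agent.Lib.Helper17.StWeyl
import Cfsg.Agent.Lib.Helper18.ChevCardH

set_option autoImplicit false

/-! The subgroup `H̄` in a group satisfying (R1), (R2), (R3). -/

namespace Cfsg.Agent.Lib.Helper17

open Cfsg.Lie Matrix Cfsg.Agent.Lib.Helper18 Cfsg.Agent.Lib.Helper36

variable {D : ChevalleyDatum} {T : Fast} {W : WTab} {K : Type*} [Field K] {Γ : Type*} [Group Γ]

namespace StD

variable (S : StD D K Γ)

/-- relation (R3) for the fundamental roots -/
def R3 : Prop := ∀ i, i < D.rank → ∀ t u : K, t ≠ 0 → u ≠ 0 → S.hh i t * S.hh i u = S.hh i (t * u)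

lemma hh_one (A : AllH D T W K) {i : ℕ} (hi : i < D.rank) : S.hh i 1 = 1 := by
  unfold hh; rw [← S.nn_inv A.hT hi, mul_inv_cancel]

lemma hh_inv (A : AllH D T W K) (h3 : S.R3) {i : ℕ} (hi : i < D.rank) {t : K} (ht : t ≠ 0) :
    (S.hh i t)⁻¹ = S.hh i t⁻¹ := by
  rw [inv_eq_iff_mul_eq_one, h3 i hi t t⁻¹ ht (inv_ne_zero ht), mul_inv_cancel₀ ht, S.hh_one A hi]

lemma hh_comm (A : AllH D T W K) (h3 : S.R3) {i j : ℕ} (hi : i < D.rank) (hj : j < D.rank) {t u : K}
    (ht : t ≠ 0) (hu : u ≠ 0) : S.hh j t * S.hh i u = S.hh i u * S.hh j t := by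
  have hc : t ^ (D.cartan j (D.simple i)) ≠ 0 := zpow_ne_zero _ ht
  have e : S.hh j t * S.hh i u * (S.hh j t)⁻¹ =
      (S.hh j t * S.nn i u * (S.hh j t)⁻¹) * (S.hh j t * S.nn i (-1) * (S.hh j t)⁻¹) := by
    conv_lhs => rw [show S.hh i u = S.nn i u * S.nn i (-1) from rfl]
    group
  have e2 : S.hh j t * S.hh i u * (S.hh j t)⁻¹ = S.hh i u := by
    rw [e, S.hh_conj_nn A hi hj ht, S.hh_conj_nn A hi hj ht, mul_neg, mul_one, ← S.nn_inv A.hT hi]
    have e3 : ∀ a b : K, S.nn i a * (S.nn i b)⁻¹ = S.hh i a * (S.hh i b)⁻¹ := by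
      intro a b; unfold hh; group
    rw [e3, mul_comm _ u, ← h3 i hi u _ hu hc, mul_inv_cancel_right]
  exact mul_inv_eq_iff_eq_mul.mp e2

/-- products of the `h_p(c_p)` -/
def hp (L : List ℕ) (c : ℕ → K) : Γ := (L.map fun i => S.hh i (c i)).prod

lemma hp_cons (a : ℕ) (L : List ℕ) (c : ℕ → K) : S.hp (a :: L) c = S.hh a (c a) * S.hp L c := by
  simp [hp]

lemma hp_congr {L : List ℕ} {c c' : ℕ → K} (h : ∀ i ∈ L, c i = c' i) : S.hp L c = S.hp L c' := by
  unfold hp
  congr 1
  exact List.map_congr_left fun r hr => by rw [h r hr]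

lemma hh_mul_hp (A : AllH D T W K) (h3 : S.R3) {i : ℕ} {t : K} (ht : t ≠ 0) (c : ℕ → K)
    (hc : ∀ k, c k ≠ 0) : ∀ L : List ℕ, L.Nodup → i ∈ L → (∀ k ∈ L, k < D.rank) →
      S.hh i t * S.hp L c = S.hp L (Function.update c i (t * c i)) := by
  intro L
  induction L with
  | nil => intro _ h; simp at h
  | cons a L ih =>
    intro hnd hi hL
    have ha := hL a List.mem_cons_self
    rw [hp_cons, hp_cons]
    by_cases hai : a = i
    · subst hai
      rw [← mul_assoc, h3 a ha t _ ht (hc a), Function.update_self]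
      congr 1
      apply S.hp_congr
      intro k hk
      rw [Function.update_of_ne]
      rintro rfl
      exact (List.nodup_cons.mp hnd).1 hk
    · have hiL : i ∈ L := by
        rcases List.mem_cons.mp hi with h | h
        · exact absurd h.symm hai
        · exact h
      have hir := hL i hi
      rw [← mul_assoc, S.hh_comm A h3 ha hir ht (hc a), mul_assoc,
        ih (List.nodup_cons.mp hnd).2 hiL (fun k hk => hL k (List.mem_cons_of_mem _ hk)),
        Function.update_of_ne hai]

theorem exists_hp (A : AllH D T W K) (h3 : S.R3) {z : Γ} (hz : z ∈ S.HH) :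
    ∃ c : ℕ → K, (∀ i, c i ≠ 0) ∧ z = S.hp (List.range D.rank) c := by
  unfold HH at hz
  have step : ∀ (i : ℕ) (t : K), i < D.rank → t ≠ 0 → ∀ y : Γ,
      (∃ c : ℕ → K, (∀ i, c i ≠ 0) ∧ y = S.hp (List.range D.rank) c) →
      ∃ c : ℕ → K, (∀ i, c i ≠ 0) ∧ S.hh i t * y = S.hp (List.range D.rank) c := by
    rintro i t hi ht _ ⟨c, hc, rfl⟩
    refine ⟨Function.update c i (t * c i), ?_, S.hh_mul_hp A h3 ht c hc _ List.nodup_range
      (List.mem_range.mpr hi) (fun k hk => List.mem_range.mp hk)⟩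
    intro k
    by_cases hk : k = i
    · subst hk; rw [Function.update_self]; exact mul_ne_zero ht (hc k)
    · rw [Function.update_of_ne hk]; exact hc k
  induction hz using Subgroup.closure_induction_left with
  | one =>
    refine ⟨fun _ => 1, fun _ => one_ne_zero, ?_⟩
    have : ∀ L : List ℕ, (∀ k ∈ L, k < D.rank) → S.hp L (fun _ => (1 : K)) = 1 := by
      intro L
      induction L with
      | nil => intro _; rfl
      | cons a L ih =>
        intro hL
        rw [hp_cons, S.hh_one A (hL a List.mem_cons_self), one_mul,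
          ih (fun k hk => hL k (List.mem_cons_of_mem _ hk))]
    rw [this _ (fun k hk => List.mem_range.mp hk)]
  | mul_left x hx y _ ih =>
    obtain ⟨i, t, hi, ht, rfl⟩ := hx
    exact step i t hi ht y ih
  | inv_mul_cancel x hx y _ ih =>
    obtain ⟨i, t, hi, ht, rfl⟩ := hx
    rw [S.hh_inv A h3 hi ht]
    exact step i _ hi (inv_ne_zero ht) y ih

lemma hp_conj_X (A : AllH D T W K) (c : ℕ → K) (hc : ∀ k, c k ≠ 0) {s : ℕ} (hs : s < D.nroots) :
    ∀ (L : List ℕ), (∀ k ∈ L, k < D.rank) → ∀ v : K,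
      S.hp L c * S.X s v * (S.hp L c)⁻¹ = S.X s ((L.map fun i => c i ^ D.cartan i s).prod * v) := by
  intro L
  induction L with
  | nil => intro _ v; simp [hp]
  | cons a L ih =>
    intro hL v
    have e : S.hp (a :: L) c * S.X s v * (S.hp (a :: L) c)⁻¹ =
        S.hh a (c a) * (S.hp L c * S.X s v * (S.hp L c)⁻¹) * (S.hh a (c a))⁻¹ := by
      rw [hp_cons]; group
    rw [e, ih (fun k hk => hL k (List.mem_cons_of_mem _ hk)), S.hh_conj_X A (hL a List.mem_cons_self) hs (hc a),
      List.map_cons, List.prod_cons, mul_assoc]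

lemma X_inj (A : AllH D T W K) {s : ℕ} (hs : s < D.nroots) {a b : K} (e : S.X s a = S.X s b) : a = b := by
  have := congrArg S.θ e
  rw [S.θ_X A.hB hs, S.θ_X A.hB hs] at this
  exact xg_inj A.hB hs this

/-- for a unimodular Cartan matrix a central element of `H̄` is trivial -/
theorem eq_one_of_central (A : AllH D T W K) (h3 : S.R3) (A' : Matrix (Fin D.rank) (Fin D.rank) ℤ)
    (hA' : (Matrix.of fun i j : Fin D.rank => D.cartan i (D.simple j)) * A' = 1) {z : Γ} (hz : z ∈ S.HH)
    (hcen : z ∈ Subgroup.center Γ) : z = 1 := by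
  obtain ⟨c, hc, rfl⟩ := S.exists_hp A h3 hz
  let cu : Fin D.rank → Kˣ := fun i => Units.mk0 (c i) (hc i)
  have h1 : muMap (Matrix.of fun i j : Fin D.rank => D.cartan i (D.simple j)) cu = 1 := by
    ext j
    have hs := A.hT.simple_lt j j.2
    have e1 := S.hp_conj_X A c hc hs (List.range D.rank) (fun k hk => List.mem_range.mp hk) 1
    rw [← Subgroup.mem_center_iff.mp hcen, mul_inv_cancel_right, mul_one] at e1
    have e2 := S.X_inj A hs e1
    rw [muMap_apply, Pi.one_apply, Units.val_one, e2, list_prod_range', ← Fin.prod_univ_eq_prod_range,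
      Units.coe_prod]
    apply Finset.prod_congr rfl
    intro i _
    rw [Units.val_zpow_eq_zpow_val]
    rfl
  have h2 : cu = 1 := by
    have := congrArg (muMap A') h1
    rwa [← muMap_mul, hA', muMap_one, map_one] at this
  have h3' : ∀ i ∈ List.range D.rank, c i = (fun _ => (1 : K)) i := by
    intro i hi
    have := congrFun h2 ⟨i, List.mem_range.mp hi⟩
    exact congrArg Units.val this
  rw [S.hp_congr h3']
  have : ∀ L : List ℕ, (∀ k ∈ L, k < D.rank) → S.hp L (fun _ => (1 : K)) = 1 := by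
    intro L
    induction L with
    | nil => intro _; rfl
    | cons a L ih =>
      intro hL
      rw [hp_cons, S.hh_one A (hL a List.mem_cons_self), one_mul,
        ih (fun k hk => hL k (List.mem_cons_of_mem _ hk))]
  exact this _ (fun k hk => List.mem_range.mp hk)

end StD

end Cfsg.Agent.Lib.Helper17
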