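import Cfsg.Agent.Lib.Helper17.StPres2
import Cfsg.Agent.Lib.Helper17.StTorus

set_option autoImplicit false
set_option maxRecDepth 100000

/-! The centre of Steinberg's presented group for the types with unimodular Cartan matrix. -/

namespace Cfsg.Agent.Lib.Helper17

open Cfsg.Lie Matrix Cfsg.Agent.Lib.Helper18 Cfsg.Agent.Lib.Helper36

def cInvG2 : Matrix (Fin chevG2.rank) (Fin chevG2.rank) ℤ := (!![2, 3; 1, 2] : Matrix (Fin 2) (Fin 2) ℤ)

def cInvF4 : Matrix (Fin chevF4.rank) (Fin chevF4.rank) ℤ :=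
  (!![2, 3, 4, 2; 3, 6, 8, 4; 2, 4, 6, 3; 1, 2, 3, 2] : Matrix (Fin 4) (Fin 4) ℤ)

def cInvE8 : Matrix (Fin chevE8.rank) (Fin chevE8.rank) ℤ :=
  (!![4, 5, 7, 10, 8, 6, 4, 2; 5, 8, 10, 15, 12, 9, 6, 3; 7, 10, 14, 20, 16, 12, 8, 4;
      10, 15, 20, 30, 24, 18, 12, 6; 8, 12, 16, 24, 20, 15, 10, 5; 6, 9, 12, 18, 15, 12, 8, 4;
      4, 6, 8, 12, 10, 8, 6, 3; 2, 3, 4, 6, 5, 4, 3, 2] : Matrix (Fin 8) (Fin 8) ℤ)

theorem cartanInv_G2 : (Matrix.of fun i j : Fin chevG2.rank => chevG2.cartan i (chevG2.simple j)) * cInvG2 = 1 := by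
  decide +kernel

theorem cartanInv_F4 : (Matrix.of fun i j : Fin chevF4.rank => chevF4.cartan i (chevF4.simple j)) * cInvF4 = 1 := by
  decide +kernel

theorem cartanInv_E8 : (Matrix.of fun i j : Fin chevE8.rank => chevE8.cartan i (chevE8.simple j)) * cInvE8 = 1 := by
  decide +kernel

theorem exists_cartanInv {D : ChevalleyDatum} (hD : D ∈ [chevG2, chevF4, chevE8]) :
    ∃ A' : Matrix (Fin D.rank) (Fin D.rank) ℤ,
      (Matrix.of fun i j : Fin D.rank => D.cartan i (D.simple j)) * A' = 1 := by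
  simp only [List.mem_cons, List.not_mem_nil, or_false] at hD
  rcases hD with rfl | rfl | rfl
  · exact ⟨_, cartanInv_G2⟩
  · exact ⟨_, cartanInv_F4⟩
  · exact ⟨_, cartanInv_E8⟩

variable {D : ChevalleyDatum} {T : Fast} {W : WTab} {K : Type*} [Field K]

theorem center_steinberg (hD : D ∈ [chevG2, chevB2, chevD4, chevF4, chevE6, chevE7, chevE8])
    (A' : Matrix (Fin D.rank) (Fin D.rank) ℤ)
    (hA' : (Matrix.of fun i j : Fin D.rank => D.cartan i (D.simple j)) * A' = 1) :
    Subgroup.center (D.SteinbergGroup K) = ⊥ := by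
  obtain ⟨T, W, A⟩ := exists_allH K hD
  have hrel := lift_rels hD A.hB
  have hAB : D.steinbergRelsAB K ⊆ D.steinbergRels K := Set.subset_union_left
  obtain ⟨h1, h2, h3⟩ := generic_main A.hB (D.steinbergRels K) hAB hrel A
  set θ := thetaOf A.hB (D.steinbergRels K) hrel with hθ
  let S := stdOf' A.hB (D.steinbergRels K) hAB hrel θ h3
  rw [eq_bot_iff]
  intro z hz
  have hker : z ∈ θ.ker := by
    rw [MonoidHom.mem_ker]
    have hc : θ z ∈ Subgroup.center ↥(D.group K) := by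
      rw [Subgroup.mem_center_iff]
      intro g
      obtain ⟨x, rfl⟩ := h1 g
      rw [← map_mul, ← map_mul, Subgroup.mem_center_iff.mp hz x]
    rw [center_group hD] at hc
    exact hc
  have hHH : z ∈ S.HH := by
    have := generic_ker_le A.hB (D.steinbergRels K) hAB hrel hD A θ h3 hker
    unfold StD.HH
    simp only [S, stdOf'_hh]
    exact this
  have hR3 : S.R3 := by
    intro i hi t u ht hu
    simp only [S, stdOf'_hh]
    have hm : D.stH (D.simple i) t * D.stH (D.simple i) u * (D.stH (D.simple i) (t * u))⁻¹ ∈ D.steinbergRels K :=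
      Or.inr ⟨D.simple i, t, u, A.hT.simple_lt i hi, ht, hu, rfl⟩
    have := PresentedGroup.one_of_mem hm
    rw [map_mul, map_mul, map_inv] at this
    exact mul_inv_eq_one.mp this
  exact S.eq_one_of_central A hR3 A' hA' hHH hz

end Cfsg.Agent.Lib.Helper17
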