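import Cfsg.Agent.Lib.Helper17.StSym

set_option autoImplicit false

/-! Relation (R3) for all roots from (R3) for the fundamental roots. -/

namespace Cfsg.Agent.Lib.Helper17

open Cfsg.Lie Matrix Cfsg.Agent.Lib.Helper18 Cfsg.Agent.Lib.Helper36

variable {D : ChevalleyDatum} {T : Fast} {W : WTab} {K : Type*} [Field K] {Γ : Type*} [Group Γ]

namespace StD

variable (S : StD D K Γ)

/-- `h_s(t)` for an arbitrary root -/
def hr (s : ℕ) (t : K) : Γ := S.nr s t * S.nr s (-1)

lemma nr_inv (A : AllH D T W K) {s : ℕ} (hs : s < D.nroots) (u : K) : (S.nr s u)⁻¹ = S.nr s (-u) := by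
  unfold nr
  rw [_root_.mul_inv_rev, _root_.mul_inv_rev, S.X_inv hs, S.X_inv (A.hT.neg_lt hs), inv_neg, neg_neg, mul_assoc]

theorem R3_all (A : AllH D T W K) (h3 : S.R3) : ∀ s, s < D.nroots → ∀ t u : K, t ≠ 0 → u ≠ 0 →
    S.hr s t * S.hr s u = S.hr s (t * u) := by
  apply A.hT.transport
  · intro j hj t u ht hu
    exact h3 j hj t u ht hu
  · intro i s hi hs ih
    obtain ⟨η, hη, hc⟩ := S.nn_one_conj_nr A hi hs
    have hs' := A.hT.refl_lt i s hi hs
    have hconj : ∀ t : K, S.nn i 1 * S.hr s t * (S.nn i 1)⁻¹ =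
        S.nr (D.reflectRoot i s) (η * t) * S.nr (D.reflectRoot i s) (η * -1) := by
      intro t
      rw [← hc, ← hc]
      unfold hr; group
    have hmul : ∀ t u : K, t ≠ 0 → u ≠ 0 →
        (S.nn i 1 * S.hr s t * (S.nn i 1)⁻¹) * (S.nn i 1 * S.hr s u * (S.nn i 1)⁻¹) =
          S.nn i 1 * S.hr s (t * u) * (S.nn i 1)⁻¹ := by
      intro t u ht hu
      rw [← ih t u ht hu]; group
    rcases hη with rfl | rfl
    · intro t u ht hu
      have := hmul t u ht hu
      rw [hconj, hconj, hconj] at this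
      simp only [one_mul] at this
      exact this
    · -- `g t = n(-t) n(1)` is multiplicative
      have hg : ∀ t u : K, t ≠ 0 → u ≠ 0 →
          (S.nr (D.reflectRoot i s) (-t) * S.nr (D.reflectRoot i s) 1) *
            (S.nr (D.reflectRoot i s) (-u) * S.nr (D.reflectRoot i s) 1) =
          S.nr (D.reflectRoot i s) (-(t * u)) * S.nr (D.reflectRoot i s) 1 := by
        intro t u ht hu
        have := hmul t u ht hu
        rw [hconj, hconj, hconj] at this
        simpa only [neg_one_mul, neg_neg] using this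
      have hinv : (S.nr (D.reflectRoot i s) 1)⁻¹ = S.nr (D.reflectRoot i s) (-1) := S.nr_inv A hs' 1
      have h4 := hg (-1) (-1) (neg_ne_zero.mpr one_ne_zero) (neg_ne_zero.mpr one_ne_zero)
      rw [neg_neg, neg_mul_neg, one_mul, ← hinv, inv_mul_cancel] at h4
      have hinv' : S.nr (D.reflectRoot i s) (-1) =
          S.nr (D.reflectRoot i s) 1 * (S.nr (D.reflectRoot i s) 1 * S.nr (D.reflectRoot i s) 1) := by
        rw [← hinv, inv_eq_iff_mul_eq_one, ← h4]; group
      have hh' : ∀ t : K, t ≠ 0 → S.hr (D.reflectRoot i s) t =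
          S.nr (D.reflectRoot i s) (-t) * S.nr (D.reflectRoot i s) 1 := by
        intro t ht
        have := hg (-t) (-1) (neg_ne_zero.mpr ht) (neg_ne_zero.mpr one_ne_zero)
        rw [neg_neg, neg_neg, neg_mul_neg, mul_one] at this
        rw [← this]
        unfold hr
        rw [hinv']; group
      intro t u ht hu
      rw [hh' t ht, hh' u hu, hh' _ (mul_ne_zero ht hu), hg t u ht hu]

end StD

end Cfsg.Agent.Lib.Helper17
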