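import Cfsg.Agent.Lib.Helper17.StPres
import Cfsg.Agent.Lib.Helper17.StSym2

set_option autoImplicit false

/-! Over a finite field the relators (R3) are consequences of (R1), (R2). -/

namespace Cfsg.Agent.Lib.Helper17

open Cfsg.Lie Matrix Cfsg.Agent.Lib.Helper18 Cfsg.Agent.Lib.Helper36

variable {D : ChevalleyDatum} {T : Fast} {W : WTab} {K : Type*} [Field K]

lemma lift_of_eq_mk {α : Type*} (rels : Set (FreeGroup α)) (w : FreeGroup α) :
    FreeGroup.lift (PresentedGroup.of (rels := rels)) w = PresentedGroup.mk rels w := by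
  have : FreeGroup.lift (PresentedGroup.of (rels := rels)) = PresentedGroup.mk rels := by
    ext x
    simp [PresentedGroup.of]
  rw [this]

lemma hg_mul (hD : D ∈ [chevG2, chevB2, chevD4, chevF4, chevE6, chevE7, chevE8]) (hB : Base D K) :
    ∀ r, r < D.nroots → ∀ t u : K, t ≠ 0 → u ≠ 0 → hB.hg r t * hB.hg r u = hB.hg r (t * u) := by
  intro r hr t u ht hu
  apply Units.ext
  rw [Units.val_mul, hB.coe_hg, hB.coe_hg, hB.coe_hg]
  exact Cfsg.Agent.S1076.result D hD r hr t u ht hu

lemma stdOf_hr (hB : Base D K) (rels : Set (FreeGroup (Fin D.nroots × K)))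
    (hAB : D.steinbergRelsAB K ⊆ rels) (hrel : ∀ g ∈ rels, FreeGroup.lift (genMap hB) g = 1) (r : ℕ) (t : K) :
    (stdOf hB rels hAB hrel).hr r t = PresentedGroup.mk rels (D.stH r t) := by
  unfold ChevalleyDatum.stH
  rw [mk_stWord]
  have hX : ∀ (r : ℕ) (t : K), (stdOf hB rels hAB hrel).X r t = PresentedGroup.mk rels (D.stX r t) :=
    fun _ _ => rfl
  simp only [StD.hr, StD.nr, hX, ChevalleyDatum.hWord, ChevalleyDatum.nWord, List.cons_append,
    List.nil_append, List.map_cons, List.map_nil, List.prod_cons, List.prod_nil, mul_one, mul_assoc]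

/-- the relators (R3) hold in the group presented by (R1), (R2), over a finite field -/
theorem mk_rels_eq_one [Finite K] (hD : D ∈ [chevG2, chevB2, chevD4, chevF4, chevE6, chevE7, chevE8]) :
    ∀ g ∈ D.steinbergRels K, PresentedGroup.mk (D.steinbergRelsAB K) g = 1 := by
  obtain ⟨T, W, A⟩ := exists_allH K hD
  have hrel := lift_relsAB A.hB
  rintro g (hg | ⟨r, t₁, t₂, hr, h1, h2, rfl⟩)
  · exact PresentedGroup.one_of_mem hg
  · have h3 := (stdOf A.hB (D.steinbergRelsAB K) subset_rfl hrel).R3_of_finite A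
      (stdOf_gen A.hB _ subset_rfl hrel) (hg_mul hD A.hB)
    have h4 := (stdOf A.hB (D.steinbergRelsAB K) subset_rfl hrel).R3_all A h3 r hr t₁ t₂ h1 h2
    rw [stdOf_hr, stdOf_hr, stdOf_hr] at h4
    rw [map_mul, map_mul, map_inv, h4, mul_inv_cancel]

theorem exists_cover_equiv [Finite K] (hD : D ∈ [chevG2, chevB2, chevD4, chevF4, chevE6, chevE7, chevE8]) :
    ∃ e : D.SteinbergCover K ≃* D.SteinbergGroup K,
      ∀ w : FreeGroup (Fin D.nroots × K),
        e (PresentedGroup.mk (D.steinbergRelsAB K) w) = PresentedGroup.mk (D.steinbergRels K) w := by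
  have hAB : D.steinbergRelsAB K ⊆ D.steinbergRels K := Set.subset_union_left
  have h1 : ∀ g ∈ D.steinbergRelsAB K,
      FreeGroup.lift (PresentedGroup.of (rels := D.steinbergRels K)) g = 1 := by
    intro g hg
    rw [lift_of_eq_mk]
    exact PresentedGroup.one_of_mem (hAB hg)
  have h2 : ∀ g ∈ D.steinbergRels K,
      FreeGroup.lift (PresentedGroup.of (rels := D.steinbergRelsAB K)) g = 1 := by
    intro g hg
    rw [lift_of_eq_mk]
    exact mk_rels_eq_one hD g hg
  let f₁ : D.SteinbergCover K →* D.SteinbergGroup K := PresentedGroup.toGroup h1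
  let f₂ : D.SteinbergGroup K →* D.SteinbergCover K := PresentedGroup.toGroup h2
  have e1 : f₂.comp f₁ = MonoidHom.id _ := by
    apply PresentedGroup.ext
    intro x
    simp [f₁, f₂]
  have e2 : f₁.comp f₂ = MonoidHom.id _ := by
    apply PresentedGroup.ext
    intro x
    simp [f₁, f₂]
  refine ⟨MonoidHom.toMulEquiv f₁ f₂ e1 e2, fun w => ?_⟩
  show f₁ (PresentedGroup.mk _ w) = _
  exact lift_of_eq_mk _ w

end Cfsg.Agent.Lib.Helper17
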