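import Mathlib

set_option autoImplicit false

/-! Steinberg symbols on finite fields are trivial: the abstract argument. -/

namespace Cfsg.Agent.Lib.Helper17

variable {K : Type*} [Field K] {Γ : Type*} [Group Γ]

/-- a nonsquare `t` of a finite field: `t a² + t b² = 1` has a solution with `a, b ≠ 0` -/
lemma exists_sq_add_sq [Finite K] {t : K} (ht : ¬ IsSquare t) :
    ∃ a b : K, a ≠ 0 ∧ b ≠ 0 ∧ t * a ^ 2 + t * b ^ 2 = 1 := by
  classical
  have := Fintype.ofFinite K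
  have ht0 : t ≠ 0 := by rintro rfl; exact ht IsSquare.zero
  have hchar : ringChar K ≠ 2 := fun h => ht (FiniteField.isSquare_of_char_two h t)
  have hodd := FiniteField.odd_card_of_char_ne_two hchar
  obtain ⟨a, b, hab⟩ := FiniteField.exists_root_sum_quadratic (R := K)
    (f := Polynomial.X ^ 2) (g := Polynomial.X ^ 2 - Polynomial.C t⁻¹)
    (Polynomial.degree_X_pow 2) (Polynomial.degree_X_pow_sub_C (by norm_num) _) hodd
  simp only [Polynomial.eval_pow, Polynomial.eval_X, Polynomial.eval_sub, Polynomial.eval_C] at hab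
  have hab' : a ^ 2 + b ^ 2 = t⁻¹ := by linear_combination hab
  have hns : ∀ c : K, c ^ 2 ≠ t⁻¹ := by
    intro c hc
    apply ht
    refine ⟨c⁻¹, ?_⟩
    rw [← mul_inv, ← pow_two, hc, inv_inv]
  refine ⟨a, b, ?_, ?_, ?_⟩
  · rintro rfl
    apply hns b
    rw [← hab']; ring
  · rintro rfl
    apply hns a
    rw [← hab']; ring
  · rw [← mul_add, hab', mul_inv_cancel₀ ht0]

/-- the quotient of two nonsquares of a finite field is a square -/
lemma isSquare_div_of_not [Finite K] {t u : K} (ht : ¬ IsSquare t) (hu : ¬ IsSquare u) :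
    ∃ s : K, s ≠ 0 ∧ u = s ^ 2 * t := by
  classical
  have := Fintype.ofFinite K
  have ht0 : t ≠ 0 := by rintro rfl; exact ht IsSquare.zero
  have hu0 : u ≠ 0 := by rintro rfl; exact hu IsSquare.zero
  have h1 := quadraticChar_neg_one_iff_not_isSquare.mpr ht
  have h2 := quadraticChar_neg_one_iff_not_isSquare.mpr hu
  have h3 : quadraticChar K (u * t) = 1 := by rw [map_mul, h1, h2]; norm_num
  obtain ⟨c, hc⟩ := (quadraticChar_one_iff_isSquare (mul_ne_zero hu0 ht0)).mp h3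
  have hc0 : c ≠ 0 := by
    rintro rfl
    rw [mul_zero] at hc
    exact mul_ne_zero hu0 ht0 hc
  refine ⟨c / t, div_ne_zero hc0 ht0, ?_⟩
  field_simp
  rw [pow_two, ← hc]

/-- the abstract argument: a map `h` on the nonzero elements of a finite field which is multiplicative on
squares and on pairs with sum `1`, with commuting values, is multiplicative -/
theorem mul_of_symbol [Finite K] (h : K → Γ)
    (hcomm : ∀ t u : K, t ≠ 0 → u ≠ 0 → h t * h u = h u * h t)
    (hsq : ∀ s u : K, s ≠ 0 → u ≠ 0 → h (s ^ 2 * u) = h (s ^ 2) * h u)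
    (hadd : ∀ t u : K, t ≠ 0 → u ≠ 0 → t + u = 1 → h t * h u = h (t * u))
    (t u : K) (ht : t ≠ 0) (hu : u ≠ 0) : h t * h u = h (t * u) := by
  by_cases h1 : IsSquare t
  · obtain ⟨s, rfl⟩ := h1
    have hs : s ≠ 0 := by rintro rfl; simp at ht
    rw [← pow_two, hsq s u hs hu]
  by_cases h2 : IsSquare u
  · obtain ⟨s, rfl⟩ := h2
    have hs : s ≠ 0 := by rintro rfl; simp at hu
    rw [← pow_two, mul_comm t, hsq s t hs ht, hcomm _ _ ht (pow_ne_zero 2 hs)]
  obtain ⟨s, hs, rfl⟩ := isSquare_div_of_not h1 h2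
  obtain ⟨a, b, ha, hb, hab⟩ := exists_sq_add_sq h1
  have ha2 := pow_ne_zero 2 ha
  have hb2 := pow_ne_zero 2 hb
  have hs2 := pow_ne_zero 2 hs
  -- `h t * h t = h (t ^ 2)`
  have key : h t * h t = h (t ^ 2) := by
    have e := hadd (t * a ^ 2) (t * b ^ 2) (mul_ne_zero ht ha2) (mul_ne_zero ht hb2) hab
    rw [mul_comm t (a ^ 2), mul_comm t (b ^ 2), hsq a t ha ht, hsq b t hb ht] at e
    have e2 : a ^ 2 * t * (b ^ 2 * t) = a ^ 2 * (b ^ 2 * t ^ 2) := by ring
    rw [e2, hsq a _ ha (mul_ne_zero hb2 (pow_ne_zero 2 ht)), hsq b _ hb (pow_ne_zero 2 ht)] at e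
    have e3 : h (a ^ 2) * h t * (h (b ^ 2) * h t) = h (a ^ 2) * (h (b ^ 2) * (h t * h t)) := by
      rw [mul_assoc, ← mul_assoc (h t), hcomm t _ ht hb2, mul_assoc]
    rw [e3] at e
    exact mul_left_cancel (mul_left_cancel e)
  rw [hsq s t hs ht, ← mul_assoc, hcomm t _ ht hs2, mul_assoc, key]
  have e4 : t * (s ^ 2 * t) = s ^ 2 * t ^ 2 := by ring
  rw [e4, hsq s _ hs (pow_ne_zero 2 ht)]

/-- values of `h` commute when `h` is multiplicative up to central elements (the multiplicative group of a finite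
field being cyclic) -/
theorem comm_of_central [Finite K] (h : K → Γ)
    (hc : ∀ t u : K, t ≠ 0 → u ≠ 0 → h t * h u * (h (t * u))⁻¹ ∈ Subgroup.center Γ)
    (h1 : h 1 = 1) (t u : K) (ht : t ≠ 0) (hu : u ≠ 0) : h t * h u = h u * h t := by
  obtain ⟨ζ, hζ⟩ := IsCyclic.exists_generator (α := Kˣ)
  have key : ∀ n : ℕ, ∃ z ∈ Subgroup.center Γ, h ((ζ ^ n : Kˣ) : K) = z * h (ζ : K) ^ n := by
    intro n
    induction n with
    | zero => exact ⟨1, one_mem _, by simp [h1]⟩
    | succ n ih =>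
      obtain ⟨z, hz, e⟩ := ih
      have h2 := hc ((ζ ^ n : Kˣ) : K) (ζ : K) (Units.ne_zero _) (Units.ne_zero _)
      refine ⟨(h ((ζ ^ n : Kˣ) : K) * h (ζ : K) * (h (((ζ ^ n : Kˣ) : K) * (ζ : K)))⁻¹)⁻¹ * z,
        mul_mem (inv_mem h2) hz, ?_⟩
      rw [pow_succ ζ n, Units.val_mul, pow_succ (h (ζ : K)) n, ← mul_assoc _ _ (h (ζ : K)), mul_assoc _ z, ← e]
      group
  have all : ∀ t : K, t ≠ 0 → ∃ z ∈ Subgroup.center Γ, ∃ n : ℕ, h t = z * h (ζ : K) ^ n := by
    intro t ht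
    have hm := hζ (Units.mk0 t ht)
    rw [← mem_powers_iff_mem_zpowers] at hm
    obtain ⟨n, hn⟩ := hm
    obtain ⟨z, hz, e⟩ := key n
    have hn' : ((ζ ^ n : Kˣ) : K) = t := by
      have := congrArg Units.val hn
      simpa using this
    exact ⟨z, hz, n, by rw [← hn', e]⟩
  obtain ⟨z, hz, n, e⟩ := all t ht
  obtain ⟨z', hz', n', e'⟩ := all u hu
  rw [e, e']
  have c1 := Subgroup.mem_center_iff.mp hz
  have c2 := Subgroup.mem_center_iff.mp hz'
  calc z * h (ζ : K) ^ n * (z' * h (ζ : K) ^ n') = z * (h (ζ : K) ^ n * z') * h (ζ : K) ^ n' := by group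
    _ = z * (z' * h (ζ : K) ^ n) * h (ζ : K) ^ n' := by rw [c2]
    _ = (z * z') * (h (ζ : K) ^ n * h (ζ : K) ^ n') := by group
    _ = (z' * z) * (h (ζ : K) ^ n' * h (ζ : K) ^ n) := by rw [← pow_add, ← pow_add, add_comm, c1 z']
    _ = z' * (z * h (ζ : K) ^ n') * h (ζ : K) ^ n := by group
    _ = z' * (h (ζ : K) ^ n' * z) * h (ζ : K) ^ n := by rw [c1]
    _ = _ := by group

end Cfsg.Agent.Lib.Helper17
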