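import Cfsg.Agent.Lib.Helper17.StTorus
import Cfsg.Agent.Lib.Helper17.SymFin

set_option autoImplicit false

/-! Relation (R3) over finite fields in a group satisfying (R1), (R2). -/

namespace Cfsg.Agent.Lib.Helper17

open Cfsg.Lie Matrix Cfsg.Agent.Lib.Helper18 Cfsg.Agent.Lib.Helper36

variable {D : ChevalleyDatum} {T : Fast} {W : WTab} {K : Type*} [Field K] {Γ : Type*} [Group Γ]

/-- conjugation by `n_p(u)` in the Chevalley group, with the explicit constant -/
lemma AllH.ng_conj_xg_sgn (A : AllH D T W K) {i s : ℕ} (hi : i < D.rank) (hs : s < D.nroots) {u : K}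
    (hu : u ≠ 0) (t : K) :
    A.hB.ng (D.simple i) u * A.hB.xg s t * (A.hB.ng (D.simple i) u)⁻¹ =
      A.hB.xg (D.reflectRoot i s) (u ^ (D.cartan i (D.reflectRoot i s)) * ((A.h.sgn i s : ℤ) : K) * t) := by
  have h1 : A.hB.ng (D.simple i) 1 * A.hB.xg s t * (A.hB.ng (D.simple i) 1)⁻¹ =
      A.hB.xg (D.reflectRoot i s) (((A.h.sgn i s : ℤ) : K) * t) := by
    rw [mul_inv_eq_iff_eq_mul]
    apply Units.ext
    simpa using A.h.nMat_x i hi s hs t
  rw [A.hB.ng_eq_hg_mul, mul_assoc (u ^ (D.cartan i (D.reflectRoot i s))),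
    ← A.hB.hg_simple_conj_xg hi (A.hT.refl_lt i s hi hs) hu, ← h1]
  group

namespace StD

variable (S : StD D K Γ)

lemma nn_conj_pos (A : AllH D T W K) {i : ℕ} (hi : i < D.rank) {u : K} (hu : u ≠ 0) (v : K) :
    S.nn i u * S.X (D.simple i) v * (S.nn i u)⁻¹ = S.X (D.neg (D.simple i)) (-(u ^ 2)⁻¹ * v) := by
  have hp := A.hT.simple_lt i hi
  have h1 := S.nn_conj A hi hp hu (A.ng_conj_xg_sgn hi hp hu) v
  rw [A.hT.refl_simple' hi, A.h.cartan_neg i hi _ hp, A.h.cartan_self i hi, (A.h.sgn_props i hi).1] at h1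
  rw [h1]
  congr 1
  rw [_root_.zpow_neg]
  push_cast
  have : u ^ (2 : ℤ) = u ^ 2 := by norm_cast
  rw [this]; ring

lemma nn_conj_neg (A : AllH D T W K) {i : ℕ} (hi : i < D.rank) {u : K} (hu : u ≠ 0) (v : K) :
    S.nn i u * S.X (D.neg (D.simple i)) v * (S.nn i u)⁻¹ = S.X (D.simple i) (-(u ^ 2) * v) := by
  have hp := A.hT.simple_lt i hi
  have h1 := S.nn_conj A hi (A.hT.neg_lt hp) hu (A.ng_conj_xg_sgn hi (A.hT.neg_lt hp) hu) v
  rw [A.hT.refl_neg' hi hp, A.hT.refl_simple' hi, A.hT.neg_neg hp, A.h.cartan_self i hi,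
    (A.h.sgn_props i hi).2.1] at h1
  rw [h1]
  congr 1
  push_cast
  have : u ^ (2 : ℤ) = u ^ 2 := by norm_cast
  rw [this]; ring

/-- `n_p(u) = x_{-p}(-u⁻¹) x_p(u) x_{-p}(-u⁻¹)` -/
lemma nn_eq_neg (A : AllH D T W K) {i : ℕ} (hi : i < D.rank) {u : K} (hu : u ≠ 0) :
    S.nn i u = S.X (D.neg (D.simple i)) (-u⁻¹) * S.X (D.simple i) u * S.X (D.neg (D.simple i)) (-u⁻¹) := by
  have e : S.nn i u = (S.nn i u * S.X (D.simple i) u * (S.nn i u)⁻¹) *
      (S.nn i u * S.X (D.neg (D.simple i)) (-u⁻¹) * (S.nn i u)⁻¹) *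
      (S.nn i u * S.X (D.simple i) u * (S.nn i u)⁻¹) := by
    have : S.nn i u = S.nn i u * S.nn i u * (S.nn i u)⁻¹ := by group
    conv_lhs => rw [this]
    conv_lhs => rw [show S.nn i u * S.nn i u * (S.nn i u)⁻¹ = S.nn i u *
      (S.X (D.simple i) u * S.X (D.neg (D.simple i)) (-u⁻¹) * S.X (D.simple i) u) * (S.nn i u)⁻¹ from rfl]
    group
  rw [S.nn_conj_pos A hi hu, S.nn_conj_neg A hi hu] at e
  have e1 : -(u ^ 2)⁻¹ * u = -u⁻¹ := by field_simp
  have e2 : -(u ^ 2) * -u⁻¹ = u := by field_simp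
  rw [e1, e2] at e
  exact e

/-- the symbol is trivial on pairs with sum `1` -/
lemma hh_mul_of_add (A : AllH D T W K) {i : ℕ} (hi : i < D.rank) {t u : K} (ht : t ≠ 0) (hu : u ≠ 0)
    (htu : t + u = 1) : S.hh i t * S.hh i u = S.hh i (t * u) := by
  have hp := A.hT.simple_lt i hi
  have hn := A.hT.neg_lt hp
  have h1 : S.nn i (-1) = S.X (D.neg (D.simple i)) 1 * S.X (D.simple i) (-1) * S.X (D.neg (D.simple i)) 1 := by
    have := S.nn_eq_neg A hi (u := (-1 : K)) (neg_ne_zero.mpr one_ne_zero)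
    rwa [inv_neg, inv_one, neg_neg] at this
  have h2 : S.nn i t * S.X (D.neg (D.simple i)) 1 = S.X (D.simple i) (-(t ^ 2)) * S.nn i t := by
    have := S.nn_conj_neg A hi ht 1
    rw [mul_one] at this
    rw [← this]; group
  have h3 : S.X (D.neg (D.simple i)) 1 * S.nn i u = S.nn i u * S.X (D.simple i) (-(u ^ 2)) := by
    have := S.nn_conj_neg A hi (neg_ne_zero.mpr hu) 1
    rw [mul_one, ← S.nn_inv A.hT hi, neg_sq] at this
    rw [← this]; group
  have h4 : S.nn i t * S.X (D.simple i) (-1) * S.nn i u =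
      S.X (D.simple i) t * S.X (D.neg (D.simple i)) (-(t * u)⁻¹) * S.X (D.simple i) u := by
    unfold nn
    have e1 : S.X (D.simple i) t * S.X (D.simple i) (-1) * S.X (D.simple i) u = 1 := by
      rw [S.add _ hp, S.add _ hp]
      have : t + -1 + u = 0 := by linear_combination htu
      rw [this, S.X_zero hp]
    have e2 : S.X (D.neg (D.simple i)) (-t⁻¹) * S.X (D.neg (D.simple i)) (-u⁻¹) =
        S.X (D.neg (D.simple i)) (-(t * u)⁻¹) := by
      rw [S.add _ hn]
      congr 1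
      field_simp
      linear_combination -htu
    calc S.X (D.simple i) t * S.X (D.neg (D.simple i)) (-t⁻¹) * S.X (D.simple i) t * S.X (D.simple i) (-1) *
          (S.X (D.simple i) u * S.X (D.neg (D.simple i)) (-u⁻¹) * S.X (D.simple i) u)
        = S.X (D.simple i) t * S.X (D.neg (D.simple i)) (-t⁻¹) *
          (S.X (D.simple i) t * S.X (D.simple i) (-1) * S.X (D.simple i) u) *
          S.X (D.neg (D.simple i)) (-u⁻¹) * S.X (D.simple i) u := by group
      _ = S.X (D.simple i) t * (S.X (D.neg (D.simple i)) (-t⁻¹) * S.X (D.neg (D.simple i)) (-u⁻¹)) *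
          S.X (D.simple i) u := by rw [e1]; group
      _ = _ := by rw [e2]
  have h5 : S.nn i t * S.nn i (-1) * S.nn i u = S.nn i (t * u) := by
    calc S.nn i t * S.nn i (-1) * S.nn i u
        = (S.nn i t * S.X (D.neg (D.simple i)) 1) * S.X (D.simple i) (-1) *
          (S.X (D.neg (D.simple i)) 1 * S.nn i u) := by rw [h1]; group
      _ = S.X (D.simple i) (-(t ^ 2)) * (S.nn i t * S.X (D.simple i) (-1) * S.nn i u) *
          S.X (D.simple i) (-(u ^ 2)) := by rw [h2, h3]; group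
      _ = (S.X (D.simple i) (-(t ^ 2)) * S.X (D.simple i) t) * S.X (D.neg (D.simple i)) (-(t * u)⁻¹) *
          (S.X (D.simple i) u * S.X (D.simple i) (-(u ^ 2))) := by rw [h4]; group
      _ = _ := by
          rw [S.add _ hp, S.add _ hp]
          have e1 : -(t ^ 2) + t = t * u := by linear_combination (-t) * htu
          have e2 : u + -(u ^ 2) = t * u := by linear_combination (-u) * htu
          rw [e1, e2]
          rfl
  unfold hh
  rw [← h5]; group

/-- the symbol is central -/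
lemma symbol_mem_center (A : AllH D T W K)
    (gen : Subgroup.closure {g | ∃ (r : ℕ) (t : K), r < D.nroots ∧ g = S.X r t} = ⊤)
    (hmul : ∀ r, r < D.nroots → ∀ t u : K, t ≠ 0 → u ≠ 0 → A.hB.hg r t * A.hB.hg r u = A.hB.hg r (t * u))
    {i : ℕ} (hi : i < D.rank) {t u : K} (ht : t ≠ 0) (hu : u ≠ 0) :
    S.hh i t * S.hh i u * (S.hh i (t * u))⁻¹ ∈ Subgroup.center Γ := by
  apply S.ker_le_center A gen
  rw [MonoidHom.mem_ker, map_mul, map_mul, map_inv, S.θ_hh A hi, S.θ_hh A hi, S.θ_hh A hi,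
    hmul _ (A.hT.simple_lt i hi) t u ht hu, mul_inv_cancel]

/-- relation (R3) for the fundamental roots over a finite field -/
theorem R3_of_finite [Finite K] (A : AllH D T W K)
    (gen : Subgroup.closure {g | ∃ (r : ℕ) (t : K), r < D.nroots ∧ g = S.X r t} = ⊤)
    (hmul : ∀ r, r < D.nroots → ∀ t u : K, t ≠ 0 → u ≠ 0 → A.hB.hg r t * A.hB.hg r u = A.hB.hg r (t * u)) :
    S.R3 := by
  intro i hi
  have hcomm := comm_of_central (S.hh i) (fun t u ht hu => S.symbol_mem_center A gen hmul hi ht hu)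
    (S.hh_one A hi)
  refine mul_of_symbol (S.hh i) hcomm ?_ (fun t u ht hu htu => S.hh_mul_of_add A hi ht hu htu)
  intro s u hs hu
  -- `h(s) h(u) h(s)⁻¹ = h(s² u) h(s²)⁻¹`
  have e : S.hh i s * S.hh i u * (S.hh i s)⁻¹ =
      (S.hh i s * S.nn i u * (S.hh i s)⁻¹) * (S.hh i s * S.nn i (-1) * (S.hh i s)⁻¹) := by
    conv_lhs => rw [show S.hh i u = S.nn i u * S.nn i (-1) from rfl]
    group
  rw [S.hh_conj_nn A hi hi hs, S.hh_conj_nn A hi hi hs, A.h.cartan_self i hi, mul_neg, mul_one,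
    ← S.nn_inv A.hT hi] at e
  have e3 : ∀ a b : K, S.nn i a * (S.nn i b)⁻¹ = S.hh i a * (S.hh i b)⁻¹ := by
    intro a b; unfold hh; group
  have e4 : s ^ (2 : ℤ) = s ^ 2 := by norm_cast
  rw [e3, e4, hcomm s u hs hu, mul_inv_cancel_right] at e
  rw [hcomm _ _ (pow_ne_zero 2 hs) hu, e, inv_mul_cancel_right]

end StD

end Cfsg.Agent.Lib.Helper17
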