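import Cfsg.Agent.Lib.Helper17.StBru

set_option autoImplicit false

/-! The subgroups `N̄` and `H̄` of a group satisfying (R1), (R2). -/

namespace Cfsg.Agent.Lib.Helper17

open Cfsg.Lie Matrix Cfsg.Agent.Lib.Helper18 Cfsg.Agent.Lib.Helper36

variable {D : ChevalleyDatum} {T : Fast} {W : WTab} {K : Type*} [Field K] {Γ : Type*} [Group Γ]

namespace StD

variable (S : StD D K Γ)

/-- the action of a monomial element on the root elements is determined in the Chevalley group -/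
lemma conj_of_θ (A : AllH D T W K) {g : Γ} (hg : S.Mon g) {s s' : ℕ} (hs : s < D.nroots) (hs' : s' < D.nroots)
    {c : K} (h : ∀ v, S.θ g * A.hB.xg s v * (S.θ g)⁻¹ = A.hB.xg s' (c * v)) (v : K) :
    g * S.X s v * g⁻¹ = S.X s' (c * v) := by
  obtain ⟨s₁, hs₁, c₁, c₁', hc₁, -, e⟩ := hg s hs
  have e1 := congrArg S.θ (e 1).1
  rw [map_mul, map_mul, map_inv, S.θ_X A.hB hs, S.θ_X A.hB hs₁, h 1] at e1
  obtain ⟨rfl, hc⟩ := A.xg_eq_xg hs₁ hs' (by rw [mul_one]; exact hc₁) e1.symm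
  rw [mul_one, mul_one] at hc
  rw [(e v).1, hc]

/-- `n_s(u)` for an arbitrary root -/
def nr (s : ℕ) (u : K) : Γ := S.X s u * S.X (D.neg s) (-u⁻¹) * S.X s u

lemma nn_eq_nr (i : ℕ) (u : K) : S.nn i u = S.nr (D.simple i) u := rfl

/-- `h_{p_i}(t)` -/
def hh (i : ℕ) (t : K) : Γ := S.nn i t * S.nn i (-1)

/-- the subgroup generated by the `h_p(t)`, `p` fundamental -/
def HH : Subgroup Γ := Subgroup.closure {g | ∃ (i : ℕ) (t : K), i < D.rank ∧ t ≠ 0 ∧ g = S.hh i t}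

lemma hh_mem_HH {i : ℕ} (hi : i < D.rank) {t : K} (ht : t ≠ 0) : S.hh i t ∈ S.HH :=
  Subgroup.subset_closure ⟨i, t, hi, ht, rfl⟩

lemma θ_hh (A : AllH D T W K) {i : ℕ} (hi : i < D.rank) (t : K) : S.θ (S.hh i t) = A.hB.hg (D.simple i) t := by
  unfold hh Base.hg
  rw [map_mul, S.θ_nn A.hB A.hT hi, S.θ_nn A.hB A.hT hi]

lemma hh_mem_NN {i : ℕ} (hi : i < D.rank) {t : K} (ht : t ≠ 0) : S.hh i t ∈ S.NN :=
  mul_mem (S.nn_mem_NN hi ht) (S.nn_mem_NN hi (neg_ne_zero.mpr one_ne_zero))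

lemma HH_le_NN : S.HH ≤ S.NN := by
  unfold HH
  rw [Subgroup.closure_le]
  rintro _ ⟨i, t, hi, ht, rfl⟩
  exact S.hh_mem_NN hi ht

lemma hh_conj_X (A : AllH D T W K) {i s : ℕ} (hi : i < D.rank) (hs : s < D.nroots) {t : K} (ht : t ≠ 0) (v : K) :
    S.hh i t * S.X s v * (S.hh i t)⁻¹ = S.X s (t ^ (D.cartan i s) * v) := by
  apply S.conj_of_θ A (S.mon_of_mem A (S.hh_mem_NN hi ht)) hs hs
  intro v
  rw [S.θ_hh A hi]
  exact A.hB.hg_simple_conj_xg hi hs ht v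

lemma hh_conj_nn (A : AllH D T W K) {i j : ℕ} (hi : i < D.rank) (hj : j < D.rank) {t : K} (ht : t ≠ 0) (u : K) :
    S.hh j t * S.nn i u * (S.hh j t)⁻¹ = S.nn i (t ^ (D.cartan j (D.simple i)) * u) := by
  have hp := A.hT.simple_lt i hi
  have e : S.hh j t * S.nn i u * (S.hh j t)⁻¹ =
      (S.hh j t * S.X (D.simple i) u * (S.hh j t)⁻¹) * (S.hh j t * S.X (D.neg (D.simple i)) (-u⁻¹) * (S.hh j t)⁻¹) *
        (S.hh j t * S.X (D.simple i) u * (S.hh j t)⁻¹) := by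
    unfold nn; group
  rw [e, S.hh_conj_X A hj hp ht, S.hh_conj_X A hj (A.hT.neg_lt hp) ht, A.h.cartan_neg j hj _ hp]
  unfold nn
  congr 3
  rw [_root_.zpow_neg, mul_inv]
  ring

lemma nn_mul_inv_mem {i : ℕ} (hi : i < D.rank) {u v : K} (hu : u ≠ 0) (hv : v ≠ 0) :
    S.nn i u * (S.nn i v)⁻¹ ∈ S.HH := by
  have : S.nn i u * (S.nn i v)⁻¹ = S.hh i u * (S.hh i v)⁻¹ := by
    unfold hh; group
  rw [this]
  exact mul_mem (S.hh_mem_HH hi hu) (inv_mem (S.hh_mem_HH hi hv))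

lemma nn_conj_hh_mem (A : AllH D T W K) {i j : ℕ} (hi : i < D.rank) (hj : j < D.rank) {u t : K} (hu : u ≠ 0)
    (ht : t ≠ 0) : S.nn i u * S.hh j t * (S.nn i u)⁻¹ ∈ S.HH := by
  have e : S.nn i u * S.hh j t * (S.nn i u)⁻¹ =
      S.nn i u * (S.hh j t * S.nn i u * (S.hh j t)⁻¹)⁻¹ * S.hh j t := by group
  rw [e, S.hh_conj_nn A hi hj ht]
  exact mul_mem (S.nn_mul_inv_mem hi hu (mul_ne_zero (zpow_ne_zero _ ht) hu)) (S.hh_mem_HH hj ht)

lemma NN_conj_HH (A : AllH D T W K) {n y : Γ} (hn : n ∈ S.NN) (hy : y ∈ S.HH) : n * y * n⁻¹ ∈ S.HH := by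
  have hgen : ∀ (i : ℕ) (u : K), i < D.rank → u ≠ 0 → ∀ y ∈ S.HH, S.nn i u * y * (S.nn i u)⁻¹ ∈ S.HH := by
    intro i u hi hu y hy
    have hle : S.HH ≤ S.HH.comap (MulAut.conj (S.nn i u)).toMonoidHom := by
      conv_lhs => unfold HH
      rw [Subgroup.closure_le]
      rintro _ ⟨j, t, hj, ht, rfl⟩
      exact S.nn_conj_hh_mem A hi hj hu ht
    exact hle hy
  unfold NN at hn
  induction hn using Subgroup.closure_induction_left generalizing y with
  | one => simpa using hy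
  | mul_left x hx z _ ih =>
    obtain ⟨i, u, hi, hu, rfl⟩ := hx
    have := hgen i u hi hu _ (ih hy)
    have e : S.nn i u * z * y * (S.nn i u * z)⁻¹ = S.nn i u * (z * y * z⁻¹) * (S.nn i u)⁻¹ := by group
    rw [e]; exact this
  | inv_mul_cancel x hx z _ ih =>
    obtain ⟨i, u, hi, hu, rfl⟩ := hx
    have := hgen i (-u) hi (neg_ne_zero.mpr hu) _ (ih hy)
    rw [← S.nn_inv A.hT hi] at this
    have e : (S.nn i u)⁻¹ * z * y * ((S.nn i u)⁻¹ * z)⁻¹ = (S.nn i u)⁻¹ * (z * y * z⁻¹) * ((S.nn i u)⁻¹)⁻¹ := by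
      group
    rw [e]; exact this

/-- conjugation of `n_s(t)` by `n_p(1)` -/
lemma nn_one_conj_nr (A : AllH D T W K) {i s : ℕ} (hi : i < D.rank) (hs : s < D.nroots) :
    ∃ η : K, (η = 1 ∨ η = -1) ∧ ∀ t : K,
      S.nn i 1 * S.nr s t * (S.nn i 1)⁻¹ = S.nr (D.reflectRoot i s) (η * t) := by
  obtain ⟨η, hη, hc⟩ := A.hB.ng_conj_xg hi hs
  refine ⟨η, hη, fun t => ?_⟩
  have h1 := S.nn_conj A hi hs one_ne_zero (fun t => (hc t).1)
  have h2 := S.nn_conj A hi (A.hT.neg_lt hs) one_ne_zero (c := η) (fun t => by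
    rw [A.hT.refl_neg' hi hs]; exact (hc t).2)
  rw [A.hT.refl_neg' hi hs] at h2
  have e : S.nn i 1 * S.nr s t * (S.nn i 1)⁻¹ =
      (S.nn i 1 * S.X s t * (S.nn i 1)⁻¹) * (S.nn i 1 * S.X (D.neg s) (-t⁻¹) * (S.nn i 1)⁻¹) *
        (S.nn i 1 * S.X s t * (S.nn i 1)⁻¹) := by
    unfold nr; group
  rw [e, h1, h2]
  unfold nr
  have : η * -t⁻¹ = -(η * t)⁻¹ := by
    rcases hη with rfl | rfl
    · simp
    · simp [inv_neg]
  rw [this]

/-- the product of the `n_p(1)` along a word -/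
def nW (L : List ℕ) : Γ := (L.map fun i => S.nn i 1).prod

end StD

/-- the action of a word on the roots -/
def wA (D : ChevalleyDatum) (L : List ℕ) (s : ℕ) : ℕ := L.foldr (fun i r => D.reflectRoot i r) s

namespace StD

variable (S : StD D K Γ)

lemma nW_conj_nr (A : AllH D T W K) (L : List ℕ) (hL : ∀ i ∈ L, i < D.rank) {s : ℕ} (hs : s < D.nroots) :
    wA D L s < D.nroots ∧ ∃ η : K, (η = 1 ∨ η = -1) ∧ ∀ t : K,
      S.nW L * S.nr s t * (S.nW L)⁻¹ = S.nr (wA D L s) (η * t) := by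
  induction L with
  | nil => exact ⟨hs, 1, Or.inl rfl, fun t => by simp [nW, wA]⟩
  | cons i L ih =>
    obtain ⟨h1, η, hη, h2⟩ := ih (fun k hk => hL k (List.mem_cons_of_mem _ hk))
    have hi := hL i List.mem_cons_self
    obtain ⟨η', hη', h3⟩ := S.nn_one_conj_nr A hi h1
    refine ⟨A.hT.refl_lt i _ hi h1, η' * η, ?_, fun t => ?_⟩
    · rcases hη with rfl | rfl <;> rcases hη' with rfl | rfl <;> simp
    · have e : S.nW (i :: L) = S.nn i 1 * S.nW L := by simp [nW]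
      have e' : wA D (i :: L) s = D.reflectRoot i (wA D L s) := rfl
      rw [e, e', mul_assoc η', ← h3, ← h2]
      group

lemma nW_conj_nn (A : AllH D T W K) (L : List ℕ) (hL : ∀ i ∈ L, i < D.rank) {k i : ℕ} (hk : k < D.rank)
    (hi : i < D.rank) (hw : wA D L (D.simple k) = D.simple i) :
    S.nW L * S.nn k 1 * (S.nW L)⁻¹ = S.nn i 1 ∨ S.nW L * S.nn k 1 * (S.nW L)⁻¹ = (S.nn i 1)⁻¹ := by
  obtain ⟨-, η, hη, h⟩ := S.nW_conj_nr A L hL (A.hT.simple_lt k hk)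
  have := h 1
  rw [hw, mul_one] at this
  rcases hη with rfl | rfl
  · exact Or.inl this
  · right
    rw [S.nn_inv A.hT hi]
    exact this

/-- the kernel lies in `N̄` -/
theorem ker_le_NN (A : AllH D T W K)
    (gen : Subgroup.closure {g | ∃ (r : ℕ) (t : K), r < D.nroots ∧ g = S.X r t} = ⊤) :
    S.θ.ker ≤ S.NN := by
  intro g hg
  obtain ⟨a, ha, n, hn, b, hb, rfl⟩ := S.big_all A gen g
  rw [MonoidHom.mem_ker, map_mul, map_mul] at hg
  have h1 : S.θ n = (S.θ a)⁻¹ * (S.θ b)⁻¹ := by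
    rw [eq_mul_inv_iff_mul_eq]
    rw [mul_assoc] at hg
    exact (mul_eq_one_iff_inv_eq.mp hg).symm
  have h2 : S.θ n ∈ D.posUnipotent K ⊓ D.monomialSubgroup K :=
    Subgroup.mem_inf.mpr ⟨h1 ▸ mul_mem (inv_mem (S.θ_mem_U A ha)) (inv_mem (S.θ_mem_U A hb)), S.θ_mem_N A hn⟩
  rw [A.UN, Subgroup.mem_bot] at h2
  have h3 : a * b = 1 := by
    apply S.θ_inj A.h A.hB A.hT A.hs (mul_mem ha hb) (one_mem _)
    rw [map_mul, map_one]
    rw [h2, mul_one] at hg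
    exact hg
  have hcen := S.mem_center_of_NN A gen hn h2
  have hb' : b = a⁻¹ := eq_inv_of_mul_eq_one_right h3
  rw [hb', (Subgroup.mem_center_iff.mp hcen a), mul_assoc, mul_inv_cancel, mul_one]
  exact hn

end StD

section braid

variable {Q : Type*} [Group Q] {a b : Q}

lemma braid2 (ha : a * a = 1) (hb : b * b = 1) (h : b * a * b⁻¹ = a) : (a * b) ^ 2 = 1 := by
  have hb' : b⁻¹ = b := inv_eq_of_mul_eq_one_left hb
  rw [hb'] at h
  calc (a * b) ^ 2 = a * (b * a * b) := by simp only [pow_succ, pow_zero, one_mul, mul_assoc]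
    _ = 1 := by rw [h, ha]

lemma braid3 (ha : a * a = 1) (hb : b * b = 1) (h : (b * a) * b * (b * a)⁻¹ = a) : (a * b) ^ 3 = 1 := by
  have hb' : b⁻¹ = b := inv_eq_of_mul_eq_one_left hb
  have ha' : a⁻¹ = a := inv_eq_of_mul_eq_one_left ha
  rw [_root_.mul_inv_rev, ha', hb'] at h
  calc (a * b) ^ 3 = a * ((b * a) * b * (a * b)) := by simp only [pow_succ, pow_zero, one_mul, mul_assoc]
    _ = 1 := by rw [h, ha]

lemma braid4 (ha : a * a = 1) (hb : b * b = 1) (h : (b * a * b) * a * (b * a * b)⁻¹ = a) : (a * b) ^ 4 = 1 := by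
  have hb' : b⁻¹ = b := inv_eq_of_mul_eq_one_left hb
  have ha' : a⁻¹ = a := inv_eq_of_mul_eq_one_left ha
  rw [_root_.mul_inv_rev, _root_.mul_inv_rev, ha', hb'] at h
  calc (a * b) ^ 4 = a * ((b * a * b) * a * (b * (a * b))) := by
        simp only [pow_succ, pow_zero, one_mul, mul_assoc]
    _ = 1 := by rw [h, ha]

lemma braid6 (ha : a * a = 1) (hb : b * b = 1)
    (h : (b * a * b * a * b) * a * (b * a * b * a * b)⁻¹ = a) : (a * b) ^ 6 = 1 := by
  have hb' : b⁻¹ = b := inv_eq_of_mul_eq_one_left hb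
  have ha' : a⁻¹ = a := inv_eq_of_mul_eq_one_left ha
  rw [_root_.mul_inv_rev, _root_.mul_inv_rev, _root_.mul_inv_rev, _root_.mul_inv_rev, ha', hb'] at h
  calc (a * b) ^ 6 = a * ((b * a * b * a * b) * a * (b * (a * (b * (a * b))))) := by
        simp only [pow_succ, pow_zero, one_mul, mul_assoc]
    _ = 1 := by rw [h, ha]

end braid

/-- the table check for the braid relations -/
def brB (D : ChevalleyDatum) (i j m : ℕ) : Bool :=
  (decide (m = 1) && decide (i = j)) ||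
  (decide (m = 2) && decide (wA D [j] (D.simple i) = D.simple i)) ||
  (decide (m = 3) && decide (wA D [j, i] (D.simple j) = D.simple i)) ||
  (decide (m = 4) && decide (wA D [j, i, j] (D.simple i) = D.simple i)) ||
  (decide (m = 6) && decide (wA D [j, i, j, i, j] (D.simple i) = D.simple i))

end Cfsg.Agent.Lib.Helper17
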