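import Cfsg.Agent.Lib.Helper17.StWeyl
import Mathlib.GroupTheory.Coxeter.Basic

set_option autoImplicit false

/-! The kernel of `θ` lies in `H̄`. -/

namespace Cfsg.Agent.Lib.Helper17

open Cfsg.Lie Matrix Cfsg.Agent.Lib.Helper18 Cfsg.Agent.Lib.Helper36

variable {D : ChevalleyDatum} {T : Fast} {W : WTab} {K : Type*} [Field K] {Γ : Type*} [Group Γ]

namespace StD

variable (S : StD D K Γ)

/-- `H̄` as a subgroup of `N̄` -/
def HN : Subgroup ↥S.NN := S.HH.subgroupOf S.NN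

lemma HN_normal (A : AllH D T W K) : S.HN.Normal :=
  ⟨fun _ hy n => S.NN_conj_HH A n.2 hy⟩

/-- `n_p(1)` as an element of `N̄` -/
def n1 (i : Fin D.rank) : ↥S.NN := ⟨S.nn i 1, S.nn_mem_NN i.2 one_ne_zero⟩

lemma n1_sq_mem (A : AllH D T W K) (i : Fin D.rank) : S.n1 i * S.n1 i ∈ S.HN := by
  show S.nn i 1 * S.nn i 1 ∈ S.HH
  have : S.nn i 1 * S.nn i 1 = (S.hh i (-1))⁻¹ := by
    unfold hh
    rw [← S.nn_inv A.hT i.2, _root_.mul_inv_rev, inv_inv]
  rw [this]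
  exact inv_mem (S.hh_mem_HH i.2 (neg_ne_zero.mpr one_ne_zero))

theorem liftable (A : AllH D T W K) [S.HN.Normal] (M : CoxeterMatrix (Fin D.rank))
    (hM : ∀ i j : Fin D.rank, brB D i j (M i j) = true) :
    M.IsLiftable (fun i => (QuotientGroup.mk' S.HN) (S.n1 i)) := by
  intro i j
  set π := QuotientGroup.mk' S.HN with hπ
  have hsq : ∀ k : Fin D.rank, π (S.n1 k) * π (S.n1 k) = 1 := by
    intro k
    rw [← map_mul]
    exact (QuotientGroup.eq_one_iff _).mpr (S.n1_sq_mem A k)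
  have hinv : ∀ k : Fin D.rank, (π (S.n1 k))⁻¹ = π (S.n1 k) := fun k => inv_eq_of_mul_eq_one_left (hsq k)
  have h := hM i j
  unfold brB at h
  simp only [Bool.or_eq_true, Bool.and_eq_true, decide_eq_true_eq] at h
  show (π (S.n1 i) * π (S.n1 j)) ^ M i j = 1
  rcases h with (((⟨hm, hij⟩ | ⟨hm, hw⟩) | ⟨hm, hw⟩) | ⟨hm, hw⟩) | ⟨hm, hw⟩
  · have : i = j := Fin.ext hij
    subst this
    rw [hm, pow_one, hsq]
  · rw [hm]
    apply braid2 (hsq i) (hsq j)
    have h1 := S.nW_conj_nn A [j] (by simp) i.2 i.2 hw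
    simp only [nW, List.map_cons, List.map_nil, List.prod_cons, List.prod_nil, mul_one] at h1
    rcases h1 with h1 | h1
    · have h2 : S.n1 j * S.n1 i * (S.n1 j)⁻¹ = S.n1 i := Subtype.ext h1
      have := congrArg π h2
      simpa only [map_mul, map_inv] using this
    · have h2 : S.n1 j * S.n1 i * (S.n1 j)⁻¹ = (S.n1 i)⁻¹ := Subtype.ext h1
      have := congrArg π h2
      simpa only [map_mul, map_inv, hinv i] using this
  · rw [hm]
    apply braid3 (hsq i) (hsq j)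
    have h1 := S.nW_conj_nn A [j, i] (by simp [i.2, j.2]) j.2 i.2 hw
    simp only [nW, List.map_cons, List.map_nil, List.prod_cons, List.prod_nil, mul_one] at h1
    rcases h1 with h1 | h1
    · have h2 : (S.n1 j * S.n1 i) * S.n1 j * (S.n1 j * S.n1 i)⁻¹ = S.n1 i := Subtype.ext h1
      have := congrArg π h2
      simpa only [map_mul, map_inv] using this
    · have h2 : (S.n1 j * S.n1 i) * S.n1 j * (S.n1 j * S.n1 i)⁻¹ = (S.n1 i)⁻¹ := Subtype.ext h1
      have := congrArg π h2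
      rw [map_inv, hinv i] at this
      simpa only [map_mul, map_inv] using this
  · rw [hm]
    apply braid4 (hsq i) (hsq j)
    have h1 := S.nW_conj_nn A [j, i, j] (by simp [i.2, j.2]) i.2 i.2 hw
    simp only [nW, List.map_cons, List.map_nil, List.prod_cons, List.prod_nil, mul_one, ← mul_assoc] at h1
    rcases h1 with h1 | h1
    · have h2 : (S.n1 j * S.n1 i * S.n1 j) * S.n1 i * (S.n1 j * S.n1 i * S.n1 j)⁻¹ = S.n1 i := Subtype.ext h1
      have := congrArg π h2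
      simpa only [map_mul, map_inv] using this
    · have h2 : (S.n1 j * S.n1 i * S.n1 j) * S.n1 i * (S.n1 j * S.n1 i * S.n1 j)⁻¹ = (S.n1 i)⁻¹ :=
        Subtype.ext h1
      have := congrArg π h2
      rw [map_inv, hinv i] at this
      simpa only [map_mul, map_inv] using this
  · rw [hm]
    apply braid6 (hsq i) (hsq j)
    have h1 := S.nW_conj_nn A [j, i, j, i, j] (by simp [i.2, j.2]) i.2 i.2 hw
    simp only [nW, List.map_cons, List.map_nil, List.prod_cons, List.prod_nil, mul_one, ← mul_assoc] at h1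
    rcases h1 with h1 | h1
    · have h2 : (S.n1 j * S.n1 i * S.n1 j * S.n1 i * S.n1 j) * S.n1 i *
          (S.n1 j * S.n1 i * S.n1 j * S.n1 i * S.n1 j)⁻¹ = S.n1 i := Subtype.ext h1
      have := congrArg π h2
      simpa only [map_mul, map_inv] using this
    · have h2 : (S.n1 j * S.n1 i * S.n1 j * S.n1 i * S.n1 j) * S.n1 i *
          (S.n1 j * S.n1 i * S.n1 j * S.n1 i * S.n1 j)⁻¹ = (S.n1 i)⁻¹ := Subtype.ext h1
      have := congrArg π h2
      rw [map_inv, hinv i] at this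
      simpa only [map_mul, map_inv] using this

/-- `θ` restricted to `N̄` -/
def θN (A : AllH D T W K) : ↥S.NN →* ↥(D.monomialSubgroup K) :=
  (S.θ.comp S.NN.subtype).codRestrict _ (fun x => S.θ_mem_N A x.2)

theorem NN_ker_le_HH (A : AllH D T W K) (M : CoxeterMatrix (Fin D.rank))
    (hM : ∀ i j : Fin D.rank, brB D i j (M i j) = true)
    (φ : ↥(D.monomialSubgroup K) →* M.Group)
    (hker : φ.ker = (D.diagonalSubgroup K).subgroupOf (D.monomialSubgroup K))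
    (hφ : ∀ (i : Fin D.rank) (g : ↥(D.monomialSubgroup K)),
      ((g : GL D.Idx K) : Matrix D.Idx D.Idx K) = D.nMat K (D.simple i) 1 → φ g = M.simple i)
    {n : Γ} (hn : n ∈ S.NN) (h1 : S.θ n ∈ D.diagonalSubgroup K) : n ∈ S.HH := by
  have := S.HN_normal A
  set π := QuotientGroup.mk' S.HN with hπ
  let ψ := M.toCoxeterSystem.lift ⟨_, S.liftable A M hM⟩
  have hψ : ∀ i, ψ (M.simple i) = π (S.n1 i) := fun i =>
    M.toCoxeterSystem.lift_apply_simple (S.liftable A M hM) i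
  have hd : Subgroup.closure (((↑) : ↥S.NN → Γ) ⁻¹'
      {g | ∃ (i : ℕ) (u : K), i < D.rank ∧ u ≠ 0 ∧ g = S.nn i u}) = ⊤ :=
    Subgroup.closure_closure_coe_preimage
  have key : (ψ.comp φ).comp (S.θN A) = π := by
    apply MonoidHom.eq_of_eqOn_dense hd
    rintro ⟨x, hx⟩ ⟨i, u, hi, hu, hxe⟩
    have hxe' : x = S.nn i u := hxe
    subst hxe'
    show ψ (φ (S.θN A ⟨S.nn i u, hx⟩)) = π ⟨S.nn i u, hx⟩
    have hp := A.hT.simple_lt i hi
    have e1 : S.θN A ⟨S.nn i u, hx⟩ =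
        ⟨A.hB.hg (D.simple i) u, Base.H_le_N (A.hB.hg_mem hp hu)⟩ * ⟨A.hB.ng (D.simple i) 1, A.hB.ng_one_mem hp⟩ := by
      apply Subtype.ext
      show S.θ (S.nn i u) = A.hB.hg (D.simple i) u * A.hB.ng (D.simple i) 1
      rw [S.θ_nn A.hB A.hT hi, ← A.hB.ng_eq_hg_mul]
    have e2 : φ ⟨A.hB.hg (D.simple i) u, Base.H_le_N (A.hB.hg_mem hp hu)⟩ = 1 := by
      rw [← MonoidHom.mem_ker, hker]
      exact A.hB.hg_mem hp hu
    have e3 : φ ⟨A.hB.ng (D.simple i) 1, A.hB.ng_one_mem hp⟩ = M.simple ⟨i, hi⟩ :=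
      hφ ⟨i, hi⟩ _ (A.hB.coe_ng _ _)
    rw [e1, map_mul, e2, e3, one_mul, hψ]
    have e4 : (⟨S.nn i u, hx⟩ : ↥S.NN) = (⟨S.nn i u, hx⟩ * (S.n1 ⟨i, hi⟩)⁻¹) * S.n1 ⟨i, hi⟩ := by group
    have e5 : π (⟨S.nn i u, hx⟩ * (S.n1 ⟨i, hi⟩)⁻¹) = 1 :=
      (QuotientGroup.eq_one_iff _).mpr (S.nn_mul_inv_mem hi hu one_ne_zero)
    rw [e4, map_mul, e5, one_mul]
  have h2 : π ⟨n, hn⟩ = 1 := by
    rw [← key]
    show ψ (φ (S.θN A ⟨n, hn⟩)) = 1
    have : φ (S.θN A ⟨n, hn⟩) = 1 := by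
      rw [← MonoidHom.mem_ker, hker]
      exact h1
    rw [this, map_one]
  have h3 : (⟨n, hn⟩ : ↥S.NN) ∈ S.HN := (QuotientGroup.eq_one_iff _).mp h2
  exact h3

theorem ker_le_HH (A : AllH D T W K)
    (gen : Subgroup.closure {g | ∃ (r : ℕ) (t : K), r < D.nroots ∧ g = S.X r t} = ⊤)
    (M : CoxeterMatrix (Fin D.rank))
    (hM : ∀ i j : Fin D.rank, brB D i j (M i j) = true)
    (φ : ↥(D.monomialSubgroup K) →* M.Group)
    (hker : φ.ker = (D.diagonalSubgroup K).subgroupOf (D.monomialSubgroup K))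
    (hφ : ∀ (i : Fin D.rank) (g : ↥(D.monomialSubgroup K)),
      ((g : GL D.Idx K) : Matrix D.Idx D.Idx K) = D.nMat K (D.simple i) 1 → φ g = M.simple i) :
    S.θ.ker ≤ S.HH := by
  intro g hg
  apply S.NN_ker_le_HH A M hM φ hker hφ (S.ker_le_NN A gen hg)
  rw [MonoidHom.mem_ker.mp hg]
  exact one_mem _

end StD

end Cfsg.Agent.Lib.Helper17
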