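import Cfsg.Agent.Lib.Helper17.UcTor
import Cfsg.Agent.Lib.Helper18.ChevMon

set_option autoImplicit false

/-! Central extensions of the Chevalley group: canonical lifts of the root elements. -/

namespace Cfsg.Agent.Lib.Helper17

open Cfsg.Lie Matrix Cfsg.Agent.Lib.Helper18 Cfsg.Agent.Lib.Helper36

variable {D : ChevalleyDatum} {T : Fast} {W : WTab} {K : Type*} [Field K] {E : Type*} [Group E]

/-- the commutator `a b a⁻¹ b⁻¹` -/
def cm (a b : E) : E := a * b * a⁻¹ * b⁻¹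

lemma conj_cm (g a b : E) : g * cm a b * g⁻¹ = cm (g * a * g⁻¹) (g * b * g⁻¹) := by
  unfold cm; group

lemma cm_mul_left (a b c : E) : cm (a * b) c = a * cm b c * a⁻¹ * cm a c := by
  unfold cm; group

lemma cm_mul_right (a b c : E) : cm a (b * c) = cm a b * (b * cm a c * b⁻¹) := by
  unfold cm; group

lemma cm_central_left {a b z : E} (hz : z ∈ Subgroup.center E) : cm (a * z) b = cm a b := by
  have h := Subgroup.mem_center_iff.mp hz
  have e : z * b * z⁻¹ = b := by rw [← h b, mul_inv_cancel_right]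
  calc cm (a * z) b = a * (z * b * z⁻¹) * a⁻¹ * b⁻¹ := by unfold cm; group
    _ = cm a b := by rw [e]; rfl

lemma cm_central_right {a b w : E} (hw : w ∈ Subgroup.center E) : cm a (b * w) = cm a b := by
  have h := Subgroup.mem_center_iff.mp hw
  have e : w * a⁻¹ * w⁻¹ = a⁻¹ := by rw [← h a⁻¹, mul_inv_cancel_right]
  calc cm a (b * w) = a * b * (w * a⁻¹ * w⁻¹) * b⁻¹ := by unfold cm; group
    _ = cm a b := by rw [e]; rfl

/-- a central extension of the Chevalley group -/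
structure CExt (D : ChevalleyDatum) (K : Type*) [Field K] (E : Type*) [Group E] where
  ψ : E →* GL D.Idx K
  central : ψ.ker ≤ Subgroup.center E
  surj : ∀ g ∈ D.group K, ∃ e, ψ e = g

namespace CExt

variable (C : CExt D K E)

lemma eq_mul_central {a a' : E} (h : C.ψ a = C.ψ a') : ∃ z ∈ Subgroup.center E, a' = a * z := by
  refine ⟨a⁻¹ * a', C.central ?_, by group⟩
  rw [MonoidHom.mem_ker, map_mul, map_inv, h, inv_mul_cancel]

lemma cm_congr {a a' b b' : E} (ha : C.ψ a = C.ψ a') (hb : C.ψ b = C.ψ b') : cm a b = cm a' b' := by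
  obtain ⟨z, hz, rfl⟩ := C.eq_mul_central ha
  obtain ⟨w, hw, rfl⟩ := C.eq_mul_central hb
  rw [cm_central_left hz, cm_central_right hw]

lemma ψ_cm (a b : E) : C.ψ (cm a b) = cm (C.ψ a) (C.ψ b) := by
  unfold cm; simp

open Classical in
/-- a chosen lift -/
noncomputable def lft (g : GL D.Idx K) : E := if h : ∃ e, C.ψ e = g then h.choose else 1

lemma ψ_lft {g : GL D.Idx K} (hg : g ∈ D.group K) : C.ψ (C.lft g) = g := by
  unfold lft
  rw [dif_pos (C.surj g hg)]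
  exact (C.surj g hg).choose_spec

/-- the lifts of the elements of `X_q` commute -/
def Ab (hB : Base D K) (q : ℕ) : Prop :=
  ∀ (e₁ e₂ : E) (t u : K), C.ψ e₁ = hB.xg q t → C.ψ e₂ = hB.xg q u → e₁ * e₂ = e₂ * e₁

/-- if the torus acts on `X_q` by all scalars, the lifts of the elements of `X_q` commute -/
theorem ab_of_family (A : AllH D T W K) (hK : ∃ s : Finset K, 4 < s.card) {q : ℕ} (hq : q < D.nroots)
    (hfam : ∀ b : K, b ≠ 0 → ∃ h, TorG A.hB h q b) : C.Ab A.hB q := by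
  have hl : ∀ t, C.ψ (C.lft (A.hB.xg q t)) = A.hB.xg q t := fun t => C.ψ_lft (A.hB.xg_mem_group hq t)
  set F : K → K → E := fun t u => cm (C.lft (A.hB.xg q t)) (C.lft (A.hB.xg q u)) with hF
  have hFeq : ∀ (e₁ e₂ : E) (t u : K), C.ψ e₁ = A.hB.xg q t → C.ψ e₂ = A.hB.xg q u → cm e₁ e₂ = F t u :=
    fun e₁ e₂ t u h1 h2 => C.cm_congr (h1.trans (hl t).symm) (h2.trans (hl u).symm)
  have hcen : ∀ t u, F t u ∈ Subgroup.center E := by
    intro t u
    apply C.central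
    rw [MonoidHom.mem_ker, C.ψ_cm, hl, hl]
    unfold cm
    rw [A.hB.xg_add, A.hB.xg_inv, A.hB.xg_inv, A.hB.xg_add, A.hB.xg_add]
    have : t + u + -t + -u = 0 := by ring
    rw [this, A.hB.xg_zero]
  have hconj : ∀ (g : E) (t u : K), g * F t u * g⁻¹ = F t u := by
    intro g t u
    rw [Subgroup.mem_center_iff.mp (hcen t u) g, mul_inv_cancel_right]
  have addL : ∀ t t' u, F (t + t') u = F t' u * F t u := by
    intro t t' u
    rw [← hFeq (C.lft (A.hB.xg q t) * C.lft (A.hB.xg q t')) (C.lft (A.hB.xg q u)) (t + t') u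
      (by rw [map_mul, hl, hl, A.hB.xg_add]) (hl u), cm_mul_left]
    show _ * F t' u * _ * F t u = _
    rw [hconj]
  have addR : ∀ t u u', F t (u + u') = F t u * F t u' := by
    intro t u u'
    rw [← hFeq (C.lft (A.hB.xg q t)) (C.lft (A.hB.xg q u) * C.lft (A.hB.xg q u')) t (u + u') (hl t)
      (by rw [map_mul, hl, hl, A.hB.xg_add]), cm_mul_right]
    show F t u * (_ * F t u' * _) = _
    rw [hconj]
  have hinv : ∀ b : K, b ≠ 0 → ∀ t u, F (b * t) (b * u) = F t u := by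
    intro b hb t u
    obtain ⟨h, hh⟩ := hfam b hb
    have hlh := C.ψ_lft (A.hB.H_le_group A.hT hh.1)
    rw [← hconj (C.lft h) t u]
    show _ = _ * cm _ _ * _
    rw [conj_cm]
    symm
    apply hFeq
    · rw [map_mul, map_mul, map_inv, hlh, hl, hh.2]
    · rw [map_mul, map_mul, map_inv, hlh, hl, hh.2]
  obtain ⟨b, hb0, hb1, hb2⟩ := exists_good_b hK
  have key : ∀ t u, F t ((1 + b⁻¹ - (b + 1)⁻¹) * u) = 1 := by
    intro t u
    have e1 : F ((b + 1) * t) u = F t ((b + 1)⁻¹ * u) := by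
      have := hinv (b + 1) hb1 t ((b + 1)⁻¹ * u)
      rwa [mul_inv_cancel_left₀ hb1] at this
    have e2 : F (b * t) u = F t (b⁻¹ * u) := by
      have := hinv b hb0 t (b⁻¹ * u)
      rwa [mul_inv_cancel_left₀ hb0] at this
    have e3 : F ((b + 1) * t) u = F t u * F (b * t) u := by
      have : (b + 1) * t = b * t + t := by ring
      rw [this, addL]
    rw [e1, e2, ← addR] at e3
    have e4 : u + b⁻¹ * u = (b + 1)⁻¹ * u + (1 + b⁻¹ - (b + 1)⁻¹) * u := by ring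
    rw [e4, addR] at e3
    exact (mul_eq_left.mp e3.symm)
  have hκ : (1 + b⁻¹ - (b + 1)⁻¹) ≠ 0 := by
    have : 1 + b⁻¹ - (b + 1)⁻¹ = (b ^ 2 + b + 1) / (b * (b + 1)) := by
      field_simp
      ring
    rw [this]
    exact div_ne_zero hb2 (mul_ne_zero hb0 hb1)
  intro e₁ e₂ t u h1 h2
  have h3 := hFeq e₁ e₂ t u h1 h2
  have h4 := key t ((1 + b⁻¹ - (b + 1)⁻¹)⁻¹ * u)
  rw [mul_inv_cancel_left₀ hκ] at h4
  rw [h4] at h3
  unfold cm at h3
  rw [mul_inv_eq_one, mul_inv_eq_iff_eq_mul] at h3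
  exact h3

/-- `h̃` lifts a torus element acting on `X_q` by `χ` -/
def Tor (hB : Base D K) (h : E) (q : ℕ) (χ : K) : Prop := TorG hB (C.ψ h) q χ

variable {C}

lemma ψ_cm_tor {hB : Base D K} {h e : E} {q : ℕ} {χ t : K} (hh : C.Tor hB h q χ) (he : C.ψ e = hB.xg q t) :
    C.ψ (cm h e) = hB.xg q ((χ - 1) * t) := by
  rw [C.ψ_cm]
  unfold cm
  rw [he, hh.2, hB.xg_inv, hB.xg_add]
  congr 1; ring

lemma ψ_conj_tor {hB : Base D K} {h e : E} {q : ℕ} {χ t : K} (hh : C.Tor hB h q χ) (he : C.ψ e = hB.xg q t) :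
    C.ψ (h * e * h⁻¹) = hB.xg q (χ * t) := by
  rw [map_mul, map_mul, map_inv, he, hh.2]

lemma cm_add {hB : Base D K} {h e₁ e₂ : E} {q : ℕ} {χ t u : K} (hab : C.Ab hB q) (hh : C.Tor hB h q χ)
    (h1 : C.ψ e₁ = hB.xg q t) (h2 : C.ψ e₂ = hB.xg q u) : cm h (e₁ * e₂) = cm h e₁ * cm h e₂ := by
  have h3 : C.ψ (cm h e₂) = hB.xg q ((χ - 1) * u) := ψ_cm_tor hh h2
  have h4 : C.ψ e₁⁻¹ = hB.xg q (-t) := by rw [map_inv, h1, hB.xg_inv]
  have h5 := hab _ _ _ _ h3 h4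
  calc cm h (e₁ * e₂) = h * e₁ * h⁻¹ * (cm h e₂ * e₁⁻¹) := by unfold cm; group
    _ = h * e₁ * h⁻¹ * (e₁⁻¹ * cm h e₂) := by rw [h5]
    _ = _ := by unfold cm; group

lemma cm_swap {hB : Base D K} {h₁ h₂ e : E} {q : ℕ} {χ₁ χ₂ t : K} (hab : C.Ab hB q) (a : C.Tor hB h₁ q χ₁)
    (b : C.Tor hB h₂ q χ₂) (he : C.ψ e = hB.xg q t) : cm h₂ (cm h₁ e) = cm h₁ (cm h₂ e) := by
  have e1 : h₂ * cm h₁ e * h₂⁻¹ = cm h₁ (h₂ * e * h₂⁻¹) := by
    rw [conj_cm]
    apply C.cm_congr _ rfl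
    rw [map_mul, map_mul, map_inv, hB.H_comm b.1 a.1, mul_inv_cancel_right]
  have e2 : h₂ * e * h₂⁻¹ = cm h₂ e * e := by unfold cm; group
  have e3 : cm h₁ (cm h₂ e * e) = cm h₁ (cm h₂ e) * cm h₁ e := cm_add hab a (ψ_cm_tor b he) he
  calc cm h₂ (cm h₁ e) = h₂ * cm h₁ e * h₂⁻¹ * (cm h₁ e)⁻¹ := rfl
    _ = _ := by rw [e1, e2, e3, mul_inv_cancel_right]

end CExt

end Cfsg.Agent.Lib.Helper17
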