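import Cfsg.Agent.Lib.Helper17.UcRel
import Cfsg.Agent.Lib.Helper17.StPres4
import Cfsg.Agent.Lib.Helper17.StPres3

set_option autoImplicit false

/-! Central extensions of the Chevalley group carry Steinberg's relations; stem extensions. -/

namespace Cfsg.Agent.Lib.Helper17

open Cfsg.Lie Matrix Cfsg.Agent.Lib.Helper18 Cfsg.Agent.Lib.Helper36

variable {D : ChevalleyDatum} {T : Fast} {W : WTab} {K : Type*} [Field K] {E : Type*} [Group E]

lemma CExt.ab_of_p1 (C : CExt D K E) (A : AllH D T W K) (hK : ∃ s : Finset K, 4 < s.card)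
    (h1 : p1OK D = true) : ∀ q, q < D.nroots → C.Ab A.hB q := by
  intro q hq
  apply C.ab_of_family A hK hq
  intro b hb
  obtain ⟨β, hβ, e⟩ := A.exists_pairing_one h1 q hq
  refine ⟨A.hB.hg β b, ?_⟩
  have := torG_hg A.hB hβ hq hb
  rwa [e, zpow_one] at this

/-- Steinberg: over a field with more than four elements the relations (R1), (R2) lift to every central
extension of the Chevalley group -/
theorem CExt.exists_std (C : CExt D K E) (A : AllH D T W K) (hK : ∃ s : Finset K, 4 < s.card)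
    (hp : prOK D = true) (htr : TrOK D) (hab : ∀ q, q < D.nroots → C.Ab A.hB q) :
    ∃ S : StD D K E, S.θ = C.ψ := by
  obtain ⟨Y, hY⟩ := C.exists_YD A hK hab
  exact ⟨hY.toStD A hK hp htr, rfl⟩

/-- over a finite field, for a unimodular Cartan matrix, a group generated by elements satisfying (R1), (R2)
maps injectively to the Chevalley group -/
theorem StD.ker_eq_bot [Finite K] (hD : D ∈ [chevG2, chevB2, chevD4, chevF4, chevE6, chevE7, chevE8])
    (A : AllH D T W K) (S : StD D K E)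
    (gen : Subgroup.closure {g | ∃ (r : ℕ) (t : K), r < D.nroots ∧ g = S.X r t} = ⊤)
    (A' : Matrix (Fin D.rank) (Fin D.rank) ℤ)
    (hA' : (Matrix.of fun i j : Fin D.rank => D.cartan i (D.simple j)) * A' = 1) : S.θ.ker = ⊥ := by
  obtain ⟨M, φ, hM, hker, hφ⟩ := exists_cox K hD
  rw [eq_bot_iff]
  intro z hz
  exact S.eq_one_of_central A (S.R3_of_finite A gen (hg_mul hD A.hB)) A' hA'
    (S.ker_le_HH A gen M hM φ hker hφ hz) (S.ker_le_center A gen hz)

/-- in a stem extension the lifts of the root elements generate -/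
theorem StD.gen_of_stem (hB : Base D K) (S : StD D K E) (hc : S.θ.ker ≤ Subgroup.center E)
    (hs : S.θ.ker ≤ commutator E) (hr : ∀ e, S.θ e ∈ D.group K) :
    Subgroup.closure {g | ∃ (r : ℕ) (t : K), r < D.nroots ∧ g = S.X r t} = ⊤ := by
  set Γ₀ := Subgroup.closure {g | ∃ (r : ℕ) (t : K), r < D.nroots ∧ g = S.X r t} with hΓ
  have hmap : D.group K ≤ Γ₀.map S.θ := by
    rw [hB.group_eq, Subgroup.closure_le]
    rintro _ ⟨r, t, hr, rfl⟩
    exact ⟨S.X r t, Subgroup.subset_closure ⟨r, t, hr, rfl⟩, S.θ_X hB hr t⟩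
  have dec : ∀ e : E, ∃ e₀ ∈ Γ₀, ∃ z ∈ S.θ.ker, e = e₀ * z := by
    intro e
    obtain ⟨e₀, h0, h1⟩ := hmap (hr e)
    refine ⟨e₀, h0, e₀⁻¹ * e, ?_, by group⟩
    rw [MonoidHom.mem_ker, map_mul, map_inv, h1, inv_mul_cancel]
  have hcomm : commutator E ≤ Γ₀ := by
    rw [commutator_eq_closure, Subgroup.closure_le]
    rintro _ ⟨a, b, rfl⟩
    obtain ⟨a₀, ha, z, hz, rfl⟩ := dec a
    obtain ⟨b₀, hb, w, hw, rfl⟩ := dec b
    have e : cm (a₀ * z) (b₀ * w) = cm a₀ b₀ := by
      rw [cm_central_left (hc hz), cm_central_right (hc hw)]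
    show cm (a₀ * z) (b₀ * w) ∈ Γ₀
    rw [e]
    exact mul_mem (mul_mem (mul_mem ha hb) (inv_mem ha)) (inv_mem hb)
  rw [eq_top_iff]
  intro e _
  obtain ⟨e₀, h0, z, hz, rfl⟩ := dec e
  exact mul_mem h0 (hcomm (hs hz))

/-- check of `TrOK` with a list of words -/
def trB (D : ChevalleyDatum) (WL : List (List ℕ)) : Bool :=
  (List.range D.nroots).all fun r => (List.range D.nroots).all fun s =>
    decide (s = r) || decide (s = D.neg r) || WL.any fun L =>
      L.all (fun i => decide (i < D.rank)) && decide (D.nroots / 2 ≤ wAct D L r) &&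
        decide (D.nroots / 2 ≤ wAct D L s) &&
          (D.commTerms r s).all fun c => decide (c.1 < D.nroots) && decide (D.nroots / 2 ≤ wAct D L c.1)

theorem trOK_of_check (hT : Tab D) {WL : List (List ℕ)} (h : trB D WL = true) : TrOK D := by
  intro r s hr hs h1 h2
  unfold trB at h
  rw [List.all_eq_true] at h
  have h3 := h r (List.mem_range.mpr hr)
  rw [List.all_eq_true] at h3
  have h4 := h3 s (List.mem_range.mpr hs)
  simp only [Bool.or_eq_true, decide_eq_true_eq, h1, h2, false_or, List.any_eq_true, Bool.and_eq_true,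
    List.all_eq_true] at h4
  obtain ⟨L, -, ⟨⟨hL, h5⟩, h6⟩, h7⟩ := h4
  refine ⟨L, hL, ?_, ?_, fun c hc => ?_⟩
  · rw [hT.pos_iff _ (hT.wAct_lt hL hr)]; exact h5
  · rw [hT.pos_iff _ (hT.wAct_lt hL hs)]; exact h6
  · rw [hT.pos_iff _ (hT.wAct_lt hL (h7 c hc).1)]; exact (h7 c hc).2

theorem trOK_G2 : TrOK chevG2 :=
  trOK_of_check (tab_of_mem (by simp))
    (WL := [[], [0], [1], [0, 1], [1, 0], [0, 1, 0], [1, 0, 1], [0, 1, 0, 1], [1, 0, 1, 0], [0, 1, 0, 1, 0],
      [1, 0, 1, 0, 1], [0, 1, 0, 1, 0, 1]]) (by decide +kernel)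

end Cfsg.Agent.Lib.Helper17
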