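import Cfsg.Agent.Lib.Helper17.UcY

set_option autoImplicit false

/-! Central extensions of the Chevalley group: the extension is injective on the subgroup generated by the
canonical lifts of the positive root elements. -/

namespace Cfsg.Agent.Lib.Helper17

open Cfsg.Lie Matrix Cfsg.Agent.Lib.Helper18 Cfsg.Agent.Lib.Helper36

set_option linter.unusedSectionVars false

variable {D : ChevalleyDatum} {T : Fast} {W : WTab} {K : Type*} [Field K] {E : Type*} [Group E]

/-- the subgroup generated by the `Y s u`, `s ∈ L` -/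
def NL (Y : ℕ → K → E) (L : List ℕ) : Subgroup E := Subgroup.closure {e | ∃ s ∈ L, ∃ u : K, e = Y s u}

/-- ordered products -/
def opY (Y : ℕ → K → E) (L : List ℕ) (t : ℕ → K) : E := (L.map fun r => Y r (t r)).prod

/-- words -/
def wdY (Y : ℕ → K → E) (w : List (ℕ × K)) : E := (w.map fun p => Y p.1 p.2).prod

lemma Y_mem_NL {Y : ℕ → K → E} {L : List ℕ} {s : ℕ} (hs : s ∈ L) (u : K) : Y s u ∈ NL Y L :=
  Subgroup.subset_closure ⟨s, hs, u, rfl⟩

lemma wdY_mem_NL {Y : ℕ → K → E} {L : List ℕ} {w : List (ℕ × K)} (hw : ∀ p ∈ w, p.1 ∈ L) :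
    wdY Y w ∈ NL Y L := by
  apply Subgroup.list_prod_mem
  intro x hx
  rw [List.mem_map] at hx
  obtain ⟨p, hp, rfl⟩ := hx
  exact Y_mem_NL (hw p hp) _

lemma opY_cons (Y : ℕ → K → E) (k : ℕ) (L : List ℕ) (t : ℕ → K) :
    opY Y (k :: L) t = Y k (t k) * opY Y L t := by
  simp [opY]

lemma opY_congr {Y : ℕ → K → E} {L : List ℕ} {t t' : ℕ → K} (h : ∀ r ∈ L, t r = t' r) :
    opY Y L t = opY Y L t' := by
  unfold opY
  congr 1
  exact List.map_congr_left fun r hr => by rw [h r hr]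

namespace CExt

variable {C : CExt D K E} {Y : ℕ → K → E}

lemma YD.ψ_wdY {hB : Base D K} (hY : C.YD hB Y) (w : List (ℕ × K)) (hw : ∀ p ∈ w, p.1 < D.nroots) :
    C.ψ (wdY Y w) = hB.wg w := by
  unfold wdY Base.wg
  rw [map_list_prod, List.map_map]
  congr 1
  apply List.map_congr_left
  intro p hp
  exact hY.ψY p.1 (hw p hp) p.2

lemma YD.ψ_opY {hB : Base D K} (hY : C.YD hB Y) (L : List ℕ) (hL : ∀ r ∈ L, r < D.nroots) (t : ℕ → K) :
    C.ψ (opY Y L t) = gp hB L t := by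
  unfold opY gp
  rw [map_list_prod, List.map_map]
  congr 1
  apply List.map_congr_left
  intro p hp
  exact hY.ψY p (hL p hp) _

variable (A : AllH D T W K) (hK : ∃ s : Finset K, 4 < s.card) (hY : C.YD A.hB Y)

include hK hY

lemma YD.tor_conj_NL {L : List ℕ} (hL : ∀ r ∈ L, r < D.nroots) {h : E} (hh : C.ψ h ∈ D.diagonalSubgroup K)
    {w : E} (hw : w ∈ NL Y L) : h * w * h⁻¹ ∈ NL Y L := by
  unfold NL at hw
  induction hw using Subgroup.closure_induction with
  | mem x hx =>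
    obtain ⟨s, hs, u, rfl⟩ := hx
    obtain ⟨c, -, hx⟩ := A.hB.H_conj_xg hh (hL s hs)
    rw [hY.conj_tor A hK (hL s hs) (⟨hh, hx⟩ : C.Tor A.hB h s c)]
    exact Y_mem_NL hs _
  | one => simp [one_mem]
  | mul x y _ _ hx hy =>
    have : h * (x * y) * h⁻¹ = (h * x * h⁻¹) * (h * y * h⁻¹) := by group
    rw [this]; exact mul_mem hx hy
  | inv x _ hx =>
    have : h * x⁻¹ * h⁻¹ = (h * x * h⁻¹)⁻¹ := by group
    rw [this]; exact inv_mem hx

lemma YD.conj_mem_NL (hp : prOK D = true) {ε : ℤ} {k : ℕ} {L : List ℕ} (hL : HL D ε (k :: L)) {s : ℕ}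
    (hs : s ∈ L) (t u : K) : Y k t * Y s u * (Y k t)⁻¹ ∈ NL Y L := by
  have hkL : ∀ r ∈ L, r ≠ k := fun r hr e => (List.nodup_cons.mp hL.nodup).1 (e ▸ hr)
  obtain ⟨hk, hk0⟩ := hL.pos k List.mem_cons_self
  obtain ⟨hsn, hs0⟩ := hL.pos s (List.mem_cons_of_mem _ hs)
  have hLn : ∀ r ∈ L, r < D.nroots := fun r hr => (hL.pos r (List.mem_cons_of_mem _ hr)).1
  have hks : fE D ε k ≤ fE D ε s := (List.pairwise_cons.mp hL.sorted).1 s hs
  have hneg : s ≠ D.neg k := by
    rintro rfl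
    rw [fE_neg A.h ε hk] at hs0
    omega
  obtain ⟨h, μ, h1, h2, hμ⟩ := A.exists_tor hp hK hk hsn (hkL s hs) hneg
  have hμ' : μ - 1 ≠ 0 := sub_ne_zero.mpr hμ
  have hlh : C.ψ (C.lft h) = h := C.ψ_lft (A.hB.H_le_group A.hT h1.1)
  have hT2 : C.Tor A.hB (C.lft h) s μ := by unfold Tor; rw [hlh]; exact h2
  have hmemw : ∀ p ∈ D.commWord K k s (-t) (u / (μ - 1)), p.1 ∈ L := by
    intro p hp
    unfold ChevalleyDatum.commWord at hp
    rw [List.mem_map] at hp
    obtain ⟨c, hc, rfl⟩ := hp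
    obtain ⟨hcn, i, j, hi, hj, hd⟩ := dJ_commTerms A.h ∅ hk hsn hc
    have hf : fE D ε c.1 = i * fE D ε k + j * fE D ε s := by
      unfold fE; rw [hd]; ring
    have h1 : (1 : ℤ) ≤ i := by exact_mod_cast hi
    have h2 : (1 : ℤ) ≤ j := by exact_mod_cast hj
    have h3 : fE D ε s < fE D ε c.1 := by rw [hf]; nlinarith
    have h4 := hL.up s (List.mem_cons_of_mem _ hs) c.1 hcn h3
    rcases List.mem_cons.mp h4 with h5 | h5
    · exfalso
      show False
      rw [h5] at h3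
      omega
    · exact h5
  set w : E := Y s (u / (μ - 1)) * wdY Y (D.commWord K k s (-t) (u / (μ - 1))) with hw
  have hwm : w ∈ NL Y L := mul_mem (Y_mem_NL hs _) (wdY_mem_NL hmemw)
  have e0 : Y s u = cm (C.lft h) (Y s (u / (μ - 1))) := by
    rw [hY.cmY s hsn _ _ _ _ hT2 (hY.ψY s hsn _), mul_div_cancel₀ _ hμ']
  have e1 : C.ψ (Y k t * C.lft h * (Y k t)⁻¹) = C.ψ (C.lft h) := by
    rw [map_mul, map_mul, map_inv, hlh, hY.ψY k hk]
    have := h1.2 t
    rw [one_mul, mul_inv_eq_iff_eq_mul] at this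
    rw [← this, mul_inv_cancel_right]
  have e2 : C.ψ (Y k t * Y s (u / (μ - 1)) * (Y k t)⁻¹) = C.ψ w := by
    rw [hw, map_mul, map_mul, map_mul, map_inv, hY.ψY k hk, hY.ψY s hsn,
      hY.ψ_wdY _ (fun p hp => hLn _ (hmemw p hp)), ← A.hB.comm_xg hk hsn (hkL s hs) hneg, A.hB.xg_inv, A.hB.xg_inv,
      neg_neg]
  rw [e0, conj_cm, C.cm_congr e1 e2]
  have : cm (C.lft h) w = (C.lft h * w * (C.lft h)⁻¹) * w⁻¹ := rfl
  rw [this]
  exact mul_mem (hY.tor_conj_NL A hK hLn (by rw [hlh]; exact h1.1) hwm) (inv_mem hwm)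

lemma YD.exists_opY (hp : prOK D = true) {ε : ℤ} : ∀ L : List ℕ, HL D ε L → ∀ e ∈ NL Y L,
    ∃ t : ℕ → K, e = opY Y L t := by
  intro L
  induction L with
  | nil =>
    intro _ e he
    have : NL Y ([] : List ℕ) = ⊥ := by
      unfold NL
      rw [Subgroup.closure_eq_bot_iff]
      rintro x ⟨s, hs, -⟩
      simp at hs
    rw [this, Subgroup.mem_bot] at he
    exact ⟨fun _ => 0, by rw [he]; rfl⟩
  | cons k L ih =>
    intro hL e he
    obtain ⟨hk, hk0⟩ := hL.pos k List.mem_cons_self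
    have hkL : ∀ r ∈ L, r ≠ k := fun r hr e => (List.nodup_cons.mp hL.nodup).1 (e ▸ hr)
    have step : ∀ s ∈ k :: L, ∀ (u t : K) (w : E), w ∈ NL Y L →
        ∃ (t' : K) (w' : E), w' ∈ NL Y L ∧ Y s u * (Y k t * w) = Y k t' * w' := by
      intro s hs u t w hw
      rcases List.mem_cons.mp hs with rfl | hs
      · exact ⟨u + t, w, hw, by rw [← mul_assoc, hY.add A hK hk]⟩
      · refine ⟨t, Y k (-t) * Y s u * (Y k (-t))⁻¹ * w, mul_mem (hY.conj_mem_NL A hK hp hL hs _ _) hw, ?_⟩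
        rw [← hY.inv A hK hk]
        group
    have key : ∃ (t : K) (w : E), w ∈ NL Y L ∧ e = Y k t * w := by
      unfold NL at he
      induction he using Subgroup.closure_induction_left with
      | one => exact ⟨0, 1, one_mem _, by rw [hY.zero A hK hk, one_mul]⟩
      | mul_left x hx y _ ih2 =>
        obtain ⟨s, hs, u, rfl⟩ := hx
        obtain ⟨t, w, hw, rfl⟩ := ih2
        exact step s hs u t w hw
      | inv_mul_cancel x hx y _ ih2 =>
        obtain ⟨s, hs, u, rfl⟩ := hx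
        obtain ⟨t, w, hw, rfl⟩ := ih2
        rw [hY.inv A hK (hL.pos s hs).1]
        exact step s hs (-u) t w hw
    obtain ⟨t, w, hw, rfl⟩ := key
    obtain ⟨t', rfl⟩ := ih hL.tail w hw
    refine ⟨Function.update t' k t, ?_⟩
    rw [opY_cons, Function.update_self]
    congr 1
    refine opY_congr fun r hr => ?_
    rw [Function.update_of_ne (hkL r hr)]

/-- the extension is injective on the subgroup generated by the canonical lifts of the roots of one sign -/
theorem YD.NL_inj (hp : prOK D = true) {ε : ℤ} {L : List ℕ} (hL : HL D ε L) {e e' : E} (he : e ∈ NL Y L)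
    (he' : e' ∈ NL Y L) (h : C.ψ e = C.ψ e') : e = e' := by
  obtain ⟨t, rfl⟩ := hY.exists_opY A hK hp L hL e he
  obtain ⟨t', rfl⟩ := hY.exists_opY A hK hp L hL e' he'
  have hLn : ∀ r ∈ L, r < D.nroots := fun r hr => (hL.pos r hr).1
  rw [hY.ψ_opY L hLn, hY.ψ_opY L hLn] at h
  exact opY_congr (gp_inj A.h A.hB A.hT A.hs L hL t t' h)

end CExt

end Cfsg.Agent.Lib.Helper17
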