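import Cfsg.Agent.Lib.Helper17.UcNL
import Cfsg.Agent.Lib.Helper17.StMon

set_option autoImplicit false

/-! Central extensions of the Chevalley group: the canonical lifts satisfy Steinberg's relations (R1), (R2). -/

namespace Cfsg.Agent.Lib.Helper17

open Cfsg.Lie Matrix Cfsg.Agent.Lib.Helper18 Cfsg.Agent.Lib.Helper36

variable {D : ChevalleyDatum} {T : Fast} {W : WTab} {K : Type*} [Field K] {E : Type*} [Group E]

/-- two independent roots can be made positive, together with the roots of their commutator formula -/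
def TrOK (D : ChevalleyDatum) : Prop :=
  ∀ r s, r < D.nroots → s < D.nroots → s ≠ r → s ≠ D.neg r →
    ∃ L : List ℕ, (∀ i ∈ L, i < D.rank) ∧ D.IsPosRoot (wAct D L r) ∧ D.IsPosRoot (wAct D L s) ∧
      ∀ c ∈ D.commTerms r s, D.IsPosRoot (wAct D L c.1)

namespace CExt

variable {C : CExt D K E} {Y : ℕ → K → E}

variable (A : AllH D T W K) (hK : ∃ s : Finset K, 4 < s.card) (hY : C.YD A.hB Y)

include hK hY

lemma YD.exists_mover (L : List ℕ) (hL : ∀ i ∈ L, i < D.rank) :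
    ∃ g : E, ∀ q, q < D.nroots → ∃ c : K, c ≠ 0 ∧ ∀ t, g * Y q t * g⁻¹ = Y (wAct D L q) (c * t) := by
  induction L with
  | nil => exact ⟨1, fun q _ => ⟨1, one_ne_zero, fun t => by simp⟩⟩
  | cons i L ih =>
    obtain ⟨g, hg⟩ := ih (fun j hj => hL j (List.mem_cons_of_mem _ hj))
    have hi := hL i List.mem_cons_self
    have hLn : ∀ j ∈ L, j < D.rank := fun j hj => hL j (List.mem_cons_of_mem _ hj)
    have hnN := A.hB.ng_one_mem (A.hT.simple_lt i hi)
    have hl : C.ψ (C.lft (A.hB.ng (D.simple i) 1)) = A.hB.ng (D.simple i) 1 :=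
      C.ψ_lft (A.hB.N_le_group A.hT hnN)
    refine ⟨C.lft (A.hB.ng (D.simple i) 1) * g, fun q hq => ?_⟩
    obtain ⟨c, hc, e⟩ := hg q hq
    have hq' := A.hT.wAct_lt hLn hq
    obtain ⟨η, hη, h2⟩ := A.hB.ng_conj_xg hi hq'
    have hη0 : η ≠ 0 := by rcases hη with rfl | rfl <;> simp
    refine ⟨η * c, mul_ne_zero hη0 hc, fun t => ?_⟩
    have e1 : C.lft (A.hB.ng (D.simple i) 1) * g * Y q t * (C.lft (A.hB.ng (D.simple i) 1) * g)⁻¹ =
        C.lft (A.hB.ng (D.simple i) 1) * (g * Y q t * g⁻¹) * (C.lft (A.hB.ng (D.simple i) 1))⁻¹ := by group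
    rw [e1, e, wAct_cons, mul_assoc η]
    apply hY.conj A hK hq' (A.hT.refl_lt i _ hi hq') hη0
    · rw [hl]; exact (A.hB.N_conj_H A.hT hnN).1
    · intro v; rw [hl]; exact (h2 v).1

/-- relation (R2) for the canonical lifts -/
theorem YD.comm (hp : prOK D = true) (htr : TrOK D) {r s : ℕ} (hr : r < D.nroots) (hs : s < D.nroots)
    (h1 : s ≠ r) (h2 : s ≠ D.neg r) (t u : K) :
    Y s u * Y r t = Y r t * Y s u * wdY Y (D.commWord K r s t u) := by
  obtain ⟨L, hL, hpr, hps, hpc⟩ := htr r s hr hs h1 h2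
  obtain ⟨g, hg⟩ := hY.exists_mover A hK L hL
  obtain ⟨P, hP, hmem⟩ := exists_HL D 1
  have hcn : ∀ c ∈ D.commTerms r s, c.1 < D.nroots := fun c hc => (dJ_commTerms A.h ∅ hr hs hc).1
  have hin : ∀ q, q < D.nroots → D.IsPosRoot (wAct D L q) → ∀ v, g * Y q v * g⁻¹ ∈ NL Y P := by
    intro q hq hpos v
    obtain ⟨c, -, e⟩ := hg q hq
    rw [e]
    have hq' := A.hT.wAct_lt hL hq
    exact Y_mem_NL ((hmem _).mpr ⟨hq', (fE_one_pos_iff A.hl A.hT A.hO hq').mpr hpos⟩) _
  have hw : ∀ w : List (ℕ × K), (∀ p ∈ w, p.1 < D.nroots ∧ D.IsPosRoot (wAct D L p.1)) →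
      g * wdY Y w * g⁻¹ ∈ NL Y P := by
    intro w
    induction w with
    | nil => intro _; simp [wdY, one_mem]
    | cons p w ih =>
      intro hw
      have : g * wdY Y (p :: w) * g⁻¹ = (g * Y p.1 p.2 * g⁻¹) * (g * wdY Y w * g⁻¹) := by
        simp only [wdY, List.map_cons, List.prod_cons]; group
      rw [this]
      exact mul_mem (hin _ (hw p List.mem_cons_self).1 (hw p List.mem_cons_self).2 _)
        (ih fun q hq => hw q (List.mem_cons_of_mem _ hq))
  have hcw : ∀ p ∈ D.commWord K r s t u, p.1 < D.nroots ∧ D.IsPosRoot (wAct D L p.1) := by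
    intro p hp
    unfold ChevalleyDatum.commWord at hp
    rw [List.mem_map] at hp
    obtain ⟨c, hc, rfl⟩ := hp
    exact ⟨hcn c hc, hpc c hc⟩
  have m1 : g * (Y s u * Y r t) * g⁻¹ ∈ NL Y P := by
    have : g * (Y s u * Y r t) * g⁻¹ = (g * Y s u * g⁻¹) * (g * Y r t * g⁻¹) := by group
    rw [this]
    exact mul_mem (hin s hs hps u) (hin r hr hpr t)
  have m2 : g * (Y r t * Y s u * wdY Y (D.commWord K r s t u)) * g⁻¹ ∈ NL Y P := by
    have : g * (Y r t * Y s u * wdY Y (D.commWord K r s t u)) * g⁻¹ =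
        (g * Y r t * g⁻¹) * (g * Y s u * g⁻¹) * (g * wdY Y (D.commWord K r s t u) * g⁻¹) := by group
    rw [this]
    exact mul_mem (mul_mem (hin r hr hpr t) (hin s hs hps u)) (hw _ hcw)
  have e : C.ψ (g * (Y s u * Y r t) * g⁻¹) =
      C.ψ (g * (Y r t * Y s u * wdY Y (D.commWord K r s t u)) * g⁻¹) := by
    have e0 := A.hB.comm_xg hr hs h1 h2 t u
    rw [mul_assoc, inv_mul_eq_iff_eq_mul, ← mul_assoc] at e0
    simp only [map_mul, hY.ψY r hr, hY.ψY s hs, hY.ψ_wdY _ (fun p hp => (hcw p hp).1), e0]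
  have := hY.NL_inj A hK hp hP m1 m2 e
  exact mul_left_cancel (mul_right_cancel this)

/-- the central extension, with the canonical lifts, as a group satisfying (R1), (R2) -/
def YD.toStD (hp : prOK D = true) (htr : TrOK D) : StD D K E where
  X := Y
  θ := C.ψ
  add := fun _ hr t u => hY.add A hK hr t u
  comm := fun _ _ hr hs h1 h2 t u => hY.comm A hK hp htr hr hs h1 h2 t u
  θX := fun r hr t => by rw [hY.ψY r hr t]; rfl

end CExt

end Cfsg.Agent.Lib.Helper17
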