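import Cfsg.Agent.Lib.Helper17.StTab
import Cfsg.Prelude.Def_ChevAutomorphisms

set_option autoImplicit false

/-! Table checks for the universal central extension of the tabulated Chevalley groups. -/

namespace Cfsg.Agent.Lib.Helper17

open Cfsg.Lie Matrix Cfsg.Agent.Lib.Helper18

/-- Table check: the products of the Cartan integers of a fundamental root and another root. -/
def prOK (D : ChevalleyDatum) : Bool :=
  (List.range D.rank).all fun j => (List.range D.nroots).all fun s =>
    decide (s = D.simple j) || decide (s = D.neg (D.simple j)) ||
    (decide (D.cartan j s = 0) && decide (D.pairing s (D.simple j) = 0)) ||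
    decide (D.cartan j s * D.pairing s (D.simple j) = 1) ||
    decide (D.cartan j s * D.pairing s (D.simple j) = 2) ||
    decide (D.cartan j s * D.pairing s (D.simple j) = 3)

theorem prOK_G2 : prOK chevG2 = true := by decide +kernel
theorem prOK_B2 : prOK chevB2 = true := by decide +kernel
theorem prOK_D4 : prOK chevD4 = true := by decide +kernel
theorem prOK_F4 : prOK chevF4 = true := by decide +kernel
theorem prOK_E6 : prOK chevE6 = true := by decide +kernel
theorem prOK_E7 : prOK chevE7 = true := by decide +kernel
theorem prOK_E8 : prOK chevE8 = true := by decide +kernel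

theorem prOK_of_mem {D : ChevalleyDatum}
    (hD : D ∈ [chevG2, chevB2, chevD4, chevF4, chevE6, chevE7, chevE8]) : prOK D = true := by
  simp only [List.mem_cons, List.not_mem_nil, or_false] at hD
  rcases hD with rfl | rfl | rfl | rfl | rfl | rfl | rfl
  · exact prOK_G2
  · exact prOK_B2
  · exact prOK_D4
  · exact prOK_F4
  · exact prOK_E6
  · exact prOK_E7
  · exact prOK_E8

/-- Table check: every fundamental root has Cartan integer `±1` with some root. -/
def p1OK (D : ChevalleyDatum) : Bool :=
  (List.range D.rank).all fun j => (List.range D.nroots).any fun b =>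
    decide (D.pairing b (D.simple j) = 1)

theorem p1OK_G2 : p1OK chevG2 = true := by decide +kernel
theorem p1OK_D4 : p1OK chevD4 = true := by decide +kernel
theorem p1OK_F4 : p1OK chevF4 = true := by decide +kernel
theorem p1OK_E6 : p1OK chevE6 = true := by decide +kernel
theorem p1OK_E7 : p1OK chevE7 = true := by decide +kernel
theorem p1OK_E8 : p1OK chevE8 = true := by decide +kernel

end Cfsg.Agent.Lib.Helper17
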