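import Cfsg.Agent.Lib.Helper17.StBru
import Cfsg.Agent.Lib.Helper17.UcTab
import Cfsg.Agent.Lib.Helper18.ChevCore

set_option autoImplicit false

/-! Torus elements of the Chevalley group acting on root subgroups by prescribed scalars. -/

namespace Cfsg.Agent.Lib.Helper17

open Cfsg.Lie Matrix Cfsg.Agent.Lib.Helper18 Cfsg.Agent.Lib.Helper36

variable {D : ChevalleyDatum} {T : Fast} {W : WTab} {K : Type*} [Field K]

/-- `h ∈ H` acts on `X_q` by the scalar `χ` -/
def TorG (hB : Base D K) (h : GL D.Idx K) (q : ℕ) (χ : K) : Prop :=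
  h ∈ D.diagonalSubgroup K ∧ ∀ v, h * hB.xg q v * h⁻¹ = hB.xg q (χ * v)

lemma TorG.mul {hB : Base D K} {h₁ h₂ : GL D.Idx K} {q : ℕ} {χ₁ χ₂ : K} (a : TorG hB h₁ q χ₁)
    (b : TorG hB h₂ q χ₂) : TorG hB (h₁ * h₂) q (χ₁ * χ₂) := by
  refine ⟨mul_mem a.1 b.1, fun v => ?_⟩
  rw [mul_assoc χ₁, ← a.2, ← b.2]; group

lemma TorG.ne_zero {hB : Base D K} {h : GL D.Idx K} {q : ℕ} {χ : K} (a : TorG hB h q χ) (hq : q < D.nroots) :
    χ ≠ 0 := by
  rintro rfl
  have := a.2 1
  rw [zero_mul, hB.xg_zero, mul_inv_eq_one, mul_eq_left, hB.xg_eq_one_iff hq] at this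
  exact one_ne_zero this

lemma torG_hg (hB : Base D K) {r q : ℕ} (hr : r < D.nroots) (hq : q < D.nroots) {c : K} (hc : c ≠ 0) :
    TorG hB (hB.hg r c) q (c ^ D.pairing r q) :=
  ⟨hB.hg_mem hr hc, fun v => hB.hg_conj_xg hr hq hc v⟩

lemma pairing_eq (r s : ℕ) : D.pairing r s = pairing D r s := rfl

lemma AllH.pairing_self (A : AllH D T W K) : ∀ q, q < D.nroots → D.pairing q q = 2 := by
  apply A.hT.transport
  · intro j hj
    rw [pairing_eq, A.h.pairing_simple j hj _ (A.hT.simple_lt j hj), A.h.cartan_self j hj]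
  · intro i r hi hr ih
    rw [pairing_eq, A.h.pairing_reflect i hi r r hr hr]
    exact ih

/-- the possible values of the Cartan integers of two independent roots -/
def PrC (a b : ℤ) : Prop := (a = 0 ∧ b = 0) ∨ a * b = 1 ∨ a * b = 2 ∨ a * b = 3

lemma AllH.pairing_prod (A : AllH D T W K) (hp : prOK D = true) : ∀ r, r < D.nroots → ∀ s, s < D.nroots →
    s ≠ r → s ≠ D.neg r → PrC (D.pairing r s) (D.pairing s r) := by
  apply A.hT.transport
  · intro j hj s hs h1 h2
    unfold prOK at hp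
    rw [List.all_eq_true] at hp
    have h3 := hp j (List.mem_range.mpr hj)
    rw [List.all_eq_true] at h3
    have h4 := h3 s (List.mem_range.mpr hs)
    simp only [Bool.or_eq_true, Bool.and_eq_true, decide_eq_true_eq] at h4
    rw [pairing_eq (D.simple j) s, A.h.pairing_simple j hj s hs]
    unfold PrC
    tauto
  · intro i r hi hr ih s hs h1 h2
    have hs' := A.hT.refl_lt i s hi hs
    have e : s = D.reflectRoot i (D.reflectRoot i s) := (A.hT.refl_refl i s hi hs).symm
    have := ih (D.reflectRoot i s) hs' (by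
      intro h; apply h1; rw [e, h]) (by
      intro h; apply h2; rw [e, h, A.hT.refl_neg' hi hr])
    rw [e, pairing_eq, pairing_eq, A.h.pairing_reflect i hi _ _ hr hs', A.h.pairing_reflect i hi _ _ hs' hr]
    exact this

/-- in a field with more than four elements there is `v ≠ 0` with `v ^ d ≠ 1`, `d = 1, 2, 3` -/
lemma exists_pow_ne_one (hK : ∃ s : Finset K, 4 < s.card) {d : ℕ} (h1 : 1 ≤ d) (h3 : d ≤ 3) :
    ∃ v : K, v ≠ 0 ∧ v ^ d ≠ 1 := by
  classical
  obtain ⟨s, hs⟩ := hK
  have hcard : (insert (0 : K) (Polynomial.nthRoots d (1 : K)).toFinset).card ≤ 4 := by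
    refine (Finset.card_insert_le _ _).trans ?_
    have := (Multiset.toFinset_card_le (Polynomial.nthRoots d (1 : K))).trans (Polynomial.card_nthRoots d 1)
    omega
  obtain ⟨v, hv, hv'⟩ := Finset.exists_mem_notMem_of_card_lt_card (lt_of_le_of_lt hcard hs)
  rw [Finset.mem_insert, not_or, Multiset.mem_toFinset, Polynomial.mem_nthRoots (by omega)] at hv'
  exact ⟨v, hv'.1, hv'.2⟩

/-- in a field with more than four elements there is `b ≠ 0, -1` with `b² + b + 1 ≠ 0` -/
lemma exists_good_b (hK : ∃ s : Finset K, 4 < s.card) :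
    ∃ b : K, b ≠ 0 ∧ b + 1 ≠ 0 ∧ b ^ 2 + b + 1 ≠ 0 := by
  classical
  obtain ⟨s, hs⟩ := hK
  let p : Polynomial K := Polynomial.X ^ 2 + Polynomial.X + 1
  have hp0 : p ≠ 0 := by
    intro h
    have := congrArg (fun q => Polynomial.coeff q 2) h
    simp [p, Polynomial.coeff_X, Polynomial.coeff_one] at this
  have hdeg : p.natDegree ≤ 2 := by
    simp only [p]
    compute_degree
  have hcard : (insert (0 : K) (insert (-1 : K) p.roots.toFinset)).card ≤ 4 := by
    refine (Finset.card_insert_le _ _).trans ?_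
    have h1 := Finset.card_insert_le (-1 : K) p.roots.toFinset
    have h2 := (Multiset.toFinset_card_le p.roots).trans (Polynomial.card_roots' p)
    omega
  obtain ⟨b, hb, hb'⟩ := Finset.exists_mem_notMem_of_card_lt_card (lt_of_le_of_lt hcard hs)
  rw [Finset.mem_insert, not_or, Finset.mem_insert, not_or, Multiset.mem_toFinset,
    Polynomial.mem_roots hp0] at hb'
  refine ⟨b, hb'.1, fun h => hb'.2.1 (by linear_combination h), fun h => hb'.2.2 ?_⟩
  simp [p, Polynomial.IsRoot, h]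

/-- a torus element centralising `X_r` and acting non-trivially on `X_s` -/
theorem AllH.exists_tor (A : AllH D T W K) (hp : prOK D = true) (hK : ∃ s : Finset K, 4 < s.card) {r s : ℕ}
    (hr : r < D.nroots) (hs : s < D.nroots) (h1 : s ≠ r) (h2 : s ≠ D.neg r) :
    ∃ (h : GL D.Idx K) (μ : K), TorG A.hB h r 1 ∧ TorG A.hB h s μ ∧ μ ≠ 1 := by
  have hss := A.pairing_self s hs
  have hrr := A.pairing_self r hr
  rcases A.pairing_prod hp r hr s hs h1 h2 with ⟨-, h0⟩ | hN
  · obtain ⟨v, hv0, hv⟩ := exists_pow_ne_one hK (d := 2) (by norm_num) (by norm_num)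
    refine ⟨A.hB.hg s v, v ^ 2, ?_, ?_, hv⟩
    · have := torG_hg A.hB hs hr hv0
      rwa [h0, zpow_zero] at this
    · have := torG_hg A.hB hs hs hv0
      rw [hss] at this
      exact_mod_cast this
  · obtain ⟨d, hd1, hd3, hd⟩ : ∃ d : ℕ, 1 ≤ d ∧ d ≤ 3 ∧ (d : ℤ) = 4 - D.pairing r s * D.pairing s r := by
      rcases hN with e | e | e
      · exact ⟨3, by norm_num, le_rfl, by rw [e]; norm_num⟩
      · exact ⟨2, by norm_num, by norm_num, by rw [e]; norm_num⟩
      · exact ⟨1, le_rfl, by norm_num, by rw [e]; norm_num⟩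
    obtain ⟨v, hv0, hv⟩ := exists_pow_ne_one hK hd1 hd3
    have hv2 : v ^ (2 : ℤ) ≠ 0 := zpow_ne_zero _ hv0
    have hvp : v ^ (-D.pairing s r) ≠ 0 := zpow_ne_zero _ hv0
    refine ⟨A.hB.hg s (v ^ (2 : ℤ)) * A.hB.hg r (v ^ (-D.pairing s r)), v ^ d, ?_, ?_, hv⟩
    · have := (torG_hg A.hB hs hr hv2).mul (torG_hg A.hB hr hr hvp)
      rw [hrr, ← _root_.zpow_mul, ← _root_.zpow_mul, ← zpow_add₀ hv0] at this
      have e : 2 * D.pairing s r + -D.pairing s r * 2 = 0 := by ring
      rwa [e, zpow_zero] at this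
    · have := (torG_hg A.hB hs hs hv2).mul (torG_hg A.hB hr hs hvp)
      rw [hss, ← _root_.zpow_mul, ← _root_.zpow_mul, ← zpow_add₀ hv0] at this
      have e : (2 : ℤ) * 2 + -D.pairing s r * D.pairing r s = d := by rw [hd]; ring
      rw [e, zpow_natCast] at this
      exact this

/-- roots having Cartan integer `1` with some root: the torus acts on `X_q` by all scalars -/
lemma AllH.exists_pairing_one (A : AllH D T W K) (hp : p1OK D = true) : ∀ q, q < D.nroots →
    ∃ b, b < D.nroots ∧ D.pairing b q = 1 := by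
  apply A.hT.transport
  · intro j hj
    unfold p1OK at hp
    rw [List.all_eq_true] at hp
    have h3 := hp j (List.mem_range.mpr hj)
    rw [List.any_eq_true] at h3
    obtain ⟨b, hb, h4⟩ := h3
    exact ⟨b, List.mem_range.mp hb, by simpa using h4⟩
  · rintro i r hi hr ⟨b, hb, e⟩
    refine ⟨D.reflectRoot i b, A.hT.refl_lt i b hi hb, ?_⟩
    rw [pairing_eq, A.h.pairing_reflect i hi b r hb hr]
    exact e

end Cfsg.Agent.Lib.Helper17
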