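import Cfsg.Agent.Lib.Helper17.UgTrick
import Cfsg.Agent.Lib.Helper17.UcMain

set_option autoImplicit false

/-! Central extensions of the Chevalley group of type `B₂`: the lifts of the elements of a long root subgroup
commute. -/

namespace Cfsg.Agent.Lib.Helper17

open Cfsg.Lie Matrix Cfsg.Agent.Lib.Helper18 Cfsg.Agent.Lib.Helper36

variable {D : ChevalleyDatum} {T : Fast} {W : WTab} {K : Type*} [Field K] {E : Type*} [Group E]

/-- `[x_c(a), x_d(b)] = x_e(± a b) x_q(± a b²)`, and `X_q` commutes with `X_c` and `X_d` -/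
def trick2B (D : ChevalleyDatum) (q c d e : ℕ) (k1 k2 : ℤ) : Bool :=
  decide (c < D.nroots) && decide (d < D.nroots) && decide (c ≠ q) && decide (c ≠ D.neg q) && decide (d ≠ q) &&
    decide (d ≠ D.neg q) && decide (d ≠ c) && decide (d ≠ D.neg c) && decide (D.commTerms q c = []) &&
      decide (D.commTerms q d = []) && decide (D.commTerms c d = [(e, k1, 1, 1), (q, k2, 1, 2)])

lemma CExt.ab_of_trick2 (C : CExt D K E) (hB : Base D K) {q c d e : ℕ} {k1 k2 : ℤ} (hq : q < D.nroots)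
    (h : trick2B D q c d e k1 k2 = true) (hk : (k2 : K) ≠ 0) (hK : ∃ v : K, v ≠ 0 ∧ v ≠ 1) : C.Ab hB q := by
  unfold trick2B at h
  simp only [Bool.and_eq_true, decide_eq_true_eq] at h
  obtain ⟨⟨⟨⟨⟨⟨⟨⟨⟨⟨hc, hd⟩, c1⟩, c2⟩, d1⟩, d2⟩, d3⟩, d4⟩, t1⟩, t2⟩, t3⟩ := h
  intro e₁ e₂ t u h1 h2
  have g1 : ∀ a, hB.xg q t * hB.xg c a * (hB.xg q t)⁻¹ = hB.xg c a := by
    intro a
    have := hB.comm_xg hq hc c1 c2 (-t) a
    unfold ChevalleyDatum.commWord at this
    rw [t1] at this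
    simp only [List.map_nil, Base.wg, List.prod_nil, mul_one] at this
    rw [hB.xg_inv, neg_neg] at this
    rw [hB.xg_inv]; exact this
  have g2 : ∀ a, hB.xg q t * hB.xg d a * (hB.xg q t)⁻¹ = hB.xg d a := by
    intro a
    have := hB.comm_xg hq hd d1 d2 (-t) a
    unfold ChevalleyDatum.commWord at this
    rw [t2] at this
    simp only [List.map_nil, Base.wg, List.prod_nil, mul_one] at this
    rw [hB.xg_inv, neg_neg] at this
    rw [hB.xg_inv]; exact this
  have g3 : ∀ a b, cm (hB.xg d (-b)) (hB.xg c a) = hB.xg e (k1 * a * b) * hB.xg q (k2 * a * b ^ 2) := by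
    intro a b
    have := hB.comm_xg hc hd d3 d4 (-a) b
    unfold ChevalleyDatum.commWord at this
    rw [t3] at this
    simp only [List.map_cons, List.map_nil, Base.wg, List.prod_cons, List.prod_nil, mul_one, neg_neg,
      pow_one] at this
    rw [hB.xg_inv, neg_neg] at this
    unfold cm
    rw [hB.xg_inv, hB.xg_inv, neg_neg, mul_assoc, mul_assoc, ← mul_assoc (hB.xg c a), this, ← mul_assoc,
      hB.xg_add, neg_add_cancel, hB.xg_zero, one_mul]
  have ld : ∀ b, C.ψ (C.lft (hB.xg d b)) = hB.xg d b := fun b => C.ψ_lft (hB.xg_mem_group hd b)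
  have lc : ∀ a, C.ψ (C.lft (hB.xg c a)) = hB.xg c a := fun a => C.ψ_lft (hB.xg_mem_group hc a)
  set w : K → K → E := fun a b => cm (C.lft (hB.xg d (-b))) (C.lft (hB.xg c a)) with hw
  have hψw : ∀ a b, C.ψ (w a b) = hB.xg e (k1 * a * b) * hB.xg q (k2 * a * b ^ 2) := by
    intro a b
    rw [hw]
    simp only
    rw [C.ψ_cm, ld, lc, g3]
  have hcw : ∀ a b, e₁ * w a b = w a b * e₁ := by
    intro a b
    have : e₁ * w a b * e₁⁻¹ = w a b := by
      rw [hw]
      simp only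
      rw [conj_cm]
      apply C.cm_congr
      · rw [map_mul, map_mul, map_inv, ld, h1, g2]
      · rw [map_mul, map_mul, map_inv, lc, h1, g1]
    exact mul_inv_eq_iff_eq_mul.mp this
  obtain ⟨v, hv0, hv1⟩ := hK
  have hv1' : (1 : K) - v ≠ 0 := sub_ne_zero.mpr (Ne.symm hv1)
  set m : K := u / (k2 * (1 - v)) with hm
  have hψ : C.ψ ((w (m / v) v)⁻¹ * w m 1) = C.ψ e₂ := by
    rw [map_mul, map_inv, hψw, hψw, h2]
    have e1 : (k1 : K) * (m / v) * v = k1 * m * 1 := by field_simp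
    rw [e1, _root_.mul_inv_rev, mul_assoc, inv_mul_cancel_left, hB.xg_inv, hB.xg_add]
    congr 1
    rw [hm]
    field_simp
    ring
  obtain ⟨z, hz, rfl⟩ := C.eq_mul_central hψ
  have hz' := Subgroup.mem_center_iff.mp hz
  have hc2 : e₁ * (w (m / v) v)⁻¹ = (w (m / v) v)⁻¹ * e₁ := by
    have := hcw (m / v) v
    calc e₁ * (w (m / v) v)⁻¹ = (w (m / v) v)⁻¹ * (w (m / v) v * e₁) * (w (m / v) v)⁻¹ := by group
      _ = (w (m / v) v)⁻¹ * (e₁ * w (m / v) v) * (w (m / v) v)⁻¹ := by rw [this]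
      _ = _ := by group
  calc e₁ * ((w (m / v) v)⁻¹ * w m 1 * z) = (e₁ * (w (m / v) v)⁻¹) * w m 1 * z := by group
    _ = (w (m / v) v)⁻¹ * (e₁ * w m 1) * z := by rw [hc2]; group
    _ = (w (m / v) v)⁻¹ * w m 1 * (e₁ * z) := by rw [hcw]; group
    _ = (w (m / v) v)⁻¹ * w m 1 * z * e₁ := by rw [hz' e₁]; group

/-- each root has Cartan integer `1` with some root, or a decomposition -/
def ab2B (D : ChevalleyDatum) (Wt : List (ℕ × ℕ × ℕ × ℕ)) : Bool :=
  (List.range D.nroots).all fun q =>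
    ((List.range D.nroots).any fun β => decide (D.pairing β q = 1)) ||
    Wt.any fun w => decide (w.1 = q) &&
      (trick2B D q w.2.1 w.2.2.1 w.2.2.2 1 1 || trick2B D q w.2.1 w.2.2.1 w.2.2.2 1 (-1) ||
        trick2B D q w.2.1 w.2.2.1 w.2.2.2 (-1) 1 || trick2B D q w.2.1 w.2.2.1 w.2.2.2 (-1) (-1))

theorem ab2B_B2 : ab2B chevB2 [(7, 4, 5, 6), (0, 3, 2, 1), (3, 0, 5, 1), (4, 0, 6, 2)] = true := by decide +kernel

lemma CExt.ab_of_ab2B (C : CExt D K E) (A : AllH D T W K) (hK : ∃ s : Finset K, 4 < s.card)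
    {Wt : List (ℕ × ℕ × ℕ × ℕ)} (h : ab2B D Wt = true) : ∀ q, q < D.nroots → C.Ab A.hB q := by
  intro q hq
  unfold ab2B at h
  rw [List.all_eq_true] at h
  have h1 := h q (List.mem_range.mpr hq)
  simp only [Bool.or_eq_true, List.any_eq_true, decide_eq_true_eq, List.mem_range, Bool.and_eq_true] at h1
  rcases h1 with ⟨β, hβ, e⟩ | ⟨w, -, -, e⟩
  · apply C.ab_of_family A hK hq
    intro b hb
    refine ⟨A.hB.hg β b, ?_⟩
    have := torG_hg A.hB hβ hq hb
    rwa [e, zpow_one] at this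
  · obtain ⟨v, hv0, hv⟩ := exists_pow_ne_one hK (d := 1) le_rfl (by norm_num)
    have hK' : ∃ v : K, v ≠ 0 ∧ v ≠ 1 := ⟨v, hv0, by simpa using hv⟩
    rcases e with ((e | e) | e) | e
    · exact C.ab_of_trick2 A.hB hq e (by simp) hK'
    · exact C.ab_of_trick2 A.hB hq e (by simp) hK'
    · exact C.ab_of_trick2 A.hB hq e (by simp) hK'
    · exact C.ab_of_trick2 A.hB hq e (by simp) hK'

end Cfsg.Agent.Lib.Helper17
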