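import Cfsg.Agent.Lib.Helper17.UcRel

set_option autoImplicit false

/-! The roots of the commutator formula of two roots made positive by a Weyl word are made positive as well. -/

namespace Cfsg.Agent.Lib.Helper17

open Cfsg.Lie Matrix Cfsg.Agent.Lib.Helper18 Cfsg.Agent.Lib.Helper36

variable {D : ChevalleyDatum} {T : Fast} {W : WTab}

/-- `c = i r + j s`, in terms of Cartan integers -/
def Lin (D : ChevalleyDatum) (c r s : ℕ) (i j : ℤ) : Prop :=
  ∀ k, k < D.rank → D.cartan k c = i * D.cartan k r + j * D.cartan k s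

lemma lin_chainRoot (h : Checks D T W) {a b i u : ℕ} (ha : a < D.nroots)
    (hb : b < D.nroots) (hi : 1 ≤ i) (hu : D.chainRoot a b i = some u) :
    u < D.nroots ∧ ∀ k, k < D.rank → D.cartan k u = i * D.cartan k a + D.cartan k b := by
  unfold ChevalleyDatum.chainRoot at hu
  rw [chainEntry_eq_ent h.agree a b (h.agree.hn ▸ ha) (h.agree.hn ▸ hb),
    Option.map_eq_some_iff] at hu
  obtain ⟨q, hq, rfl⟩ := hu
  refine ⟨h.agree.hn ▸ h.agree.ch_lt a (h.agree.hn ▸ ha) b (h.agree.hn ▸ hb) q (List.mem_of_getElem? hq), ?_⟩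
  intro k hk
  have := (h.cartan_chain k hk a b ha hb _ q hq).2
  rwa [Nat.sub_add_cancel hi] at this

lemma lin_commTerms (h : Checks D T W) {r s : ℕ} (hr : r < D.nroots)
    (hs : s < D.nroots) {c : ℕ × ℤ × ℕ × ℕ} (hc : c ∈ D.commTerms r s) :
    c.1 < D.nroots ∧ ∃ i j : ℤ, 1 ≤ i ∧ 1 ≤ j ∧ Lin D c.1 r s i j := by
  simp only [ChevalleyDatum.commTerms, List.mem_filterMap, List.mem_cons, List.not_mem_nil, or_false,
    Option.map_eq_some_iff] at hc
  obtain ⟨cand, hcand, k, hk, rfl⟩ := hc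
  rcases hcand with rfl | rfl | rfl | rfl | rfl | rfl | rfl
  · have := lin_chainRoot h hr hs (by norm_num) hk
    exact ⟨this.1, 1, 1, le_rfl, le_rfl, fun m hm => by rw [this.2 m hm]; push_cast; ring⟩
  · have := lin_chainRoot h hr hs (by norm_num) hk
    exact ⟨this.1, 2, 1, by norm_num, le_rfl, fun m hm => by rw [this.2 m hm]; push_cast; ring⟩
  · have := lin_chainRoot h hs hr (by norm_num) hk
    exact ⟨this.1, 1, 2, le_rfl, by norm_num, fun m hm => by rw [this.2 m hm]; push_cast; ring⟩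
  · have := lin_chainRoot h hr hs (by norm_num) hk
    exact ⟨this.1, 3, 1, by norm_num, le_rfl, fun m hm => by rw [this.2 m hm]; push_cast; ring⟩
  · have := lin_chainRoot h hs hr (by norm_num) hk
    exact ⟨this.1, 1, 3, le_rfl, by norm_num, fun m hm => by rw [this.2 m hm]; push_cast; ring⟩
  · simp only [Option.bind_eq_some_iff] at hk
    obtain ⟨m, hm, hk⟩ := hk
    have h1 := lin_chainRoot h hr hs (by norm_num) hm
    have := lin_chainRoot h h1.1 hs (by norm_num) hk
    exact ⟨this.1, 3, 2, by norm_num, by norm_num, fun m hm => by rw [this.2 m hm, h1.2 m hm]; push_cast; ring⟩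
  · simp only [Option.bind_eq_some_iff] at hk
    obtain ⟨m, hm, hk⟩ := hk
    have h1 := lin_chainRoot h hs hr (by norm_num) hm
    have := lin_chainRoot h h1.1 hr (by norm_num) hk
    exact ⟨this.1, 2, 3, by norm_num, by norm_num, fun m hm => by rw [this.2 m hm, h1.2 m hm]; push_cast; ring⟩

lemma Lin.wAct (h : Checks D T W) (hT : Tab D) {c r s : ℕ} {i j : ℤ} (hc : c < D.nroots) (hr : r < D.nroots)
    (hs : s < D.nroots) (hl : Lin D c r s i j) (L : List ℕ) (hL : ∀ m ∈ L, m < D.rank) :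
    Lin D (wAct D L c) (wAct D L r) (wAct D L s) i j := by
  induction L with
  | nil => exact hl
  | cons m L ih =>
    have hLn : ∀ a ∈ L, a < D.rank := fun a ha => hL a (List.mem_cons_of_mem _ ha)
    have hm := hL m List.mem_cons_self
    have ih' := ih hLn
    intro k hk
    rw [wAct_cons, wAct_cons, wAct_cons, h.cartan_reflect m hm _ (hT.wAct_lt hLn hc) k hk,
      h.cartan_reflect m hm _ (hT.wAct_lt hLn hr) k hk, h.cartan_reflect m hm _ (hT.wAct_lt hLn hs) k hk,
      ih' k hk, ih' m hm]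
    ring

lemma Lin.dJ {c r s : ℕ} {i j : ℤ} (hl : Lin D c r s i j) (J : Set ℕ) :
    dJ D J c = i * dJ D J r + j * dJ D J s := by
  unfold Helper17.dJ
  rw [Finset.mul_sum, Finset.mul_sum, ← Finset.sum_add_distrib]
  refine Finset.sum_congr rfl fun k _ => ?_
  unfold rcf
  rw [← List.sum_map_mul_left, ← List.sum_map_mul_left, ← List.sum_map_add]
  congr 1
  apply List.map_congr_left
  intro m hm
  rw [hl m (List.mem_range.mp hm)]
  ring

/-- two independent roots can be made positive -/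
def PairPos (D : ChevalleyDatum) : Prop :=
  ∀ r s, r < D.nroots → s < D.nroots → s ≠ r → s ≠ D.neg r →
    ∃ L : List ℕ, (∀ i ∈ L, i < D.rank) ∧ D.IsPosRoot (wAct D L r) ∧ D.IsPosRoot (wAct D L s)

theorem trOK_of_pairPos (h : Checks D T W) (hT : Tab D) (hl : lvOK D = true) (hO : ordOK D = true)
    (hP : PairPos D) : TrOK D := by
  intro r s hr hs h1 h2
  obtain ⟨L, hL, hpr, hps⟩ := hP r s hr hs h1 h2
  refine ⟨L, hL, hpr, hps, fun c hc => ?_⟩
  obtain ⟨hcn, i, j, hi, hj, hlin⟩ := lin_commTerms h hr hs hc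
  have e := (hlin.wAct h hT hcn hr hs L hL).dJ ∅
  have p1 := (fE_one_pos_iff hl hT hO (hT.wAct_lt hL hr)).mpr hpr
  have p2 := (fE_one_pos_iff hl hT hO (hT.wAct_lt hL hs)).mpr hps
  rw [← fE_one_pos_iff hl hT hO (hT.wAct_lt hL hcn)]
  unfold fE at p1 p2 ⊢
  rw [one_mul] at p1 p2 ⊢
  rw [e]
  nlinarith

end Cfsg.Agent.Lib.Helper17
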