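import Cfsg.Agent.Lib.Helper17.UgF4

set_option autoImplicit false

/-! Central extensions of the Chevalley group of type `F₄` over a field with more than two elements. -/

namespace Cfsg.Agent.Lib.Helper17

open Cfsg.Lie Matrix Cfsg.Agent.Lib.Helper18 Cfsg.Agent.Lib.Helper36

variable {D : ChevalleyDatum} {T : Fast} {W : WTab} {K : Type*} [Field K] {E : Type*} [Group E]

theorem CExt.exists_std' (C : CExt D K E) (A : AllH D T W K) (H : C.TorH A.hB) (htr : TrOK D) :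
    ∃ S : StD D K E, S.θ = C.ψ := by
  obtain ⟨Y, hY⟩ := C.exists_YG A H
  exact ⟨hY.toStD A H htr, rfl⟩

lemma AllH.tor_self_of_p1 (A : AllH D T W K) (h1 : p1OK D = true) (hK : ∃ v : K, v ≠ 0 ∧ v ≠ 1) :
    ∀ q, q < D.nroots → ∃ (h : GL D.Idx K) (χ : K), TorG A.hB h q χ ∧ χ ≠ 1 := by
  intro q hq
  obtain ⟨v, hv0, hv1⟩ := hK
  obtain ⟨β, hβ, e⟩ := A.exists_pairing_one h1 q hq
  refine ⟨A.hB.hg β v, v, ?_, hv1⟩
  have := torG_hg A.hB hβ hq hv0
  rwa [e, zpow_one] at this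

theorem CExt.torH_F4 (C : CExt chevF4 K E) (A : AllH chevF4 T W K) (hK : ∃ v : K, v ≠ 0 ∧ v ≠ 1) :
    C.TorH A.hB where
  self := A.tor_self_of_p1 p1OK_F4 hK
  ab := C.ab_of_check A.hB abB_F4
  pair := by
    intro r s hr hs h1 h2
    by_cases h : ∃ v : K, v ≠ 0 ∧ v ^ 2 ≠ 1
    · obtain ⟨v, hv0, hv2⟩ := h
      exact Or.inl (exists_tor_of_t2B4 A.hB t2B4_F4 hv0 hv2 hr hs h1 h2)
    · push Not at h
      obtain ⟨v, hv0, hv1⟩ := hK
      have hv2 := h v hv0
      have h2K : (2 : K) ≠ 0 := by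
        intro e2
        apply hv1
        have e3 : (v - 1) ^ 2 = 0 := by linear_combination hv2 - v * e2 + e2
        have := pow_eq_zero_iff (two_ne_zero) |>.mp e3
        linear_combination this
      exact C.pair_of_t2B3 A.hB t2B3_F4 h2K hr hs h1 h2

end Cfsg.Agent.Lib.Helper17
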