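import Cfsg.Agent.Lib.Helper17.UgLin
import Cfsg.Agent.Lib.Helper17.UgF4
import Cfsg.Agent.Lib.Helper36.ChevPairs

set_option autoImplicit false
set_option maxRecDepth 100000

/-! Two independent roots can be made positive: all types. -/

namespace Cfsg.Agent.Lib.Helper17

open Cfsg.Lie Matrix Cfsg.Agent.Lib.Helper18 Cfsg.Agent.Lib.Helper36

variable {D : ChevalleyDatum} {T : Fast} {W : WTab}

/-- words taking the fundamental roots to the highest root -/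
def hiB (D : ChevalleyDatum) (Wt : List (List ℕ)) : Bool :=
  (List.range D.rank).all fun j => (Wt.getD j []).all (fun i => decide (i < D.rank)) &&
    decide (wAct D (Wt.getD j []) (D.simple j) = D.nroots - 1)

theorem conjHi (hT : Tab D) {Wt : List (List ℕ)} (h : hiB D Wt = true) :
    ∀ r, r < D.nroots → ∃ L : List ℕ, (∀ i ∈ L, i < D.rank) ∧ wAct D L r = D.nroots - 1 := by
  apply hT.transport
  · intro j hj
    unfold hiB at h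
    rw [List.all_eq_true] at h
    have h1 := h j (List.mem_range.mpr hj)
    simp only [Bool.and_eq_true, List.all_eq_true, decide_eq_true_eq] at h1
    exact ⟨_, h1.1, h1.2⟩
  · rintro i r hi hr ⟨L, hL, e⟩
    refine ⟨L ++ [i], ?_, ?_⟩
    · intro k hk
      rcases List.mem_append.mp hk with hk | hk
      · exact hL k hk
      · rw [List.mem_singleton] at hk; rw [hk]; exact hi
    · rw [wAct_append, wAct_cons, wAct_nil, hT.refl_refl i r hi hr, e]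

theorem pairPos_of_pairOK (hT : Tab D)
    (hc : ∀ r, r < D.nroots → ∃ L : List ℕ, (∀ i ∈ L, i < D.rank) ∧ wAct D L r = D.nroots - 1)
    (hP : PairOK D) : PairPos D := by
  intro r s hr hs h1 h2
  obtain ⟨L₁, hL₁, e₁⟩ := hc r hr
  have hs₁ := hT.wAct_lt hL₁ hs
  have hne : wAct D L₁ s ≠ 0 := by
    intro e0
    apply h2
    have e2 : wAct D L₁ (D.neg r) = 0 := by
      rw [hT.wAct_neg hL₁ hr, e₁, hT.neg_eq _ (by omega)]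
      omega
    have e3 := hT.wAct_reverse hL₁ hs
    have e4 := hT.wAct_reverse hL₁ (hT.neg_lt hr)
    rw [← e3, ← e4, e0, e2]
  obtain ⟨L₂, hL₂, p1, p2⟩ := hP _ hs₁ hne
  refine ⟨L₂ ++ L₁, ?_, ?_, ?_⟩
  · intro k hk
    rcases List.mem_append.mp hk with hk | hk
    · exact hL₂ k hk
    · exact hL₁ k hk
  · rw [wAct_append, e₁]; exact p1
  · rw [wAct_append]; exact p2

theorem trOK_B2 : TrOK chevB2 :=
  trOK_of_check (tab_of_mem (by simp))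
    (WL := [[], [0, 1, 0], [0, 1], [0], [1, 0, 1], [1], [1, 0], [1, 0, 1, 0]]) (by decide +kernel)

theorem hiB_D4 : hiB chevD4 [[1, 3, 2, 1], [1, 3, 2, 0], [1, 3, 0, 1], [1, 2, 0, 1]] = true := by decide +kernel

theorem hiB_E6 : hiB chevE6 [[1, 3, 4, 5, 2, 3, 4, 1, 3, 2], [1, 3, 4, 5, 2, 3, 4, 0, 2, 3],
    [1, 3, 4, 5, 2, 3, 4, 1, 3, 0], [1, 3, 4, 5, 2, 3, 4, 0, 2, 1], [1, 3, 4, 5, 2, 3, 0, 2, 1, 3],
    [1, 3, 4, 2, 3, 0, 2, 1, 3, 4]] = true := by decide +kernel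

theorem hiB_E7 : hiB chevE7 [[0, 2, 3, 4, 5, 6, 1, 3, 4, 5, 2, 3, 4, 1, 3, 2],
    [0, 2, 3, 4, 5, 6, 1, 3, 4, 5, 2, 3, 4, 0, 2, 3], [0, 2, 3, 4, 5, 6, 1, 3, 4, 5, 2, 3, 4, 1, 3, 0],
    [0, 2, 3, 4, 5, 6, 1, 3, 4, 5, 2, 3, 4, 0, 2, 1], [0, 2, 3, 4, 5, 6, 1, 3, 4, 5, 2, 3, 0, 2, 1, 3],
    [0, 2, 3, 4, 5, 6, 1, 3, 4, 2, 3, 0, 2, 1, 3, 4], [0, 2, 3, 4, 5, 1, 3, 4, 2, 3, 0, 2, 1, 3, 4, 5]] = true := by
  decide +kernel

theorem hiB_E8 : hiB chevE8 [[7, 6, 5, 4, 3, 2, 1, 3, 4, 5, 6, 7, 0, 2, 3, 4, 5, 6, 1, 3, 4, 5, 2, 3, 4, 1, 3, 2],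
    [7, 6, 5, 4, 3, 2, 1, 3, 4, 5, 6, 7, 0, 2, 3, 4, 5, 6, 1, 3, 4, 5, 2, 3, 4, 0, 2, 3],
    [7, 6, 5, 4, 3, 2, 1, 3, 4, 5, 6, 7, 0, 2, 3, 4, 5, 6, 1, 3, 4, 5, 2, 3, 4, 1, 3, 0],
    [7, 6, 5, 4, 3, 2, 1, 3, 4, 5, 6, 7, 0, 2, 3, 4, 5, 6, 1, 3, 4, 5, 2, 3, 4, 0, 2, 1],
    [7, 6, 5, 4, 3, 2, 1, 3, 4, 5, 6, 7, 0, 2, 3, 4, 5, 6, 1, 3, 4, 5, 2, 3, 0, 2, 1, 3],
    [7, 6, 5, 4, 3, 2, 1, 3, 4, 5, 6, 7, 0, 2, 3, 4, 5, 6, 1, 3, 4, 2, 3, 0, 2, 1, 3, 4],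
    [7, 6, 5, 4, 3, 2, 1, 3, 4, 5, 6, 7, 0, 2, 3, 4, 5, 1, 3, 4, 2, 3, 0, 2, 1, 3, 4, 5],
    [7, 6, 5, 4, 3, 2, 1, 3, 4, 5, 6, 0, 2, 3, 4, 5, 1, 3, 4, 2, 3, 0, 2, 1, 3, 4, 5, 6]] = true := by
  decide +kernel

theorem trOK_of_mem (hD : D ∈ [chevG2, chevB2, chevD4, chevF4, chevE6, chevE7, chevE8]) : TrOK D := by
  obtain ⟨T, W, h⟩ := exists_checks D hD
  have hT := tab_of_mem hD
  have hl := lvOK_of_mem hD
  have hO := ordOK_of_mem hD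
  simp only [List.mem_cons, List.not_mem_nil, or_false] at hD
  rcases hD with rfl | rfl | rfl | rfl | rfl | rfl | rfl
  · exact trOK_G2
  · exact trOK_B2
  · exact trOK_of_pairPos h hT hl hO (pairPos_of_pairOK hT (conjHi hT hiB_D4) pairOKD4)
  · exact trOK_F4
  · exact trOK_of_pairPos h hT hl hO (pairPos_of_pairOK hT (conjHi hT hiB_E6) pairOKE6)
  · exact trOK_of_pairPos h hT hl hO (pairPos_of_pairOK hT (conjHi hT hiB_E7) pairOKE7)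
  · exact trOK_of_pairPos h hT hl hO (pairPos_of_pairOK hT (conjHi hT hiB_E8) pairOKE8)

end Cfsg.Agent.Lib.Helper17
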