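import Cfsg.Agent.Lib.Helper17.UgRel

set_option autoImplicit false

/-! Central extensions of the Chevalley group: commuting lifts from a decomposition `s = c + d`; torus hypotheses
from table checks. -/

namespace Cfsg.Agent.Lib.Helper17

open Cfsg.Lie Matrix Cfsg.Agent.Lib.Helper18 Cfsg.Agent.Lib.Helper36

variable {D : ChevalleyDatum} {T : Fast} {W : WTab} {K : Type*} [Field K] {E : Type*} [Group E]

/-- `[x_c(a), x_d(b)] = x_s(± k a b)`, and `X_r` commutes with `X_c` and `X_d` -/
def trickB (D : ChevalleyDatum) (r s c d : ℕ) (k : ℤ) : Bool :=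
  decide (c < D.nroots) && decide (d < D.nroots) && decide (c ≠ r) && decide (c ≠ D.neg r) && decide (d ≠ r) &&
    decide (d ≠ D.neg r) && decide (d ≠ c) && decide (d ≠ D.neg c) && decide (D.commTerms r c = []) &&
      decide (D.commTerms r d = []) && decide (D.commTerms c d = [(s, k, 1, 1)])

lemma CExt.cm_of_trick (C : CExt D K E) (hB : Base D K) {r s c d : ℕ} {k : ℤ} (hr : r < D.nroots)
    (h : trickB D r s c d k = true) (hk : (k : K) ≠ 0) : C.Cm hB r s := by
  unfold trickB at h
  simp only [Bool.and_eq_true, decide_eq_true_eq] at h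
  obtain ⟨⟨⟨⟨⟨⟨⟨⟨⟨⟨hc, hd⟩, c1⟩, c2⟩, d1⟩, d2⟩, d3⟩, d4⟩, t1⟩, t2⟩, t3⟩ := h
  intro e₁ e₂ t u h1 h2
  have g1 : ∀ a, hB.xg r t * hB.xg c a * (hB.xg r t)⁻¹ = hB.xg c a := by
    intro a
    have := hB.comm_xg hr hc c1 c2 (-t) a
    unfold ChevalleyDatum.commWord at this
    rw [t1] at this
    simp only [List.map_nil, Base.wg, List.prod_nil, mul_one] at this
    rw [hB.xg_inv, neg_neg] at this
    rw [hB.xg_inv]; exact this
  have g2 : ∀ a, hB.xg r t * hB.xg d a * (hB.xg r t)⁻¹ = hB.xg d a := by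
    intro a
    have := hB.comm_xg hr hd d1 d2 (-t) a
    unfold ChevalleyDatum.commWord at this
    rw [t2] at this
    simp only [List.map_nil, Base.wg, List.prod_nil, mul_one] at this
    rw [hB.xg_inv, neg_neg] at this
    rw [hB.xg_inv]; exact this
  have g3 : cm (hB.xg d (-(u / k))) (hB.xg c 1) = hB.xg s u := by
    have := hB.comm_xg hc hd d3 d4 (-1) (u / k)
    unfold ChevalleyDatum.commWord at this
    rw [t3] at this
    simp only [List.map_cons, List.map_nil, Base.wg, List.prod_cons, List.prod_nil, mul_one, neg_neg, one_pow,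
      pow_one] at this
    rw [mul_div_cancel₀ _ hk, hB.xg_inv, neg_neg] at this
    unfold cm
    rw [hB.xg_inv, hB.xg_inv, neg_neg, mul_assoc, mul_assoc, ← mul_assoc (hB.xg c 1), this, ← mul_assoc,
      hB.xg_add, neg_add_cancel, hB.xg_zero, one_mul]
  have ld := C.ψ_lft (hB.xg_mem_group hd (-(u / k)))
  have lc := C.ψ_lft (hB.xg_mem_group hc (1 : K))
  set w : E := cm (C.lft (hB.xg d (-(u / k)))) (C.lft (hB.xg c 1)) with hw
  have hψw : C.ψ w = C.ψ e₂ := by rw [hw, C.ψ_cm, ld, lc, g3, h2]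
  have hcw : e₁ * w * e₁⁻¹ = w := by
    rw [hw, conj_cm]
    apply C.cm_congr
    · rw [map_mul, map_mul, map_inv, ld, h1, g2]
    · rw [map_mul, map_mul, map_inv, lc, h1, g1]
  obtain ⟨z, hz, rfl⟩ := C.eq_mul_central hψw
  have hz' := Subgroup.mem_center_iff.mp hz
  rw [mul_inv_eq_iff_eq_mul] at hcw
  rw [← mul_assoc, hcw, mul_assoc, hz' e₁, mul_assoc]

/-- every root subgroup is a commutator of two root subgroups commuting with it -/
def abB (D : ChevalleyDatum) (Wt : List (ℕ × ℕ)) : Bool :=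
  (List.range D.nroots).all fun q =>
    trickB D q q (Wt.getD q (0, 0)).1 (Wt.getD q (0, 0)).2 1 || trickB D q q (Wt.getD q (0, 0)).1 (Wt.getD q (0, 0)).2 (-1)

lemma CExt.ab_of_check (C : CExt D K E) (hB : Base D K) {Wt : List (ℕ × ℕ)} (h : abB D Wt = true) :
    ∀ q, q < D.nroots → C.Ab hB q := by
  intro q hq
  unfold abB at h
  rw [List.all_eq_true] at h
  have h1 := h q (List.mem_range.mpr hq)
  rw [Bool.or_eq_true] at h1
  rcases h1 with h1 | h1
  · exact C.cm_of_trick hB hq h1 (by simp)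
  · exact C.cm_of_trick hB hq h1 (by simp)

/-- for independent roots `r`, `s` some coroot kills `r` and not `s` -/
def t2B4 (D : ChevalleyDatum) : Bool :=
  (List.range D.nroots).all fun r => (List.range D.nroots).all fun s =>
    decide (s = r) || decide (s = D.neg r) || (List.range D.nroots).any fun β =>
      decide (D.pairing β r = 0) && (decide (D.pairing β s = 1) || decide (D.pairing β s = -1) ||
        decide (D.pairing β s = 2) || decide (D.pairing β s = -2))

lemma exists_tor_of_t2B4 (hB : Base D K) (h : t2B4 D = true) {v : K} (hv0 : v ≠ 0) (hv2 : v ^ 2 ≠ 1) {r s : ℕ}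
    (hr : r < D.nroots) (hs : s < D.nroots) (h1 : s ≠ r) (h2 : s ≠ D.neg r) :
    ∃ (h : GL D.Idx K) (μ : K), TorG hB h r 1 ∧ TorG hB h s μ ∧ μ ≠ 1 := by
  unfold t2B4 at h
  rw [List.all_eq_true] at h
  have h3 := h r (List.mem_range.mpr hr)
  rw [List.all_eq_true] at h3
  have h4 := h3 s (List.mem_range.mpr hs)
  simp only [Bool.or_eq_true, decide_eq_true_eq, h1, h2, false_or, List.any_eq_true, Bool.and_eq_true,
    List.mem_range] at h4
  obtain ⟨β, hβ, e0, e⟩ := h4
  have hv1 : v ≠ 1 := by rintro rfl; simp at hv2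
  refine ⟨hB.hg β v, v ^ D.pairing β s, ?_, torG_hg hB hβ hs hv0, ?_⟩
  · have := torG_hg hB hβ hr hv0
    rwa [e0, zpow_zero] at this
  · rcases e with ((e | e) | e) | e <;> rw [e]
    · simpa using hv1
    · simpa using hv1
    · exact_mod_cast hv2
    · rw [_root_.zpow_neg, ne_eq, inv_eq_one]; exact_mod_cast hv2

/-- for independent roots `r`, `s` some coroot is even on `r` and odd on `s`, or there is a decomposition -/
def t2B3 (D : ChevalleyDatum) (Wt : List (ℕ × ℕ × ℕ × ℕ)) : Bool :=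
  (List.range D.nroots).all fun r => (List.range D.nroots).all fun s =>
    decide (s = r) || decide (s = D.neg r) || ((List.range D.nroots).any fun β =>
      decide (D.pairing β r % 2 = 0) && decide (D.pairing β s % 2 = 1)) ||
    Wt.any fun w => decide (w.1 = r) && decide (w.2.1 = s) &&
      (trickB D r s w.2.2.1 w.2.2.2 2 || trickB D r s w.2.2.1 w.2.2.2 (-2))

lemma CExt.pair_of_t2B3 (C : CExt D K E) (hB : Base D K) {Wt : List (ℕ × ℕ × ℕ × ℕ)} (h : t2B3 D Wt = true)
    (h2K : (2 : K) ≠ 0) {r s : ℕ} (hr : r < D.nroots) (hs : s < D.nroots) (h1 : s ≠ r) (h2 : s ≠ D.neg r) :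
    (∃ (h : GL D.Idx K) (μ : K), TorG hB h r 1 ∧ TorG hB h s μ ∧ μ ≠ 1) ∨ C.Cm hB r s := by
  unfold t2B3 at h
  rw [List.all_eq_true] at h
  have h3 := h r (List.mem_range.mpr hr)
  rw [List.all_eq_true] at h3
  have h4 := h3 s (List.mem_range.mpr hs)
  simp only [Bool.or_eq_true, decide_eq_true_eq, h1, h2, false_or, List.any_eq_true, Bool.and_eq_true,
    List.mem_range] at h4
  rcases h4 with ⟨β, hβ, e0, e1⟩ | ⟨w, -, -, e⟩
  · left
    have hm : (-1 : K) ≠ 0 := by simp
    refine ⟨hB.hg β (-1), (-1) ^ D.pairing β s, ?_, torG_hg hB hβ hs hm, ?_⟩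
    · have := torG_hg hB hβ hr hm
      rwa [(Int.even_iff.mpr e0).neg_one_zpow] at this
    · rw [(Int.odd_iff.mpr e1).neg_one_zpow]
      intro e
      apply h2K
      linear_combination -e
  · right
    rcases e with e | e
    · exact C.cm_of_trick hB hr e (by exact_mod_cast h2K)
    · exact C.cm_of_trick hB hr e (by push_cast; simpa using h2K)

end Cfsg.Agent.Lib.Helper17
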