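import Cfsg.Agent.Lib.Helper17.UgB2
import Cfsg.Agent.Lib.Helper17.UgPair
import Cfsg.Agent.S2395

set_option autoImplicit false

/-! Universality of the group presented by (R1), (R2) over a field with more than four elements. -/

namespace Cfsg.Agent.Lib.Helper17

open Cfsg.Lie Matrix Cfsg.Agent.Lib.Helper18 Cfsg.Agent.Lib.Helper36

variable {D : ChevalleyDatum} {T : Fast} {W : WTab} {K : Type*} [Field K]

/-- Steinberg: over a field with more than four elements the relations (R1), (R2) lift to every central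
extension of the Chevalley group -/
theorem CExt.exists_std_all {E : Type*} [Group E]
    (hD : D ∈ [chevG2, chevB2, chevD4, chevF4, chevE6, chevE7, chevE8]) (C : CExt D K E)
    (A : AllH D T W K) (hK : ∃ s : Finset K, 4 < s.card) : ∃ S : StD D K E, S.θ = C.ψ := by
  apply C.exists_std A hK (prOK_of_mem hD) (trOK_of_mem hD)
  simp only [List.mem_cons, List.not_mem_nil, or_false] at hD
  rcases hD with rfl | rfl | rfl | rfl | rfl | rfl | rfl
  · exact C.ab_of_p1 A hK p1OK_G2
  · exact C.ab_of_ab2B A hK ab2B_B2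
  · exact C.ab_of_p1 A hK p1OK_D4
  · exact C.ab_of_p1 A hK p1OK_F4
  · exact C.ab_of_p1 A hK p1OK_E6
  · exact C.ab_of_p1 A hK p1OK_E7
  · exact C.ab_of_p1 A hK p1OK_E8

/-- a group with elements satisfying (R1), (R2) receives a homomorphism from the presented group -/
theorem StD.exists_hom {Γ : Type*} [Group Γ] (h : Checks D T W) (S : StD D K Γ) :
    ∃ τ : D.SteinbergCover K →* Γ, ∀ r, r < D.nroots → ∀ t, τ (D.scGen K r t) = S.X r t := by
  have hX : ∀ r, r < D.nroots → ∀ t,
      FreeGroup.lift (fun p : Fin D.nroots × K => S.X p.1 p.2) (D.stX r t) = S.X r t := by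
    intro r hr t
    unfold ChevalleyDatum.stX
    rw [dif_pos hr, FreeGroup.lift_apply_of]
  have hW : ∀ w : List (ℕ × K), (∀ p ∈ w, p.1 < D.nroots) →
      FreeGroup.lift (fun p : Fin D.nroots × K => S.X p.1 p.2) (D.stWord w) =
      (w.map fun p => S.X p.1 p.2).prod := by
    intro w hw
    unfold ChevalleyDatum.stWord
    rw [map_list_prod, List.map_map]
    congr 1
    apply List.map_congr_left
    intro p hp
    exact hX p.1 (hw p hp) p.2
  have hrel : ∀ g ∈ D.steinbergRelsAB K, FreeGroup.lift (fun p : Fin D.nroots × K => S.X p.1 p.2) g = 1 := by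
    rintro g (⟨r, t₁, t₂, hr, rfl⟩ | ⟨r, s, t, u, hr, hs, h1, h2, rfl⟩)
    · rw [map_mul, map_mul, map_inv, hX r hr, hX r hr, hX r hr, S.add r hr, mul_inv_cancel]
    · have hcw : ∀ p ∈ D.commWord K r s t u, p.1 < D.nroots := by
        intro p hp
        unfold ChevalleyDatum.commWord at hp
        rw [List.mem_map] at hp
        obtain ⟨c, hc, rfl⟩ := hp
        exact (dJ_commTerms h ∅ hr hs hc).1
      rw [map_mul, map_mul, map_mul, map_mul, map_inv, map_inv, map_inv, hX r hr, hX s hs, hW _ hcw]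
      have := S.comm r s hr hs h1 h2 t u
      rw [mul_assoc ((S.X s u)⁻¹ * (S.X r t)⁻¹), this]
      group
  exact ⟨PresentedGroup.toGroup hrel, fun r hr t => hX r hr t⟩

/-- two homomorphisms from a perfect group which agree modulo a central subgroup are equal -/
theorem hom_eq_of_perfect {Δ E G : Type*} [Group Δ] [Group E] [Group G] (hperf : commutator Δ = ⊤)
    (π : E →* G) (hc : π.ker ≤ Subgroup.center E) (f g : Δ →* E) (h : π.comp f = π.comp g) : f = g := by
  have hz : ∀ x, ∃ z ∈ Subgroup.center E, g x = f x * z := by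
    intro x
    refine ⟨(f x)⁻¹ * g x, hc ?_, by group⟩
    have := DFunLike.congr_fun h x
    rw [MonoidHom.comp_apply, MonoidHom.comp_apply] at this
    rw [MonoidHom.mem_ker, map_mul, map_inv, this, inv_mul_cancel]
  have hcl : Subgroup.closure (commutatorSet Δ) = ⊤ := by rw [← commutator_eq_closure, hperf]
  apply MonoidHom.eq_of_eqOn_dense hcl
  rintro _ ⟨a, b, rfl⟩
  obtain ⟨z, hz1, e1⟩ := hz a
  obtain ⟨w, hw1, e2⟩ := hz b
  have e3 : ∀ φ : Δ →* E, φ (a * b * a⁻¹ * b⁻¹) = cm (φ a) (φ b) := by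
    intro φ; unfold cm; simp
  show f (a * b * a⁻¹ * b⁻¹) = g (a * b * a⁻¹ * b⁻¹)
  rw [e3, e3, e1, e2, cm_central_left hz1, cm_central_right hw1]

/-- abstract form of universality -/
theorem universal_of_lift {Δ : Type*} [Group Δ] (hperf : commutator Δ = ⊤) (θ : Δ →* GL D.Idx K)
    (hθc : θ.ker ≤ Subgroup.center Δ) (hθs : ∀ g ∈ D.group K, ∃ x, θ x = g)
    {G₁ E : Type*} [Group G₁] [Group E] (π₁ : E →* G₁) (hπ : Function.Surjective π₁)
    (hc : π₁.ker ≤ Subgroup.center E) (σ : Δ →* G₁)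
    (hlift : ∀ C : CExt D K ↥(commutator ↥((π₁.comp (MonoidHom.fst E Δ)).eqLocus (σ.comp (MonoidHom.snd E Δ)))),
      ∃ τ₀ : Δ →* ↥(commutator ↥((π₁.comp (MonoidHom.fst E Δ)).eqLocus (σ.comp (MonoidHom.snd E Δ)))),
        C.ψ.comp τ₀ = θ) :
    ∃! τ : Δ →* E, π₁.comp τ = σ := by
  set P := (π₁.comp (MonoidHom.fst E Δ)).eqLocus (σ.comp (MonoidHom.snd E Δ)) with hP
  let pr₂ : ↥P →* Δ := (MonoidHom.snd E Δ).comp P.subtype
  let pr₁ : ↥P →* E := (MonoidHom.fst E Δ).comp P.subtype
  have hmem : ∀ p : ↥P, π₁ (pr₁ p) = σ (pr₂ p) := fun p => p.2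
  have hpr₂ : Function.Surjective pr₂ := by
    intro δ
    obtain ⟨e, he⟩ := hπ (σ δ)
    exact ⟨⟨(e, δ), he⟩, rfl⟩
  have hker₂ : pr₂.ker ≤ Subgroup.center ↥P := by
    intro p hp
    rw [MonoidHom.mem_ker] at hp
    have h1 : pr₁ p ∈ Subgroup.center E := hc (by rw [MonoidHom.mem_ker, hmem, hp, map_one])
    rw [Subgroup.mem_center_iff] at h1 ⊢
    intro q
    apply Subtype.ext
    apply Prod.ext
    · exact h1 (pr₁ q)
    · show pr₂ q * pr₂ p = pr₂ p * pr₂ q
      rw [hp, mul_one, one_mul]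
  let ι : ↥(commutator ↥P) →* ↥P := (commutator ↥P).subtype
  have hsurj' : Function.Surjective (pr₂.comp ι) := by
    intro δ
    have h1 : (commutator ↥P).map pr₂ = ⊤ := by
      rw [commutator_def, Subgroup.map_commutator, ← MonoidHom.range_eq_map,
        MonoidHom.range_eq_top.mpr hpr₂, ← commutator_def, hperf]
    have h2 : δ ∈ (commutator ↥P).map pr₂ := by rw [h1]; trivial
    obtain ⟨p, hp, rfl⟩ := h2
    exact ⟨⟨p, hp⟩, rfl⟩
  let C : CExt D K ↥(commutator ↥P) :=
    { ψ := θ.comp (pr₂.comp ι)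
      central := by
        intro m hm
        rw [MonoidHom.mem_ker, MonoidHom.comp_apply] at hm
        have hμ : pr₂ (ι m) ∈ Subgroup.center Δ := hθc hm
        have hconj : ∀ p : ↥P, ∃ z ∈ Subgroup.center ↥P, ι m * p * (ι m)⁻¹ = p * z := by
          intro p
          refine ⟨p⁻¹ * (ι m * p * (ι m)⁻¹), hker₂ ?_, by group⟩
          rw [MonoidHom.mem_ker]
          simp only [map_mul, map_inv]
          rw [← Subgroup.mem_center_iff.mp hμ (pr₂ p)]
          group
        obtain ⟨m', hm'⟩ : ∃ m' : ↥P, m' = ι m := ⟨_, rfl⟩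
        rw [← hm'] at hconj
        have hle : commutator ↥P ≤ Subgroup.centralizer {m'} := by
          rw [commutator_eq_closure, Subgroup.closure_le]
          rintro _ ⟨a, b, rfl⟩
          rw [SetLike.mem_coe, Subgroup.mem_centralizer_singleton_iff]
          obtain ⟨z, hz, e1⟩ := hconj a
          obtain ⟨w, hw, e2⟩ := hconj b
          have e3 : m' * cm a b * m'⁻¹ = cm a b := by
            rw [conj_cm, e1, e2, cm_central_left hz, cm_central_right hw]
          exact (mul_inv_eq_iff_eq_mul.mp e3).symm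
        rw [Subgroup.mem_center_iff]
        intro x
        have := hle x.2
        rw [Subgroup.mem_centralizer_singleton_iff, hm'] at this
        exact Subtype.ext this
      surj := by
        intro g hg
        obtain ⟨x, rfl⟩ := hθs g hg
        obtain ⟨p, rfl⟩ := hsurj' x
        exact ⟨p, rfl⟩ }
  obtain ⟨τ₀, hτ₀⟩ := hlift C
  have hρ : (pr₂.comp ι).comp τ₀ = MonoidHom.id Δ := by
    apply hom_eq_of_perfect hperf θ hθc
    rw [MonoidHom.comp_id, ← MonoidHom.comp_assoc]
    exact hτ₀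
  refine ⟨(pr₁.comp ι).comp τ₀, ?_, ?_⟩
  · ext x
    show π₁ (pr₁ (ι (τ₀ x))) = σ x
    rw [hmem]
    have := DFunLike.congr_fun hρ x
    exact congrArg σ this
  · intro τ' hτ'
    apply hom_eq_of_perfect hperf π₁ hc
    rw [hτ']
    ext x
    show σ x = π₁ (pr₁ (ι (τ₀ x)))
    rw [hmem]
    have := DFunLike.congr_fun hρ x
    exact (congrArg σ this).symm

end Cfsg.Agent.Lib.Helper17
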