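import Cfsg.Agent.Lib.Helper17.UhB3
import Cfsg.Agent.Lib.Helper17.UgMain

set_option autoImplicit false

/-! Central extensions of the Chevalley group: lifts of orthogonal root subgroups inside a subsystem of type `A₃`
commute in odd characteristic. -/

namespace Cfsg.Agent.Lib.Helper17

open Cfsg.Lie Matrix Cfsg.Agent.Lib.Helper18 Cfsg.Agent.Lib.Helper36

variable {D : ChevalleyDatum} {T : Fast} {W : WTab} {K : Type*} [Field K] {E : Type*} [Group E]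

/-- `s = R + p = p' + S`, `r + p = S`, `r + p' = R`, and `X_r` commutes with `X_R`, `X_S` -/
def a3B (D : ChevalleyDatum) (S R r p p' s : ℕ) (k₁ k₂ k₃ k₄ : ℤ) : Bool :=
  decide (r < D.nroots) && decide (p < D.nroots) && decide (p' < D.nroots) &&
  decide (p ≠ R) && decide (p ≠ D.neg R) && decide (D.commTerms R p = [(s, k₁, 1, 1)]) &&
  decide (R ≠ r) && decide (R ≠ D.neg r) && decide (D.commTerms r R = []) &&
  decide (p ≠ r) && decide (p ≠ D.neg r) && decide (D.commTerms r p = [(S, k₂, 1, 1)]) &&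
  decide (S ≠ p') && decide (S ≠ D.neg p') && decide (D.commTerms p' S = [(s, k₃, 1, 1)]) &&
  decide (S ≠ r) && decide (S ≠ D.neg r) && decide (D.commTerms r S = []) &&
  decide (p' ≠ r) && decide (p' ≠ D.neg r) && decide (D.commTerms r p' = [(R, k₄, 1, 1)]) &&
  decide (R ≠ S) && decide (R ≠ D.neg S) && decide (D.commTerms S R = []) &&
  decide (k₁ = 1 ∨ k₁ = -1) && decide (k₂ = 1 ∨ k₂ = -1) && decide (k₃ = 1 ∨ k₃ = -1) && decide (k₄ = 1 ∨ k₄ = -1) &&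
  decide (k₁ * k₂ * k₃ * k₄ = -1)

lemma xg_conj_single (hB : Base D K) {c d s : ℕ} {k : ℤ} (hc : c < D.nroots) (hd : d < D.nroots) (d3 : d ≠ c)
    (d4 : d ≠ D.neg c) (h : D.commTerms c d = [(s, k, 1, 1)]) (a b : K) :
    hB.xg c a * hB.xg d b * (hB.xg c a)⁻¹ = hB.xg d b * hB.xg s (k * a * b) := by
  have := hB.comm_xg hc hd d3 d4 (-a) b
  unfold ChevalleyDatum.commWord at this
  rw [h] at this
  simp only [List.map_cons, List.map_nil, Base.wg, List.prod_cons, List.prod_nil, mul_one, neg_neg, pow_one] at this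
  rw [hB.xg_inv, neg_neg] at this
  rw [hB.xg_inv, this]

lemma xg_conj_nil (hB : Base D K) {r s : ℕ} (hr : r < D.nroots) (hs : s < D.nroots) (h1 : s ≠ r)
    (h2 : s ≠ D.neg r) (h : D.commTerms r s = []) (t u : K) :
    hB.xg r t * hB.xg s u * (hB.xg r t)⁻¹ = hB.xg s u := by
  have := xg_comm_of_nil hB hr hs h1 h2 h t u
  unfold cm at this
  exact mul_inv_eq_one.mp this

lemma sign_core {g : K → K → E} (negL : ∀ y x, g (-y) x = (g y x)⁻¹) (negR : ∀ y x, g y (-x) = (g y x)⁻¹)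
    {k₁ k₂ k₃ k₄ : ℤ} (h1 : k₁ = 1 ∨ k₁ = -1) (h2 : k₂ = 1 ∨ k₂ = -1) (h3 : k₃ = 1 ∨ k₃ = -1)
    (h4 : k₄ = 1 ∨ k₄ = -1) (hp : k₁ * k₂ * k₃ * k₄ = -1)
    (h : ∀ a b, g ((k₂ : K) * b) a = g ((k₁ : K) * k₃ * b) ((k₄ : K) * a)) (a b : K) : g b a = (g b a)⁻¹ := by
  have := h a b
  rcases h1 with rfl | rfl <;> rcases h2 with rfl | rfl <;> rcases h3 with rfl | rfl <;>
    rcases h4 with rfl | rfl <;> first | (exfalso; revert hp; decide) | skip
  all_goals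
    simp only [Int.cast_one, Int.cast_neg, one_mul, neg_mul, mul_neg, neg_neg, negL, negR, inv_inv] at this
    first | exact this | exact this.symm

namespace CExt

variable (C : CExt D K E)

theorem cm_of_a3 (hB : Base D K) (h2K : (2 : K) ≠ 0) {S R r p p' s : ℕ} {k₁ k₂ k₃ k₄ : ℤ} (hS : S < D.nroots)
    (hR : R < D.nroots) (h : a3B D S R r p p' s k₁ k₂ k₃ k₄ = true) : C.Cm hB S R := by
  unfold a3B at h
  simp only [Bool.and_eq_true, decide_eq_true_eq] at h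
  obtain ⟨⟨⟨⟨⟨⟨⟨⟨⟨⟨⟨⟨⟨⟨⟨⟨⟨⟨⟨⟨⟨⟨⟨⟨⟨⟨⟨⟨hr, hp⟩, hp'⟩, a1⟩, a2⟩, a3⟩, b1⟩, b2⟩, b3⟩, c1⟩, c2⟩, c3⟩, d1⟩, d2⟩, d3⟩, e1⟩, e2⟩,
    e3⟩, f1⟩, f2⟩, f3⟩, g1⟩, g2⟩, g3⟩, s1⟩, s2⟩, s3⟩, s4⟩, sp⟩ := h
  have l : ∀ q, q < D.nroots → ∀ t, C.ψ (C.lft (hB.xg q t)) = hB.xg q t :=
    fun q hq t => C.ψ_lft (hB.xg_mem_group hq t)
  set g : K → K → E := fun y x => cm (C.lft (hB.xg S y)) (C.lft (hB.xg R x)) with hg
  have geq : ∀ (e₁ e₂ : E) (y x : K), C.ψ e₁ = hB.xg S y → C.ψ e₂ = hB.xg R x → cm e₁ e₂ = g y x :=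
    fun e₁ e₂ y x a b => C.cm_congr (a.trans (l S hS y).symm) (b.trans (l R hR x).symm)
  have gcen : ∀ y x, g y x ∈ Subgroup.center E := fun y x =>
    C.mem_center_of_ψ (by rw [C.ψ_cm, l S hS, l R hR, xg_comm_of_nil hB hS hR g1 g2 g3])
  have addL : ∀ y y' x, g (y + y') x = g y x * g y' x := by
    intro y y' x
    rw [← cm_mul_left_central (gcen y' x)]
    exact (geq _ _ _ _ (by rw [map_mul, l S hS, l S hS, hB.xg_add]) (l R hR x)).symm
  have addR : ∀ y x x', g y (x + x') = g y x * g y x' := by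
    intro y x x'
    rw [← cm_mul_right_central (gcen y x')]
    exact (geq _ _ _ _ (l S hS y) (by rw [map_mul, l R hR, l R hR, hB.xg_add])).symm
  have zL : ∀ x, g 0 x = 1 := fun x => cm_left_central (C.mem_center_of_ψ (by rw [l S hS, hB.xg_zero]))
  have zR : ∀ y, g y 0 = 1 := fun y => cm_right_central (C.mem_center_of_ψ (by rw [l R hR, hB.xg_zero]))
  have negL : ∀ y x, g (-y) x = (g y x)⁻¹ := by
    intro y x
    have := addL (-y) y x
    rw [neg_add_cancel, zL] at this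
    exact eq_inv_of_mul_eq_one_left this.symm
  have negR : ∀ y x, g y (-x) = (g y x)⁻¹ := by
    intro y x
    have := addR y (-x) x
    rw [neg_add_cancel, zR] at this
    exact eq_inv_of_mul_eq_one_left this.symm
  have key : ∀ a b, g ((k₂ : K) * b) a = g ((k₁ : K) * k₃ * b) ((k₄ : K) * a) := by
    intro a b
    set e₁ : E := C.lft (hB.xg r 1) with he₁
    have le := l r hr 1
    set w₁ : E := cm (C.lft (hB.xg p b)) (C.lft (hB.xg R a)) with hw₁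
    set w₂ : E := cm (C.lft (hB.xg S ((k₁ : K) * k₃ * b))) (C.lft (hB.xg p' a)) with hw₂
    have c₁ : e₁ * w₁ * e₁⁻¹ = w₁ * g ((k₂ : K) * b) a := by
      rw [hw₁, conj_cm]
      have x1 : C.ψ (e₁ * C.lft (hB.xg p b) * e₁⁻¹) = C.ψ (C.lft (hB.xg p b) * C.lft (hB.xg S ((k₂ : K) * b))) := by
        rw [map_mul, map_mul, map_inv, map_mul, le, l p hp, l S hS, xg_conj_single hB hr hp c1 c2 c3, mul_one]
      have x2 : C.ψ (e₁ * C.lft (hB.xg R a) * e₁⁻¹) = C.ψ (C.lft (hB.xg R a)) := by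
        rw [map_mul, map_mul, map_inv, le, l R hR, xg_conj_nil hB hr hR b1 b2 b3]
      rw [C.cm_congr x1 x2, cm_mul_left_central (gcen _ _)]
    have c₂ : e₁ * w₂ * e₁⁻¹ = w₂ * g ((k₁ : K) * k₃ * b) ((k₄ : K) * a) := by
      rw [hw₂, conj_cm]
      have x1 : C.ψ (e₁ * C.lft (hB.xg S ((k₁ : K) * k₃ * b)) * e₁⁻¹) = C.ψ (C.lft (hB.xg S ((k₁ : K) * k₃ * b))) := by
        rw [map_mul, map_mul, map_inv, le, l S hS, xg_conj_nil hB hr hS e1 e2 e3]
      have x2 : C.ψ (e₁ * C.lft (hB.xg p' a) * e₁⁻¹) = C.ψ (C.lft (hB.xg p' a) * C.lft (hB.xg R ((k₄ : K) * a))) := by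
        rw [map_mul, map_mul, map_inv, map_mul, le, l p' hp', l R hR, xg_conj_single hB hr hp' f1 f2 f3, mul_one]
      rw [C.cm_congr x1 x2, cm_mul_right_central (gcen _ _)]
    have hψ : C.ψ w₁ = C.ψ w₂ := by
      rw [hw₁, hw₂, C.ψ_cm, C.ψ_cm, l p hp, l R hR, l S hS, l p' hp', xg_cm_single hB hR hp a1 a2 a3,
        xg_cm_single hB hp' hS d1 d2 d3]
      congr 1
      have : (k₃ : K) * k₃ = 1 := by rcases s3 with rfl | rfl <;> simp
      linear_combination ((k₁ : K) * a * b) * this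
    obtain ⟨z, hz, e⟩ := C.eq_mul_central hψ
    have hz' := Subgroup.mem_center_iff.mp hz
    rw [e] at c₂
    have : e₁ * (w₁ * z) * e₁⁻¹ = e₁ * w₁ * e₁⁻¹ * z := by
      calc e₁ * (w₁ * z) * e₁⁻¹ = e₁ * w₁ * (z * e₁⁻¹) := by group
        _ = e₁ * w₁ * (e₁⁻¹ * z) := by rw [hz' e₁⁻¹]
        _ = _ := by group
    rw [this, c₁, mul_assoc, mul_assoc, ← hz'] at c₂
    exact mul_right_cancel (mul_left_cancel c₂)
  have hinv := sign_core negL negR s1 s2 s3 s4 sp key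
  have hone : ∀ y x, g y x = 1 := by
    intro y x
    have e : y = y / 2 + y / 2 := by field_simp; ring
    rw [e, addL]
    exact inv_eq_iff_mul_eq_one.mp (hinv x (y / 2)).symm
  intro e₁ e₂ y x a b
  apply comm_of_cm
  rw [geq e₁ e₂ y x a b, hone]

end CExt

end Cfsg.Agent.Lib.Helper17
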