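import Cfsg.Agent.Lib.Helper17.UcRel

set_option autoImplicit false

/-! Central extensions of the Chevalley group: an abstract criterion for lifting the relations (R1), (R2). -/

namespace Cfsg.Agent.Lib.Helper17

open Cfsg.Lie Matrix Cfsg.Agent.Lib.Helper18 Cfsg.Agent.Lib.Helper36

variable {D : ChevalleyDatum} {T : Fast} {W : WTab} {K : Type*} [Field K] {E : Type*} [Group E]

namespace CExt

variable (C : CExt D K E)

/-- lifts of the root elements, additive, permuted by lifts of the fundamental reflections, and such that along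
the list `P` each of them normalises the group generated by the later ones -/
structure YA (hB : Base D K) (P : List ℕ) (Y : ℕ → K → E) : Prop where
  ψY : ∀ q, q < D.nroots → ∀ t, C.ψ (Y q t) = hB.xg q t
  add : ∀ q, q < D.nroots → ∀ t u, Y q t * Y q u = Y q (t + u)
  mv : ∀ i, i < D.rank → ∃ g : E, ∀ q, q < D.nroots → ∃ c : K, c ≠ 0 ∧
    ∀ t, g * Y q t * g⁻¹ = Y (D.reflectRoot i q) (c * t)
  nl : ∀ k L, (k :: L) <:+ P → ∀ s ∈ L, ∀ t u, Y k t * Y s u * (Y k t)⁻¹ ∈ NL Y L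

variable {C} {Y : ℕ → K → E} {P : List ℕ}

lemma YA.zero {hB : Base D K} (hY : C.YA hB P Y) {q : ℕ} (hq : q < D.nroots) : Y q 0 = 1 := by
  have := hY.add q hq 0 0
  rw [add_zero] at this
  exact mul_eq_left.mp this

lemma YA.inv {hB : Base D K} (hY : C.YA hB P Y) {q : ℕ} (hq : q < D.nroots) (t : K) :
    (Y q t)⁻¹ = Y q (-t) := by
  rw [inv_eq_iff_mul_eq_one, hY.add q hq, add_neg_cancel, hY.zero hq]

lemma YA.ψ_wdY {hB : Base D K} (hY : C.YA hB P Y) (w : List (ℕ × K)) (hw : ∀ p ∈ w, p.1 < D.nroots) :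
    C.ψ (wdY Y w) = hB.wg w := by
  unfold wdY Base.wg
  rw [map_list_prod, List.map_map]
  congr 1
  apply List.map_congr_left
  intro p hp
  exact hY.ψY p.1 (hw p hp) p.2

lemma YA.ψ_opY {hB : Base D K} (hY : C.YA hB P Y) (L : List ℕ) (hL : ∀ r ∈ L, r < D.nroots) (t : ℕ → K) :
    C.ψ (opY Y L t) = gp hB L t := by
  unfold opY gp
  rw [map_list_prod, List.map_map]
  congr 1
  apply List.map_congr_left
  intro p hp
  exact hY.ψY p (hL p hp) _

variable (A : AllH D T W K) (hY : C.YA A.hB P Y)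

include hY

lemma YA.exists_opY (hP : P.Nodup) (hPn : ∀ r ∈ P, r < D.nroots) : ∀ L : List ℕ, L <:+ P → ∀ e ∈ NL Y L,
    ∃ t : ℕ → K, e = opY Y L t := by
  intro L
  induction L with
  | nil =>
    intro _ e he
    have : NL Y ([] : List ℕ) = ⊥ := by
      unfold NL
      rw [Subgroup.closure_eq_bot_iff]
      rintro x ⟨s, hs, -⟩
      simp at hs
    rw [this, Subgroup.mem_bot] at he
    exact ⟨fun _ => 0, by rw [he]; rfl⟩
  | cons k L ih =>
    intro hL e he
    have hsub : ∀ r ∈ k :: L, r ∈ P := fun r hr => hL.subset hr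
    have hk := hPn k (hsub k List.mem_cons_self)
    have hnd : (k :: L).Nodup := hL.sublist.nodup hP
    have hkL : ∀ r ∈ L, r ≠ k := fun r hr e => (List.nodup_cons.mp hnd).1 (e ▸ hr)
    have step : ∀ s ∈ k :: L, ∀ (u t : K) (w : E), w ∈ NL Y L →
        ∃ (t' : K) (w' : E), w' ∈ NL Y L ∧ Y s u * (Y k t * w) = Y k t' * w' := by
      intro s hs u t w hw
      rcases List.mem_cons.mp hs with rfl | hs
      · exact ⟨u + t, w, hw, by rw [← mul_assoc, hY.add s hk]⟩
      · refine ⟨t, Y k (-t) * Y s u * (Y k (-t))⁻¹ * w, mul_mem (hY.nl k L hL s hs _ _) hw, ?_⟩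
        rw [← hY.inv hk]
        group
    have key : ∃ (t : K) (w : E), w ∈ NL Y L ∧ e = Y k t * w := by
      unfold NL at he
      induction he using Subgroup.closure_induction_left with
      | one => exact ⟨0, 1, one_mem _, by rw [hY.zero hk, one_mul]⟩
      | mul_left x hx y _ ih2 =>
        obtain ⟨s, hs, u, rfl⟩ := hx
        obtain ⟨t, w, hw, rfl⟩ := ih2
        exact step s hs u t w hw
      | inv_mul_cancel x hx y _ ih2 =>
        obtain ⟨s, hs, u, rfl⟩ := hx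
        obtain ⟨t, w, hw, rfl⟩ := ih2
        rw [hY.inv (hPn s (hsub s hs))]
        exact step s hs (-u) t w hw
    obtain ⟨t, w, hw, rfl⟩ := key
    obtain ⟨t', rfl⟩ := ih ((List.suffix_cons k L).trans hL) w hw
    refine ⟨Function.update t' k t, ?_⟩
    rw [opY_cons, Function.update_self]
    congr 1
    refine opY_congr fun r hr => ?_
    rw [Function.update_of_ne (hkL r hr)]

theorem YA.NL_inj (hP : HL D 1 P) {e e' : E} (he : e ∈ NL Y P) (he' : e' ∈ NL Y P) (h : C.ψ e = C.ψ e') :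
    e = e' := by
  have hLn : ∀ r ∈ P, r < D.nroots := fun r hr => (hP.pos r hr).1
  obtain ⟨t, rfl⟩ := hY.exists_opY A hP.nodup hLn P List.suffix_rfl e he
  obtain ⟨t', rfl⟩ := hY.exists_opY A hP.nodup hLn P List.suffix_rfl e' he'
  rw [hY.ψ_opY P hLn, hY.ψ_opY P hLn] at h
  exact opY_congr (gp_inj A.h A.hB A.hT A.hs P hP t t' h)

lemma YA.exists_mover (L : List ℕ) (hL : ∀ i ∈ L, i < D.rank) :
    ∃ g : E, ∀ q, q < D.nroots → ∃ c : K, c ≠ 0 ∧ ∀ t, g * Y q t * g⁻¹ = Y (wAct D L q) (c * t) := by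
  induction L with
  | nil => exact ⟨1, fun q _ => ⟨1, one_ne_zero, fun t => by simp⟩⟩
  | cons i L ih =>
    obtain ⟨g, hg⟩ := ih (fun j hj => hL j (List.mem_cons_of_mem _ hj))
    have hi := hL i List.mem_cons_self
    have hLn : ∀ j ∈ L, j < D.rank := fun j hj => hL j (List.mem_cons_of_mem _ hj)
    obtain ⟨g₁, hg₁⟩ := hY.mv i hi
    refine ⟨g₁ * g, fun q hq => ?_⟩
    obtain ⟨c, hc, e⟩ := hg q hq
    obtain ⟨c₁, hc₁, e₁⟩ := hg₁ _ (A.hT.wAct_lt hLn hq)
    refine ⟨c₁ * c, mul_ne_zero hc₁ hc, fun t => ?_⟩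
    have e2 : g₁ * g * Y q t * (g₁ * g)⁻¹ = g₁ * (g * Y q t * g⁻¹) * g₁⁻¹ := by group
    rw [e2, e, e₁, wAct_cons, mul_assoc]

/-- relation (R2) -/
theorem YA.comm (hP : HL D 1 P) (hmem : ∀ r, r ∈ P ↔ (r < D.nroots ∧ 0 < fE D 1 r)) (htr : TrOK D) {r s : ℕ}
    (hr : r < D.nroots) (hs : s < D.nroots) (h1 : s ≠ r) (h2 : s ≠ D.neg r) (t u : K) :
    Y s u * Y r t = Y r t * Y s u * wdY Y (D.commWord K r s t u) := by
  obtain ⟨L, hL, hpr, hps, hpc⟩ := htr r s hr hs h1 h2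
  obtain ⟨g, hg⟩ := hY.exists_mover A L hL
  have hcn : ∀ c ∈ D.commTerms r s, c.1 < D.nroots := fun c hc => (dJ_commTerms A.h ∅ hr hs hc).1
  have hin : ∀ q, q < D.nroots → D.IsPosRoot (wAct D L q) → ∀ v, g * Y q v * g⁻¹ ∈ NL Y P := by
    intro q hq hpos v
    obtain ⟨c, -, e⟩ := hg q hq
    rw [e]
    have hq' := A.hT.wAct_lt hL hq
    exact Y_mem_NL ((hmem _).mpr ⟨hq', (fE_one_pos_iff A.hl A.hT A.hO hq').mpr hpos⟩) _
  have hw : ∀ w : List (ℕ × K), (∀ p ∈ w, p.1 < D.nroots ∧ D.IsPosRoot (wAct D L p.1)) →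
      g * wdY Y w * g⁻¹ ∈ NL Y P := by
    intro w
    induction w with
    | nil => intro _; simp [wdY, one_mem]
    | cons p w ih =>
      intro hw
      have : g * wdY Y (p :: w) * g⁻¹ = (g * Y p.1 p.2 * g⁻¹) * (g * wdY Y w * g⁻¹) := by
        simp only [wdY, List.map_cons, List.prod_cons]; group
      rw [this]
      exact mul_mem (hin _ (hw p List.mem_cons_self).1 (hw p List.mem_cons_self).2 _)
        (ih fun q hq => hw q (List.mem_cons_of_mem _ hq))
  have hcw : ∀ p ∈ D.commWord K r s t u, p.1 < D.nroots ∧ D.IsPosRoot (wAct D L p.1) := by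
    intro p hp
    unfold ChevalleyDatum.commWord at hp
    rw [List.mem_map] at hp
    obtain ⟨c, hc, rfl⟩ := hp
    exact ⟨hcn c hc, hpc c hc⟩
  have m1 : g * (Y s u * Y r t) * g⁻¹ ∈ NL Y P := by
    have : g * (Y s u * Y r t) * g⁻¹ = (g * Y s u * g⁻¹) * (g * Y r t * g⁻¹) := by group
    rw [this]
    exact mul_mem (hin s hs hps u) (hin r hr hpr t)
  have m2 : g * (Y r t * Y s u * wdY Y (D.commWord K r s t u)) * g⁻¹ ∈ NL Y P := by
    have : g * (Y r t * Y s u * wdY Y (D.commWord K r s t u)) * g⁻¹ =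
        (g * Y r t * g⁻¹) * (g * Y s u * g⁻¹) * (g * wdY Y (D.commWord K r s t u) * g⁻¹) := by group
    rw [this]
    exact mul_mem (mul_mem (hin r hr hpr t) (hin s hs hps u)) (hw _ hcw)
  have e : C.ψ (g * (Y s u * Y r t) * g⁻¹) =
      C.ψ (g * (Y r t * Y s u * wdY Y (D.commWord K r s t u)) * g⁻¹) := by
    have e0 := A.hB.comm_xg hr hs h1 h2 t u
    rw [mul_assoc, inv_mul_eq_iff_eq_mul, ← mul_assoc] at e0
    simp only [map_mul, hY.ψY r hr, hY.ψY s hs, hY.ψ_wdY _ (fun p hp => (hcw p hp).1), e0]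
  have := hY.NL_inj A hP m1 m2 e
  exact mul_left_cancel (mul_right_cancel this)

/-- the central extension as a group satisfying (R1), (R2) -/
def YA.toStD (hP : HL D 1 P) (hmem : ∀ r, r ∈ P ↔ (r < D.nroots ∧ 0 < fE D 1 r)) (htr : TrOK D) : StD D K E where
  X := Y
  θ := C.ψ
  add := fun r hr t u => hY.add r hr t u
  comm := fun _ _ hr hs h1 h2 t u => hY.comm A hP hmem htr hr hs h1 h2 t u
  θX := fun r hr t => by rw [hY.ψY r hr t]; rfl

end CExt

end Cfsg.Agent.Lib.Helper17
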