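import Cfsg.Agent.Lib.Helper17.UgY

set_option autoImplicit false

/-! Central extensions of the Chevalley group: the canonical lifts `Y q t` of the root elements, for the roots
on which the torus acts non-trivially. -/

namespace Cfsg.Agent.Lib.Helper17

open Cfsg.Lie Matrix Cfsg.Agent.Lib.Helper18 Cfsg.Agent.Lib.Helper36

variable {D : ChevalleyDatum} {T : Fast} {W : WTab} {K : Type*} [Field K] {E : Type*} [Group E]

namespace CExt

variable (C : CExt D K E) {R : ℕ → Prop}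

/-- torus hypotheses for the roots satisfying `R` -/
structure TorR (hB : Base D K) (R : ℕ → Prop) : Prop where
  self : ∀ q, q < D.nroots → R q → ∃ (h : GL D.Idx K) (χ : K), TorG hB h q χ ∧ χ ≠ 1
  ab : ∀ q, q < D.nroots → R q → C.Ab hB q

/-- canonical lifts of the root elements -/
structure YR (hB : Base D K) (R : ℕ → Prop) (Y : ℕ → K → E) : Prop where
  ψY : ∀ q, q < D.nroots → R q → ∀ t, C.ψ (Y q t) = hB.xg q t
  cmY : ∀ q, q < D.nroots → R q → ∀ (h e : E) (χ t : K), C.Tor hB h q χ → C.ψ e = hB.xg q t →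
    cm h e = Y q ((χ - 1) * t)
  ab : ∀ q, q < D.nroots → R q → C.Ab hB q

lemma torR_self (A : AllH D T W K) (H : C.TorR A.hB R) {q : ℕ} (hq : q < D.nroots) (hR : R q) :
    ∃ (h : E) (χ : K), C.Tor A.hB h q χ ∧ χ - 1 ≠ 0 := by
  obtain ⟨h, χ, hT, hχ⟩ := H.self q hq hR
  refine ⟨C.lft h, χ, ?_, sub_ne_zero.mpr hχ⟩
  unfold Tor
  rw [C.ψ_lft (A.hB.H_le_group A.hT hT.1)]
  exact hT

theorem exists_YR (A : AllH D T W K) (H : C.TorR A.hB R) : ∃ Y : ℕ → K → E, C.YR A.hB R Y := by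
  classical
  have hab := H.ab
  have hl : ∀ q, q < D.nroots → ∀ t, C.ψ (C.lft (A.hB.xg q t)) = A.hB.xg q t :=
    fun q hq t => C.ψ_lft (A.hB.xg_mem_group hq t)
  have hex : ∀ q : ℕ, ∃ f : K → E, q < D.nroots → R q → (∀ t, C.ψ (f t) = A.hB.xg q t) ∧
      ∀ (h e : E) (χ t : K), C.Tor A.hB h q χ → C.ψ e = A.hB.xg q t → cm h e = f ((χ - 1) * t) := by
    intro q
    by_cases hq : q < D.nroots ∧ R q
    · obtain ⟨hq, hR⟩ := hq
      obtain ⟨h₀, χ₀, hT₀, hc⟩ := C.torR_self A H hq hR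
      refine ⟨fun t => cm h₀ (C.lft (A.hB.xg q (t / (χ₀ - 1)))), fun _ _ => ⟨fun t => ?_, ?_⟩⟩
      · rw [ψ_cm_tor hT₀ (hl q hq _), mul_div_cancel₀ _ hc]
      · intro h e χ t hT he
        have e1 : C.ψ e = C.ψ (cm h₀ (C.lft (A.hB.xg q (t / (χ₀ - 1))))) := by
          rw [ψ_cm_tor hT₀ (hl q hq _), mul_div_cancel₀ _ hc, he]
        rw [C.cm_congr rfl e1, cm_swap (hab q hq hR) hT₀ hT (hl q hq _)]
        apply C.cm_congr rfl
        rw [ψ_cm_tor hT (hl q hq _), hl q hq, mul_div_assoc]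
    · exact ⟨fun _ => 1, fun h h' => absurd ⟨h, h'⟩ hq⟩
  choose Y hY using hex
  exact ⟨Y, fun q hq hR => (hY q hq hR).1, fun q hq hR => (hY q hq hR).2, hab⟩

variable {C} {Y : ℕ → K → E}

section basic

variable (A : AllH D T W K) (H : C.TorR A.hB R) (hY : C.YR A.hB R Y)

include H hY

lemma YR.exists_cm {q : ℕ} (hq : q < D.nroots) (hR : R q) :
    ∃ (h : E) (χ : K), C.Tor A.hB h q χ ∧ χ - 1 ≠ 0 ∧
      ∀ t, Y q t = cm h (C.lft (A.hB.xg q (t / (χ - 1)))) := by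
  obtain ⟨h₀, χ₀, hT₀, hc⟩ := C.torR_self A H hq hR
  refine ⟨h₀, χ₀, hT₀, hc, fun t => ?_⟩
  rw [hY.cmY q hq hR _ _ _ _ hT₀ (C.ψ_lft (A.hB.xg_mem_group hq _)), mul_div_cancel₀ _ hc]

lemma YR.add {q : ℕ} (hq : q < D.nroots) (hR : R q) (t u : K) : Y q t * Y q u = Y q (t + u) := by
  obtain ⟨h₀, χ₀, hT₀, hc, e⟩ := hY.exists_cm A H hq hR
  have hl : ∀ t, C.ψ (C.lft (A.hB.xg q t)) = A.hB.xg q t := fun t => C.ψ_lft (A.hB.xg_mem_group hq t)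
  rw [e t, e u, ← cm_add (hY.ab q hq hR) hT₀ (hl _) (hl _), e (t + u)]
  apply C.cm_congr rfl
  rw [map_mul, hl, hl, hl, A.hB.xg_add, add_div]

lemma YR.conj_tor {q : ℕ} (hq : q < D.nroots) (hR : R q) {h : E} {χ : K} (hT : C.Tor A.hB h q χ) (t : K) :
    h * Y q t * h⁻¹ = Y q (χ * t) := by
  have e1 : h * Y q t * h⁻¹ = cm h (Y q t) * Y q t := by unfold cm; group
  rw [e1, hY.cmY q hq hR _ _ _ _ hT (hY.ψY q hq hR t), hY.add A H hq hR]
  congr 1; ring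

lemma YR.conj {g : E} {q q' : ℕ} {c : K} (hq : q < D.nroots) (hR : R q) (hq' : q' < D.nroots) (hR' : R q')
    (hc : c ≠ 0)
    (hN : ∀ h ∈ D.diagonalSubgroup K, C.ψ g * h * (C.ψ g)⁻¹ ∈ D.diagonalSubgroup K)
    (hx : ∀ v, C.ψ g * A.hB.xg q v * (C.ψ g)⁻¹ = A.hB.xg q' (c * v)) (t : K) :
    g * Y q t * g⁻¹ = Y q' (c * t) := by
  obtain ⟨h₀, χ₀, hT₀, hc₀, e⟩ := hY.exists_cm A H hq hR
  have hl : ∀ t, C.ψ (C.lft (A.hB.xg q t)) = A.hB.xg q t := fun t => C.ψ_lft (A.hB.xg_mem_group hq t)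
  have hT' : C.Tor A.hB (g * h₀ * g⁻¹) q' χ₀ := by
    refine ⟨?_, fun v => ?_⟩
    · rw [map_mul, map_mul, map_inv]; exact hN _ hT₀.1
    · have e1 : A.hB.xg q' v = C.ψ g * A.hB.xg q (c⁻¹ * v) * (C.ψ g)⁻¹ := by
        rw [hx, mul_inv_cancel_left₀ hc]
      have e2 := hT₀.2 (c⁻¹ * v)
      rw [map_mul, map_mul, map_inv, e1]
      calc C.ψ g * C.ψ h₀ * (C.ψ g)⁻¹ * (C.ψ g * A.hB.xg q (c⁻¹ * v) * (C.ψ g)⁻¹) *
            (C.ψ g * C.ψ h₀ * (C.ψ g)⁻¹)⁻¹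
          = C.ψ g * (C.ψ h₀ * A.hB.xg q (c⁻¹ * v) * (C.ψ h₀)⁻¹) * (C.ψ g)⁻¹ := by group
        _ = _ := by
          rw [e2, hx]
          congr 1
          field_simp
  rw [e t, conj_cm, hY.cmY q' hq' hR' _ _ χ₀ (c * (t / (χ₀ - 1))) hT'
    (by rw [map_mul, map_mul, map_inv, hl, hx])]
  congr 1
  field_simp

end basic

end CExt

end Cfsg.Agent.Lib.Helper17
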