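import Cfsg.Agent.Lib.Helper17.UhF3
import Cfsg.Agent.Lib.Helper17.UhY
import Cfsg.Agent.Lib.Helper17.UhNL
import Cfsg.Agent.Lib.Helper17.UgPair

set_option autoImplicit false

/-! Central extensions of the Chevalley group of type `B₂` over the field with three elements. -/

namespace Cfsg.Agent.Lib.Helper17

open Cfsg.Lie Matrix Cfsg.Agent.Lib.Helper18 Cfsg.Agent.Lib.Helper36

variable {D : ChevalleyDatum} {T : Fast} {W : WTab} {K : Type*} [Field K] {E : Type*} [Group E]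

/-- the field has three elements -/
structure IsF3 (K : Type*) [Field K] : Prop where
  cases : ∀ t : K, t = 0 ∨ t = 1 ∨ t = -1
  three : (3 : K) = 0

lemma IsF3.neg_one_ne (F : IsF3 K) : (-1 : K) ≠ 1 := by
  intro e
  have : (1 : K) = 0 := by linear_combination F.three + e
  exact one_ne_zero this

lemma xg_cm_single (hB : Base D K) {c d s : ℕ} {k : ℤ} (hc : c < D.nroots) (hd : d < D.nroots) (d3 : d ≠ c)
    (d4 : d ≠ D.neg c) (h : D.commTerms c d = [(s, k, 1, 1)]) (a b : K) :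
    cm (hB.xg d b) (hB.xg c a) = hB.xg s (-(k * a * b)) := by
  have := hB.comm_xg hc hd d3 d4 (-a) (-b)
  unfold ChevalleyDatum.commWord at this
  rw [h] at this
  simp only [List.map_cons, List.map_nil, Base.wg, List.prod_cons, List.prod_nil, mul_one, neg_neg, pow_one] at this
  rw [hB.xg_inv, neg_neg] at this
  unfold cm
  rw [hB.xg_inv d, hB.xg_inv c, mul_assoc, mul_assoc, ← mul_assoc (hB.xg c a), this, ← mul_assoc,
    hB.xg_add, add_neg_cancel, hB.xg_zero, one_mul]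
  congr 1; ring

/-- bilinearity of a commutator over the field with three elements -/
lemma cm_bilin_F3 (F : IsF3 K) {f g : K → E} (hf : ∀ a b, f a * f b = f (a + b)) (hg : ∀ a b, g a * g b = g (a + b))
    (h1 : ∀ a b c, f c * cm (f b) (g a) = cm (f b) (g a) * f c)
    (h2 : ∀ a b c, g c * cm (f b) (g a) = cm (f b) (g a) * g c) :
    (∀ a b, cm (f b) (g a) = cm (f (a * b)) (g 1)) ∧
      (∀ t u, cm (f t) (g 1) * cm (f u) (g 1) = cm (f (t + u)) (g 1)) := by
  have f0 : f 0 = 1 := by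
    have := hf 0 0
    rw [add_zero] at this
    exact mul_eq_left.mp this
  have g0 : g 0 = 1 := by
    have := hg 0 0
    rw [add_zero] at this
    exact mul_eq_left.mp this
  have addL : ∀ a b b', cm (f (b + b')) (g a) = cm (f b') (g a) * cm (f b) (g a) := by
    intro a b b'
    rw [← hf, cm_mul_left, h1, mul_inv_cancel_right]
  have addR : ∀ a a' b, cm (f b) (g (a + a')) = cm (f b) (g a) * cm (f b) (g a') := by
    intro a a' b
    rw [← hg, cm_mul_right, h2, mul_inv_cancel_right]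
  have zL : ∀ a, cm (f 0) (g a) = 1 := by intro a; rw [f0]; unfold cm; group
  have zR : ∀ b, cm (f b) (g 0) = 1 := by intro b; rw [g0]; unfold cm; group
  have negL : ∀ a b, cm (f (-b)) (g a) = (cm (f b) (g a))⁻¹ := by
    intro a b
    have := addL a b (-b)
    rw [add_neg_cancel, zL] at this
    exact eq_inv_of_mul_eq_one_left this.symm
  have negR : ∀ a b, cm (f b) (g (-a)) = (cm (f b) (g a))⁻¹ := by
    intro a b
    have := addR a (-a) b
    rw [add_neg_cancel, zR] at this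
    exact eq_inv_of_mul_eq_one_right this.symm
  refine ⟨fun a b => ?_, fun t u => ?_⟩
  · rcases F.cases a with rfl | rfl | rfl
    · rw [zR, zero_mul, zL]
    · rw [one_mul]
    · rw [negR, neg_one_mul, negL]
  · rw [add_comm, addL]

/-- the short roots of `B₂` -/
def shB (q : ℕ) : Prop := q = 1 ∨ q = 2 ∨ q = 5 ∨ q = 6

/-- the long roots of `B₂` -/
def lgB (q : ℕ) : Prop := q = 0 ∨ q = 3 ∨ q = 4 ∨ q = 7

lemma shB.lt {q : ℕ} (h : shB q) : q < chevB2.nroots := by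
  rcases h with rfl | rfl | rfl | rfl <;> decide

lemma lgB.lt {q : ℕ} (h : lgB q) : q < chevB2.nroots := by
  rcases h with rfl | rfl | rfl | rfl <;> decide

lemma torG_B2_short (hB : Base chevB2 K) {q : ℕ} (hq : shB q) : TorG hB (hB.hg 0 (-1)) q (-1) := by
  have := torG_hg hB (r := 0) (q := q) (by decide) hq.lt (c := (-1 : K)) (by simp)
  have ho : Odd (chevB2.pairing 0 q) := by
    rw [Int.odd_iff]
    rcases hq with rfl | rfl | rfl | rfl <;> decide
  rwa [ho.neg_one_zpow] at this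

lemma torG_B2_long (hB : Base chevB2 K) {q : ℕ} (hq : lgB q) : TorG hB (hB.hg 0 (-1)) q 1 := by
  have := torG_hg hB (r := 0) (q := q) (by decide) hq.lt (c := (-1 : K)) (by simp)
  have ho : Even (chevB2.pairing 0 q) := by
    rw [Int.even_iff]
    rcases hq with rfl | rfl | rfl | rfl <;> decide
  rwa [ho.neg_one_zpow] at this

/-- the lifts of the root elements -/
def YB (Ys : ℕ → K → E) (q : ℕ) (t : K) : E :=
  if q = 0 then cm (Ys 2 t) (Ys 1 1) else if q = 3 then cm (Ys 1 t) (Ys 5 1)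
  else if q = 4 then cm (Ys 2 t) (Ys 6 1) else if q = 7 then cm (Ys 6 t) (Ys 5 1) else Ys q t

lemma YB_short (Ys : ℕ → K → E) {q : ℕ} (hq : shB q) (t : K) : YB Ys q t = Ys q t := by
  rcases hq with rfl | rfl | rfl | rfl <;> rfl

/-- table check for a decomposition `q = c + d` of a long root -/
def decB (c d q : ℕ) : Bool :=
  decide (d ≠ c) && decide (d ≠ chevB2.neg c) && decide (q ≠ c) && decide (q ≠ chevB2.neg c) && decide (q ≠ d) &&
    decide (q ≠ chevB2.neg d) && decide (chevB2.commTerms c d = [(q, 2, 1, 1)]) &&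
      decide (chevB2.commTerms c q = []) && decide (chevB2.commTerms d q = [])

namespace CExt

variable (C : CExt chevB2 K E) (A : AllH chevB2 T W K) (F : IsF3 K)

include F

lemma torR_B2 : C.TorR A.hB shB where
  self := fun _ _ hR => ⟨A.hB.hg 0 (-1), -1, torG_B2_short A.hB hR, F.neg_one_ne⟩
  ab := fun _ hq _ => C.ab_F3 A.hB F.cases hq

lemma cm_sl {c q : ℕ} (hc : shB c) (hq : lgB q) (h1 : q ≠ c) (h2 : q ≠ chevB2.neg c)
    (hn : chevB2.commTerms c q = []) : C.Cm A.hB c q :=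
  cm_of_sign A F.three (fun t u => xg_comm_of_nil A.hB hc.lt hq.lt h1 h2 hn t u) (torG_B2_short A.hB hc)
    (torG_B2_long A.hB hq)

variable {C} {Ys : ℕ → K → E} (hY : C.YR A.hB shB Ys)

include hY

lemma dec_main {c d q : ℕ} (hc : shB c) (hd : shB d) (hq : lgB q) (h : decB c d q = true) :
    (∀ a b, cm (Ys d b) (Ys c a) = cm (Ys d (a * b)) (Ys c 1)) ∧
      (∀ t u, cm (Ys d t) (Ys c 1) * cm (Ys d u) (Ys c 1) = cm (Ys d (t + u)) (Ys c 1)) ∧
      (∀ t, C.ψ (cm (Ys d t) (Ys c 1)) = A.hB.xg q t) := by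
  unfold decB at h
  simp only [Bool.and_eq_true, decide_eq_true_eq] at h
  obtain ⟨⟨⟨⟨⟨⟨⟨⟨d3, d4⟩, q1⟩, q2⟩, q3⟩, q4⟩, t1⟩, t2⟩, t3⟩ := h
  have H := C.torR_B2 A F
  have hψ : ∀ a b, C.ψ (cm (Ys d b) (Ys c a)) = A.hB.xg q (a * b) := by
    intro a b
    rw [C.ψ_cm, hY.ψY d hd.lt hd, hY.ψY c hc.lt hc, xg_cm_single A.hB hc.lt hd.lt d3 d4 t1]
    congr 1
    push_cast
    linear_combination (-(a * b)) * F.three
  have hcq := C.cm_sl A F hc hq q1 q2 t2
  have hdq := C.cm_sl A F hd hq q3 q4 t3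
  obtain ⟨b1, b2⟩ := cm_bilin_F3 F (f := Ys d) (g := Ys c) (hY.add A H hd.lt hd) (hY.add A H hc.lt hc)
    (fun a b c' => hdq _ _ _ _ (hY.ψY d hd.lt hd c') (hψ a b))
    (fun a b c' => hcq _ _ _ _ (hY.ψY c hc.lt hc c') (hψ a b))
  refine ⟨b1, b2, fun t => ?_⟩
  rw [hψ, one_mul]


/-- the decompositions of the long roots, in both orders -/
lemma dec_pos {c d q : ℕ} (hc : shB c) (hd : shB d) (hq : lgB q) (h : decB c d q = true)
    (hdef : ∀ t, YB Ys q t = cm (Ys d t) (Ys c 1)) (a b : K) : cm (Ys d b) (Ys c a) = YB Ys q (1 * a * b) := by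
  rw [hdef, (dec_main A F hY hc hd hq h).1, one_mul]

lemma YB_add_long {c d q : ℕ} (hc : shB c) (hd : shB d) (hq : lgB q) (h : decB c d q = true)
    (hdef : ∀ t, YB Ys q t = cm (Ys d t) (Ys c 1)) (t u : K) : YB Ys q t * YB Ys q u = YB Ys q (t + u) := by
  rw [hdef, hdef, hdef, (dec_main A F hY hc hd hq h).2.1]

lemma YB_ψ_long {c d q : ℕ} (hc : shB c) (hd : shB d) (hq : lgB q) (h : decB c d q = true)
    (hdef : ∀ t, YB Ys q t = cm (Ys d t) (Ys c 1)) (t : K) : C.ψ (YB Ys q t) = A.hB.xg q t := by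
  rw [hdef, (dec_main A F hY hc hd hq h).2.2]

lemma dec_neg {c d q : ℕ} (hc : shB c) (hd : shB d) (hq : lgB q) (h : decB c d q = true)
    (hdef : ∀ t, YB Ys q t = cm (Ys d t) (Ys c 1)) (a b : K) : cm (Ys c b) (Ys d a) = YB Ys q (-1 * a * b) := by
  rw [← cm_inv_swap, dec_pos A F hY hc hd hq h hdef, inv_eq_iff_mul_eq_one, YB_add_long A F hY hc hd hq h hdef]
  have e : 1 * b * a + -1 * a * b = 0 := by ring
  have := YB_add_long A F hY hc hd hq h hdef 0 0
  rw [add_zero] at this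
  rw [e]
  exact mul_eq_left.mp this

omit F hY in
lemma conjL {g : E} {q c d q' c' d' : ℕ} {ε ηd ηc : K} (hq : ∀ t, YB Ys q t = cm (Ys d t) (Ys c 1))
    (hd : ∀ t, g * Ys d t * g⁻¹ = Ys d' (ηd * t)) (hc : ∀ t, g * Ys c t * g⁻¹ = Ys c' (ηc * t))
    (hdec : ∀ a b, cm (Ys d' b) (Ys c' a) = YB Ys q' (ε * a * b)) (t : K) :
    g * YB Ys q t * g⁻¹ = YB Ys q' (ε * ηc * ηd * t) := by
  rw [hq, conj_cm, hd, hc, hdec]
  congr 1; ring

lemma YB_ψ {q : ℕ} (hq : q < chevB2.nroots) (t : K) : C.ψ (YB Ys q t) = A.hB.xg q t := by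
  have hq' : q < 8 := hq
  interval_cases q
  · exact YB_ψ_long A F hY (c := 1) (d := 2) (by simp [shB]) (by simp [shB]) (by simp [lgB]) (by decide) (fun _ => rfl) t
  · exact hY.ψY 1 hq (by simp [shB]) t
  · exact hY.ψY 2 hq (by simp [shB]) t
  · exact YB_ψ_long A F hY (c := 5) (d := 1) (by simp [shB]) (by simp [shB]) (by simp [lgB]) (by decide) (fun _ => rfl) t
  · exact YB_ψ_long A F hY (c := 6) (d := 2) (by simp [shB]) (by simp [shB]) (by simp [lgB]) (by decide) (fun _ => rfl) t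
  · exact hY.ψY 5 hq (by simp [shB]) t
  · exact hY.ψY 6 hq (by simp [shB]) t
  · exact YB_ψ_long A F hY (c := 5) (d := 6) (by simp [shB]) (by simp [shB]) (by simp [lgB]) (by decide) (fun _ => rfl) t

lemma YB_add {q : ℕ} (hq : q < chevB2.nroots) (t u : K) : YB Ys q t * YB Ys q u = YB Ys q (t + u) := by
  have hq' : q < 8 := hq
  have H := C.torR_B2 A F
  interval_cases q
  · exact YB_add_long A F hY (c := 1) (d := 2) (by simp [shB]) (by simp [shB]) (by simp [lgB]) (by decide) (fun _ => rfl) t u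
  · exact hY.add A H hq (by simp [shB]) t u
  · exact hY.add A H hq (by simp [shB]) t u
  · exact YB_add_long A F hY (c := 5) (d := 1) (by simp [shB]) (by simp [shB]) (by simp [lgB]) (by decide) (fun _ => rfl) t u
  · exact YB_add_long A F hY (c := 6) (d := 2) (by simp [shB]) (by simp [shB]) (by simp [lgB]) (by decide) (fun _ => rfl) t u
  · exact hY.add A H hq (by simp [shB]) t u
  · exact hY.add A H hq (by simp [shB]) t u
  · exact YB_add_long A F hY (c := 5) (d := 6) (by simp [shB]) (by simp [shB]) (by simp [lgB]) (by decide) (fun _ => rfl) t u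

/-- all decompositions -/
lemma dec_all : (∀ a b : K, cm (Ys 2 b) (Ys 1 a) = YB Ys 0 (1 * a * b)) ∧
    (∀ a b : K, cm (Ys 1 b) (Ys 2 a) = YB Ys 0 (-1 * a * b)) ∧
    (∀ a b : K, cm (Ys 1 b) (Ys 5 a) = YB Ys 3 (1 * a * b)) ∧
    (∀ a b : K, cm (Ys 5 b) (Ys 1 a) = YB Ys 3 (-1 * a * b)) ∧
    (∀ a b : K, cm (Ys 2 b) (Ys 6 a) = YB Ys 4 (1 * a * b)) ∧
    (∀ a b : K, cm (Ys 6 b) (Ys 2 a) = YB Ys 4 (-1 * a * b)) ∧
    (∀ a b : K, cm (Ys 6 b) (Ys 5 a) = YB Ys 7 (1 * a * b)) ∧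
    (∀ a b : K, cm (Ys 5 b) (Ys 6 a) = YB Ys 7 (-1 * a * b)) :=
  ⟨dec_pos A F hY (by simp [shB]) (by simp [shB]) (by simp [lgB]) (by decide) (fun _ => rfl),
   dec_neg A F hY (by simp [shB]) (by simp [shB]) (by simp [lgB]) (by decide) (fun _ => rfl),
   dec_pos A F hY (by simp [shB]) (by simp [shB]) (by simp [lgB]) (by decide) (fun _ => rfl),
   dec_neg A F hY (by simp [shB]) (by simp [shB]) (by simp [lgB]) (by decide) (fun _ => rfl),
   dec_pos A F hY (by simp [shB]) (by simp [shB]) (by simp [lgB]) (by decide) (fun _ => rfl),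
   dec_neg A F hY (by simp [shB]) (by simp [shB]) (by simp [lgB]) (by decide) (fun _ => rfl),
   dec_pos A F hY (by simp [shB]) (by simp [shB]) (by simp [lgB]) (by decide) (fun _ => rfl),
   dec_neg A F hY (by simp [shB]) (by simp [shB]) (by simp [lgB]) (by decide) (fun _ => rfl)⟩

/-- lifts of the fundamental reflections permute the short lifts -/
lemma mvS {i : ℕ} (hi : i < chevB2.rank) {q : ℕ} (hq : shB q) :
    ∃ c : K, c ≠ 0 ∧ ∀ t, C.lft (A.hB.ng (chevB2.simple i) 1) * Ys q t * (C.lft (A.hB.ng (chevB2.simple i) 1))⁻¹ =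
      Ys (chevB2.reflectRoot i q) (c * t) := by
  have H := C.torR_B2 A F
  have hnN := A.hB.ng_one_mem (A.hT.simple_lt i hi)
  have hl : C.ψ (C.lft (A.hB.ng (chevB2.simple i) 1)) = A.hB.ng (chevB2.simple i) 1 :=
    C.ψ_lft (A.hB.N_le_group A.hT hnN)
  obtain ⟨η, hη, h2⟩ := A.hB.ng_conj_xg hi hq.lt
  have hη0 : η ≠ 0 := by rcases hη with rfl | rfl <;> simp
  have hq' : shB (chevB2.reflectRoot i q) := by
    have hi' : i < 2 := hi
    interval_cases i <;> rcases hq with rfl | rfl | rfl | rfl <;> (unfold shB; decide)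
  refine ⟨η, hη0, fun t => ?_⟩
  apply hY.conj A H hq.lt hq hq'.lt hq' hη0
  · rw [hl]; exact (A.hB.N_conj_H A.hT hnN).1
  · intro v; rw [hl]; exact (h2 v).1


lemma mvB {i : ℕ} (hi : i < chevB2.rank) : ∃ g : E, ∀ q, q < chevB2.nroots → ∃ c : K, c ≠ 0 ∧
    ∀ t, g * YB Ys q t * g⁻¹ = YB Ys (chevB2.reflectRoot i q) (c * t) := by
  refine ⟨C.lft (A.hB.ng (chevB2.simple i) 1), fun q hq => ?_⟩
  obtain ⟨p0, m0, p3, m3, p4, m4, p7, m7⟩ := dec_all A F hY
  have hi' : i < 2 := hi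
  have hq' : q < 8 := hq
  obtain ⟨η1, n1, e1⟩ := mvS A F hY hi (q := 1) (by simp [shB])
  obtain ⟨η2, n2, e2⟩ := mvS A F hY hi (q := 2) (by simp [shB])
  obtain ⟨η5, n5, e5⟩ := mvS A F hY hi (q := 5) (by simp [shB])
  obtain ⟨η6, n6, e6⟩ := mvS A F hY hi (q := 6) (by simp [shB])
  interval_cases i
  · rw [show chevB2.reflectRoot 0 1 = 1 from by decide] at e1
    rw [show chevB2.reflectRoot 0 2 = 5 from by decide] at e2
    rw [show chevB2.reflectRoot 0 5 = 2 from by decide] at e5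
    rw [show chevB2.reflectRoot 0 6 = 6 from by decide] at e6
    interval_cases q
    · rw [show chevB2.reflectRoot 0 0 = 3 from by decide]
      exact ⟨-1 * η1 * η2, by simp [n1, n2], fun t => conjL (fun _ => rfl) e2 e1 m3 t⟩
    · rw [show chevB2.reflectRoot 0 1 = 1 from by decide]
      exact ⟨η1, n1, fun t => e1 t⟩
    · rw [show chevB2.reflectRoot 0 2 = 5 from by decide]
      exact ⟨η2, n2, fun t => e2 t⟩
    · rw [show chevB2.reflectRoot 0 3 = 0 from by decide]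
      exact ⟨-1 * η5 * η1, by simp [n5, n1], fun t => conjL (fun _ => rfl) e1 e5 m0 t⟩
    · rw [show chevB2.reflectRoot 0 4 = 7 from by decide]
      exact ⟨-1 * η6 * η2, by simp [n6, n2], fun t => conjL (fun _ => rfl) e2 e6 m7 t⟩
    · rw [show chevB2.reflectRoot 0 5 = 2 from by decide]
      exact ⟨η5, n5, fun t => e5 t⟩
    · rw [show chevB2.reflectRoot 0 6 = 6 from by decide]
      exact ⟨η6, n6, fun t => e6 t⟩
    · rw [show chevB2.reflectRoot 0 7 = 4 from by decide]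
      exact ⟨-1 * η5 * η6, by simp [n5, n6], fun t => conjL (fun _ => rfl) e6 e5 m4 t⟩
  · rw [show chevB2.reflectRoot 1 1 = 2 from by decide] at e1
    rw [show chevB2.reflectRoot 1 2 = 1 from by decide] at e2
    rw [show chevB2.reflectRoot 1 5 = 6 from by decide] at e5
    rw [show chevB2.reflectRoot 1 6 = 5 from by decide] at e6
    interval_cases q
    · rw [show chevB2.reflectRoot 1 0 = 0 from by decide]
      exact ⟨-1 * η1 * η2, by simp [n1, n2], fun t => conjL (fun _ => rfl) e2 e1 m0 t⟩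
    · rw [show chevB2.reflectRoot 1 1 = 2 from by decide]
      exact ⟨η1, n1, fun t => e1 t⟩
    · rw [show chevB2.reflectRoot 1 2 = 1 from by decide]
      exact ⟨η2, n2, fun t => e2 t⟩
    · rw [show chevB2.reflectRoot 1 3 = 4 from by decide]
      exact ⟨1 * η5 * η1, by simp [n5, n1], fun t => conjL (fun _ => rfl) e1 e5 p4 t⟩
    · rw [show chevB2.reflectRoot 1 4 = 3 from by decide]
      exact ⟨1 * η6 * η2, by simp [n6, n2], fun t => conjL (fun _ => rfl) e2 e6 p3 t⟩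
    · rw [show chevB2.reflectRoot 1 5 = 6 from by decide]
      exact ⟨η5, n5, fun t => e5 t⟩
    · rw [show chevB2.reflectRoot 1 6 = 5 from by decide]
      exact ⟨η6, n6, fun t => e6 t⟩
    · rw [show chevB2.reflectRoot 1 7 = 7 from by decide]
      exact ⟨-1 * η5 * η6, by simp [n5, n6], fun t => conjL (fun _ => rfl) e6 e5 m7 t⟩

omit F hY in
lemma xg45 (t u : K) : A.hB.xg 4 t * A.hB.xg 5 u * (A.hB.xg 4 t)⁻¹ =
    A.hB.xg 5 u * (A.hB.xg 6 (t * u) * A.hB.xg 7 (-(t * u ^ 2))) := by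
  have := A.hB.comm_xg (r := 4) (s := 5) (by decide) (by decide) (by decide) (by decide) (-t) u
  unfold ChevalleyDatum.commWord at this
  rw [show chevB2.commTerms 4 5 = [(6, 1, 1, 1), (7, -1, 1, 2)] from by decide] at this
  simp only [List.map_cons, List.map_nil, Base.wg, List.prod_cons, List.prod_nil, mul_one, neg_neg, pow_one] at this
  rw [A.hB.xg_inv, neg_neg] at this
  rw [A.hB.xg_inv, this]
  congr 3
  · push_cast; ring
  · push_cast; ring

omit F hY in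
lemma cm_eq_one {a b : E} (h : a * b = b * a) : cm a b = 1 := by
  unfold cm; rw [h, mul_inv_cancel_right, mul_inv_cancel]

omit F hY in
lemma conj_of_comm {a b : E} (h : b * a = a * b) : a * b * a⁻¹ = b := by
  rw [← h, mul_inv_cancel_right]

lemma comm64 (t u : K) : Ys 6 u * YB Ys 4 t = YB Ys 4 t * Ys 6 u :=
  C.cm_sl A F (c := 6) (q := 4) (by simp [shB]) (by simp [lgB]) (by decide) (by decide) (by decide) _ _ u t
    (hY.ψY 6 (by decide) (by simp [shB]) u) (YB_ψ A F hY (by decide) t)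

lemma comm57 (t u : K) : Ys 5 u * YB Ys 7 t = YB Ys 7 t * Ys 5 u :=
  C.cm_sl A F (c := 5) (q := 7) (by simp [shB]) (by simp [lgB]) (by decide) (by decide) (by decide) _ _ u t
    (hY.ψY 5 (by decide) (by simp [shB]) u) (YB_ψ A F hY (by decide) t)

lemma comm67 (t u : K) : Ys 6 u * YB Ys 7 t = YB Ys 7 t * Ys 6 u :=
  C.cm_sl A F (c := 6) (q := 7) (by simp [shB]) (by simp [lgB]) (by decide) (by decide) (by decide) _ _ u t
    (hY.ψY 6 (by decide) (by simp [shB]) u) (YB_ψ A F hY (by decide) t)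

lemma conj47 (t u : K) : YB Ys 4 t * YB Ys 7 u * (YB Ys 4 t)⁻¹ = YB Ys 7 u := by
  have ψ5 := hY.ψY 5 (by decide) (by simp [shB])
  have ψ6 := hY.ψY 6 (by decide) (by simp [shB])
  have e0 : YB Ys 7 u = cm (Ys 6 u) (Ys 5 1) := rfl
  rw [e0, conj_cm, conj_of_comm (comm64 A F hY t u)]
  have e1 : C.ψ (YB Ys 4 t * Ys 5 1 * (YB Ys 4 t)⁻¹) =
      C.ψ (Ys 5 1 * (Ys 6 (t * 1) * YB Ys 7 (-(t * 1 ^ 2)))) := by
    rw [map_mul, map_mul, map_inv, map_mul, map_mul, YB_ψ A F hY (by decide), YB_ψ A F hY (by decide), ψ5, ψ6, xg45 A]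
  rw [C.cm_congr rfl e1, cm_mul_right]
  have e2 : cm (Ys 6 u) (Ys 6 (t * 1) * YB Ys 7 (-(t * 1 ^ 2))) = 1 := by
    apply cm_eq_one
    rw [← mul_assoc, hY.ab 6 (by decide) (by simp [shB]) _ _ _ _ (ψ6 u) (ψ6 (t * 1)), mul_assoc, comm67 A F hY,
      mul_assoc]
  rw [e2, mul_one, mul_inv_cancel, mul_one]

lemma nl45 (t u : K) : YB Ys 4 t * YB Ys 5 u * (YB Ys 4 t)⁻¹ ∈ NL (YB Ys) [5, 6, 7] := by
  obtain ⟨p0, m0, p3, m3, p4, m4, p7, m7⟩ := dec_all A F hY
  have H := C.torR_B2 A F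
  have ψ5 := hY.ψY 5 (by decide) (by simp [shB])
  have ψ6 := hY.ψY 6 (by decide) (by simp [shB])
  have hlh : C.ψ (C.lft (A.hB.hg 0 (-1))) = A.hB.hg 0 (-1) :=
    C.ψ_lft (A.hB.H_le_group A.hT (torG_B2_short A.hB (q := 1) (by simp [shB])).1)
  set h : E := C.lft (A.hB.hg 0 (-1)) with hh
  have hT : ∀ q, shB q → C.Tor A.hB h q (-1) := by
    intro q hq
    unfold Tor
    rw [hlh]
    exact torG_B2_short A.hB hq
  have cs : ∀ q, shB q → ∀ v, h * Ys q v * h⁻¹ = Ys q (-1 * v) :=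
    fun q hq v => hY.conj_tor A H hq.lt hq (hT q hq) v
  have c4 : h * YB Ys 4 t * h⁻¹ = YB Ys 4 t := by
    rw [conjL (fun _ => rfl) (cs 2 (by simp [shB])) (cs 6 (by simp [shB])) p4 t]
    congr 1; ring
  have c7 : ∀ v, h * YB Ys 7 v * h⁻¹ = YB Ys 7 v := by
    intro v
    rw [conjL (fun _ => rfl) (cs 6 (by simp [shB])) (cs 5 (by simp [shB])) p7 v]
    congr 1; ring
  have c4' : YB Ys 4 t * h * (YB Ys 4 t)⁻¹ = h := by
    rw [mul_inv_eq_iff_eq_mul] at c4 ⊢
    exact c4.symm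
  have e5 : YB Ys 5 u = cm h (Ys 5 u) := by
    rw [hY.cmY 5 (by decide) (by simp [shB]) h (Ys 5 u) (-1) u (hT 5 (by simp [shB])) (ψ5 u)]
    show Ys 5 u = _
    congr 1
    linear_combination u * F.three
  have e1 : C.ψ (YB Ys 4 t * Ys 5 u * (YB Ys 4 t)⁻¹) =
      C.ψ (Ys 5 u * (Ys 6 (t * u) * YB Ys 7 (-(t * u ^ 2)))) := by
    rw [map_mul, map_mul, map_inv, map_mul, map_mul, YB_ψ A F hY (by decide), YB_ψ A F hY (by decide), ψ5, ψ6, xg45 A]
  rw [e5, conj_cm, c4', C.cm_congr rfl e1]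
  have e2 : cm h (Ys 5 u * (Ys 6 (t * u) * YB Ys 7 (-(t * u ^ 2)))) =
      (h * Ys 5 u * h⁻¹) * ((h * Ys 6 (t * u) * h⁻¹) * (h * YB Ys 7 (-(t * u ^ 2)) * h⁻¹)) *
        (Ys 5 u * (Ys 6 (t * u) * YB Ys 7 (-(t * u ^ 2))))⁻¹ := by
    unfold cm; group
  rw [e2, cs 5 (by simp [shB]), cs 6 (by simp [shB]), c7]
  have m5 : ∀ v, Ys 5 v ∈ NL (YB Ys) [5, 6, 7] := fun v => Y_mem_NL (Y := YB Ys) (s := 5) (by simp) v
  have m6 : ∀ v, Ys 6 v ∈ NL (YB Ys) [5, 6, 7] := fun v => Y_mem_NL (Y := YB Ys) (s := 6) (by simp) v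
  have m7 : ∀ v, YB Ys 7 v ∈ NL (YB Ys) [5, 6, 7] := fun v => Y_mem_NL (Y := YB Ys) (s := 7) (by simp) v
  exact mul_mem (mul_mem (m5 _) (mul_mem (m6 _) (m7 _))) (inv_mem (mul_mem (m5 _) (mul_mem (m6 _) (m7 _))))

lemma nlB : ∀ k L, (k :: L) <:+ [4, 5, 6, 7] → ∀ s ∈ L, ∀ t u : K,
    YB Ys k t * YB Ys s u * (YB Ys k t)⁻¹ ∈ NL (YB Ys) L := by
  intro k L h s hs t u
  obtain ⟨p0, m0, p3, m3, p4, m4, p7, m7⟩ := dec_all A F hY
  simp only [List.suffix_cons_iff, List.suffix_nil] at h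
  rcases h with h | h | h | h | h
  · cases h
    simp only [List.mem_cons, List.not_mem_nil, or_false] at hs
    rcases hs with rfl | rfl | rfl
    · exact nl45 A F hY t u
    · have e : YB Ys 4 t * YB Ys 6 u * (YB Ys 4 t)⁻¹ = YB Ys 6 u := conj_of_comm (comm64 A F hY t u)
      rw [e]
      exact Y_mem_NL (Y := YB Ys) (s := 6) (by simp) u
    · rw [conj47 A F hY]
      exact Y_mem_NL (by simp) u
  · cases h
    simp only [List.mem_cons, List.not_mem_nil, or_false] at hs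
    rcases hs with rfl | rfl
    · have e : YB Ys 5 t * YB Ys 6 u * (YB Ys 5 t)⁻¹ = cm (Ys 5 t) (Ys 6 u) * YB Ys 6 u := by
        show Ys 5 t * Ys 6 u * (Ys 5 t)⁻¹ = cm (Ys 5 t) (Ys 6 u) * Ys 6 u
        unfold cm; group
      rw [e, m7]
      exact mul_mem (Y_mem_NL (by simp) _) (Y_mem_NL (by simp) _)
    · have e : YB Ys 5 t * YB Ys 7 u * (YB Ys 5 t)⁻¹ = YB Ys 7 u := conj_of_comm (comm57 A F hY u t).symm
      rw [e]
      exact Y_mem_NL (by simp) u
  · cases h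
    simp only [List.mem_cons, List.not_mem_nil, or_false] at hs
    subst hs
    have e : YB Ys 6 t * YB Ys 7 u * (YB Ys 6 t)⁻¹ = YB Ys 7 u := conj_of_comm (comm67 A F hY u t).symm
    rw [e]
    exact Y_mem_NL (by simp) u
  · cases h
    simp at hs
  · simp at h

lemma yaB : C.YA A.hB [4, 5, 6, 7] (YB Ys) where
  ψY := fun _ hq t => YB_ψ A F hY hq t
  add := fun _ hq t u => YB_add A F hY hq t u
  mv := fun _ hi => mvB A F hY hi
  nl := nlB A F hY

end CExt

lemma fE_B2 (r : ℕ) : fE chevB2 1 r = rcf chevB2 r 0 + rcf chevB2 r 1 := by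
  unfold fE dJ
  rw [one_mul, show chevB2.rank = 2 from rfl]
  simp [Finset.sum_range_succ]

lemma hl_B2 : HL chevB2 1 [4, 5, 6, 7] ∧ ∀ r, r ∈ [4, 5, 6, 7] ↔ (r < chevB2.nroots ∧ 0 < fE chevB2 1 r) := by
  have hv : ∀ r, r < 8 → fE chevB2 1 r = [-6, -4, -2, -2, 2, 2, 4, 6].getD r 0 := by
    intro r hr
    rw [fE_B2]
    interval_cases r <;> decide
  have hmem : ∀ r, r ∈ [4, 5, 6, 7] ↔ (r < chevB2.nroots ∧ 0 < fE chevB2 1 r) := by
    intro r
    constructor
    · intro h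
      simp only [List.mem_cons, List.not_mem_nil, or_false] at h
      rcases h with rfl | rfl | rfl | rfl <;> refine ⟨by decide, ?_⟩ <;> rw [hv _ (by norm_num)] <;> decide
    · rintro ⟨h1, h2⟩
      have h1' : r < 8 := h1
      rw [hv r h1'] at h2
      interval_cases r <;> first | (exfalso; revert h2; decide) | simp
  refine ⟨⟨by decide, fun r hr => (hmem r).mp hr, ?_, ?_⟩, hmem⟩
  · simp only [List.pairwise_cons, List.mem_cons, List.not_mem_nil, or_false, forall_eq_or_imp, forall_eq,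
      IsEmpty.forall_iff, implies_true, List.Pairwise.nil, and_true]
    rw [hv 4 (by norm_num), hv 5 (by norm_num), hv 6 (by norm_num), hv 7 (by norm_num)]
    decide
  · intro r hr u hu hru
    have := ((hmem r).mp hr).2
    exact (hmem u).mpr ⟨hu, by omega⟩

theorem CExt.exists_std_B2_F3 (C : CExt chevB2 K E) (A : AllH chevB2 T W K) (F : IsF3 K) :
    ∃ S : StD chevB2 K E, S.θ = C.ψ := by
  obtain ⟨Ys, hY⟩ := C.exists_YR A (C.torR_B2 A F)
  exact ⟨(CExt.yaB A F hY).toStD A hl_B2.1 hl_B2.2 trOK_B2, rfl⟩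

end Cfsg.Agent.Lib.Helper17
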