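import Cfsg.Agent.Lib.Helper17.UhA3
import Cfsg.Agent.Lib.Helper17.UgB2

set_option autoImplicit false

/-! Central extensions of the Chevalley group of type `B₂` in characteristic two. -/

namespace Cfsg.Agent.Lib.Helper17

open Cfsg.Lie Matrix Cfsg.Agent.Lib.Helper18 Cfsg.Agent.Lib.Helper36

variable {D : ChevalleyDatum} {T : Fast} {W : WTab} {K : Type*} [Field K] {E : Type*} [Group E]

/-- `[x_c(a), x_d(b)] = x_e(± a b) x_q(± a b²)`, and `X_e` commutes with `X_c`, `X_q` and, in characteristic two,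
with `X_d` -/
def trick3B (D : ChevalleyDatum) (e c d q : ℕ) (k1 k2 k3 : ℤ) : Bool :=
  decide (c < D.nroots) && decide (d < D.nroots) && decide (q < D.nroots) && decide (c ≠ e) &&
    decide (c ≠ D.neg e) && decide (d ≠ e) && decide (d ≠ D.neg e) && decide (d ≠ c) && decide (d ≠ D.neg c) &&
    decide (e ≠ q) && decide (e ≠ D.neg q) && decide (D.commTerms e c = []) &&
      decide (D.commTerms e d = [(q, k3, 1, 1)]) && decide (D.commTerms c d = [(e, k1, 1, 1), (q, k2, 1, 2)]) &&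
      decide (D.commTerms q e = [])

lemma CExt.ab_of_trick3 (C : CExt D K E) (hB : Base D K) {e c d q : ℕ} {k1 k2 k3 : ℤ} (he : e < D.nroots)
    (h : trick3B D e c d q k1 k2 k3 = true) (hk1 : (k1 : K) ≠ 0) (hk3 : (k3 : K) = 0)
    (hK : ∃ v : K, v ≠ 0 ∧ v ≠ 1) : C.Ab hB e := by
  unfold trick3B at h
  simp only [Bool.and_eq_true, decide_eq_true_eq] at h
  obtain ⟨⟨⟨⟨⟨⟨⟨⟨⟨⟨⟨⟨⟨⟨hc, hd⟩, hq⟩, c1⟩, c2⟩, d1⟩, d2⟩, d3⟩, d4⟩, q1⟩, q2⟩, t1⟩, t2⟩, t3⟩, t4⟩ := h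
  intro e₁ e₂ t u h1 h2
  have g1 : ∀ a, hB.xg e t * hB.xg c a * (hB.xg e t)⁻¹ = hB.xg c a := fun a => xg_conj_nil hB he hc c1 c2 t1 t a
  have g2 : ∀ a, hB.xg e t * hB.xg d a * (hB.xg e t)⁻¹ = hB.xg d a := by
    intro a
    rw [xg_conj_single hB he hd d1 d2 t2, hk3, zero_mul, zero_mul, hB.xg_zero, mul_one]
  have g3 : ∀ a b, cm (hB.xg d (-b)) (hB.xg c a) = hB.xg e (k1 * a * b) * hB.xg q (k2 * a * b ^ 2) := by
    intro a b
    have := hB.comm_xg hc hd d3 d4 (-a) b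
    unfold ChevalleyDatum.commWord at this
    rw [t3] at this
    simp only [List.map_cons, List.map_nil, Base.wg, List.prod_cons, List.prod_nil, mul_one, neg_neg,
      pow_one] at this
    rw [hB.xg_inv, neg_neg] at this
    unfold cm
    rw [hB.xg_inv, hB.xg_inv, neg_neg, mul_assoc, mul_assoc, ← mul_assoc (hB.xg c a), this, ← mul_assoc,
      hB.xg_add, neg_add_cancel, hB.xg_zero, one_mul]
  have ld : ∀ b, C.ψ (C.lft (hB.xg d b)) = hB.xg d b := fun b => C.ψ_lft (hB.xg_mem_group hd b)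
  have lc : ∀ a, C.ψ (C.lft (hB.xg c a)) = hB.xg c a := fun a => C.ψ_lft (hB.xg_mem_group hc a)
  set w : K → K → E := fun a b => cm (C.lft (hB.xg d (-b))) (C.lft (hB.xg c a)) with hw
  have hψw : ∀ a b, C.ψ (w a b) = hB.xg e (k1 * a * b) * hB.xg q (k2 * a * b ^ 2) := by
    intro a b
    rw [hw]
    simp only
    rw [C.ψ_cm, ld, lc, g3]
  have hcw : ∀ a b, e₁ * w a b = w a b * e₁ := by
    intro a b
    have : e₁ * w a b * e₁⁻¹ = w a b := by
      rw [hw]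
      simp only
      rw [conj_cm]
      apply C.cm_congr
      · rw [map_mul, map_mul, map_inv, ld, h1, g2]
      · rw [map_mul, map_mul, map_inv, lc, h1, g1]
    exact mul_inv_eq_iff_eq_mul.mp this
  obtain ⟨v, hv0, hv1⟩ := hK
  have hv1' : v - 1 ≠ 0 := sub_ne_zero.mpr hv1
  set m : K := u * v / (k1 * (v - 1)) with hm
  have hψ : C.ψ ((w (m / v ^ 2) v)⁻¹ * w m 1) = C.ψ e₂ := by
    rw [map_mul, map_inv, hψw, hψw, h2]
    have e1 : (k2 : K) * (m / v ^ 2) * v ^ 2 = k2 * m * 1 ^ 2 := by field_simp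
    rw [e1]
    have hcj := xg_conj_nil hB hq he q1 q2 t4 (-((k2 : K) * m * 1 ^ 2)) (-((k1 : K) * (m / v ^ 2) * v) + k1 * m * 1)
    rw [hB.xg_inv q, neg_neg] at hcj
    calc (hB.xg e (k1 * (m / v ^ 2) * v) * hB.xg q (k2 * m * 1 ^ 2))⁻¹ *
          (hB.xg e (k1 * m * 1) * hB.xg q (k2 * m * 1 ^ 2))
        = (hB.xg q (k2 * m * 1 ^ 2))⁻¹ * ((hB.xg e (k1 * (m / v ^ 2) * v))⁻¹ * hB.xg e (k1 * m * 1)) *
            hB.xg q (k2 * m * 1 ^ 2) := by group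
      _ = hB.xg e (-((k1 : K) * (m / v ^ 2) * v) + k1 * m * 1) := by
          rw [hB.xg_inv e, hB.xg_add, hB.xg_inv q, hcj]
      _ = hB.xg e u := by
          congr 1
          rw [hm]
          field_simp
          ring
  obtain ⟨z, hz, rfl⟩ := C.eq_mul_central hψ
  have hz' := Subgroup.mem_center_iff.mp hz
  have hc2 : e₁ * (w (m / v ^ 2) v)⁻¹ = (w (m / v ^ 2) v)⁻¹ * e₁ := by
    have := hcw (m / v ^ 2) v
    calc e₁ * (w (m / v ^ 2) v)⁻¹ = (w (m / v ^ 2) v)⁻¹ * (w (m / v ^ 2) v * e₁) * (w (m / v ^ 2) v)⁻¹ := by group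
      _ = (w (m / v ^ 2) v)⁻¹ * (e₁ * w (m / v ^ 2) v) * (w (m / v ^ 2) v)⁻¹ := by rw [this]
      _ = _ := by group
  calc e₁ * ((w (m / v ^ 2) v)⁻¹ * w m 1 * z) = (e₁ * (w (m / v ^ 2) v)⁻¹) * w m 1 * z := by group
    _ = (w (m / v ^ 2) v)⁻¹ * (e₁ * w m 1) * z := by rw [hc2]; group
    _ = (w (m / v ^ 2) v)⁻¹ * w m 1 * (e₁ * z) := by rw [hcw]; group
    _ = (w (m / v ^ 2) v)⁻¹ * w m 1 * z * e₁ := by rw [hz' e₁]; group

theorem t2B4_B2 : t2B4 chevB2 = true := by decide +kernel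

theorem CExt.torH_B2_two (C : CExt chevB2 K E) (A : AllH chevB2 T W K) (h2 : (2 : K) = 0)
    (hK : ∃ v : K, v ≠ 0 ∧ v ^ 2 ≠ 1) : C.TorH A.hB where
  self := by
    intro q hq
    obtain ⟨v, hv0, hv2⟩ := hK
    refine ⟨A.hB.hg q v, v ^ 2, ?_, hv2⟩
    have := torG_hg A.hB hq hq hv0
    rw [A.pairing_self q hq] at this
    exact_mod_cast this
  ab := by
    intro q hq
    obtain ⟨v, hv0, hv2⟩ := hK
    have hK' : ∃ v : K, v ≠ 0 ∧ v ≠ 1 := ⟨v, hv0, by rintro rfl; simp at hv2⟩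
    have h2' : ((2 : ℤ) : K) = 0 := by exact_mod_cast h2
    have h2'' : ((-2 : ℤ) : K) = 0 := by push_cast; rw [h2, neg_zero]
    have hq' : q < 8 := hq
    interval_cases q
    · exact C.ab_of_trick2 A.hB hq (c := 3) (d := 2) (e := 1) (k1 := -1) (k2 := -1) (by decide) (by simp) hK'
    · exact C.ab_of_trick3 A.hB hq (c := 0) (d := 5) (q := 3) (k1 := 1) (k2 := -1) (k3 := -2) (by decide) (by simp)
        h2'' hK'
    · exact C.ab_of_trick3 A.hB hq (c := 0) (d := 6) (q := 4) (k1 := -1) (k2 := 1) (k3 := -2) (by decide) (by simp)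
        h2'' hK'
    · exact C.ab_of_trick2 A.hB hq (c := 0) (d := 5) (e := 1) (k1 := 1) (k2 := -1) (by decide) (by simp) hK'
    · exact C.ab_of_trick2 A.hB hq (c := 0) (d := 6) (e := 2) (k1 := -1) (k2 := 1) (by decide) (by simp) hK'
    · exact C.ab_of_trick3 A.hB hq (c := 3) (d := 6) (q := 7) (k1 := 1) (k2 := 1) (k3 := 2) (by decide) (by simp)
        h2' hK'
    · exact C.ab_of_trick3 A.hB hq (c := 4) (d := 5) (q := 7) (k1 := 1) (k2 := -1) (k3 := -2) (by decide) (by simp)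
        h2'' hK'
    · exact C.ab_of_trick2 A.hB hq (c := 4) (d := 5) (e := 6) (k1 := 1) (k2 := -1) (by decide) (by simp) hK'
  pair := by
    intro r s hr hs h1 h2
    obtain ⟨v, hv0, hv2⟩ := hK
    exact Or.inl (exists_tor_of_t2B4 A.hB t2B4_B2 hv0 hv2 hr hs h1 h2)

theorem CExt.exists_std_B2_two (C : CExt chevB2 K E) (A : AllH chevB2 T W K) (h2 : (2 : K) = 0)
    (hK : ∃ v : K, v ≠ 0 ∧ v ^ 2 ≠ 1) : ∃ S : StD chevB2 K E, S.θ = C.ψ :=
  C.exists_std' A (C.torH_B2_two A h2 hK) trOK_B2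

end Cfsg.Agent.Lib.Helper17
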