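import Cfsg.Agent.Lib.Helper17.UhA3

set_option autoImplicit false
set_option maxRecDepth 100000

/-! Central extensions of the Chevalley group of type `D₄` over a field with more than two elements. -/

namespace Cfsg.Agent.Lib.Helper17

open Cfsg.Lie Matrix Cfsg.Agent.Lib.Helper18 Cfsg.Agent.Lib.Helper36

variable {D : ChevalleyDatum} {T : Fast} {W : WTab} {K : Type*} [Field K] {E : Type*} [Group E]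

/-- signs -/
def sgZ (n : ℕ) : ℤ := if n = 0 then 1 else -1

/-- for independent roots `r`, `s` some coroot is even on `r` and odd on `s`, or they lie in a subsystem `A₃` -/
def t2A3 (D : ChevalleyDatum) (Wt : List (ℕ × ℕ × ℕ × ℕ × ℕ × ℕ × ℕ × ℕ × ℕ × ℕ)) : Bool :=
  (List.range D.nroots).all fun r => (List.range D.nroots).all fun s =>
    decide (s = r) || decide (s = D.neg r) || ((List.range D.nroots).any fun β =>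
      decide (D.pairing β r % 2 = 0) && decide (D.pairing β s % 2 = 1)) ||
    Wt.any fun w => decide (w.1 = r) && decide (w.2.1 = s) &&
      a3B D r s w.2.2.1 w.2.2.2.1 w.2.2.2.2.1 w.2.2.2.2.2.1 (sgZ w.2.2.2.2.2.2.1) (sgZ w.2.2.2.2.2.2.2.1)
        (sgZ w.2.2.2.2.2.2.2.2.1) (sgZ w.2.2.2.2.2.2.2.2.2)

lemma CExt.pair_of_t2A3 (C : CExt D K E) (hB : Base D K) {Wt : List (ℕ × ℕ × ℕ × ℕ × ℕ × ℕ × ℕ × ℕ × ℕ × ℕ)}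
    (h : t2A3 D Wt = true) (h2K : (2 : K) ≠ 0) {r s : ℕ} (hr : r < D.nroots) (hs : s < D.nroots) (h1 : s ≠ r)
    (h2 : s ≠ D.neg r) :
    (∃ (h : GL D.Idx K) (μ : K), TorG hB h r 1 ∧ TorG hB h s μ ∧ μ ≠ 1) ∨ C.Cm hB r s := by
  unfold t2A3 at h
  rw [List.all_eq_true] at h
  have h3 := h r (List.mem_range.mpr hr)
  rw [List.all_eq_true] at h3
  have h4 := h3 s (List.mem_range.mpr hs)
  simp only [Bool.or_eq_true, decide_eq_true_eq, h1, h2, false_or, List.any_eq_true, Bool.and_eq_true,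
    List.mem_range] at h4
  rcases h4 with ⟨β, hβ, e0, e1⟩ | ⟨w, -, -, e⟩
  · left
    have hm : (-1 : K) ≠ 0 := by simp
    refine ⟨hB.hg β (-1), (-1) ^ D.pairing β s, ?_, torG_hg hB hβ hs hm, ?_⟩
    · have := torG_hg hB hβ hr hm
      rwa [(Int.even_iff.mpr e0).neg_one_zpow] at this
    · rw [(Int.odd_iff.mpr e1).neg_one_zpow]
      intro e
      apply h2K
      linear_combination -e
  · right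
    exact C.cm_of_a3 hB h2K hr hs e

def abWD4 : List (ℕ × ℕ) :=
  [(1, 9), (0, 14), (0, 15), (0, 16), (0, 17), (1, 17), (0, 19), (0, 20), (0, 21), (0, 22), (1, 20), (1, 21), (2, 22),
  (3, 22), (1, 23), (2, 23), (3, 23), (4, 23), (6, 22), (6, 23), (7, 23), (8, 23), (9, 23), (14, 22)]

theorem abB_D4 : abB chevD4 abWD4 = true := by decide +kernel

theorem t2B4_D4 : t2B4 chevD4 = true := by decide +kernel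

def a3WD4 : List (ℕ × ℕ × ℕ × ℕ × ℕ × ℕ × ℕ × ℕ × ℕ × ℕ) :=
  [(0, 5, 1, 9, 17, 4, 0, 0, 1, 0), (0, 10, 1, 9, 20, 7, 1, 0, 1, 1), (0, 11, 1, 9, 21, 8, 1, 0, 1, 1), (0, 12,
  2, 8, 22, 9, 1, 1, 0, 1), (0, 13, 3, 7, 22, 9, 1, 1, 0, 1), (0, 18, 6, 4, 22, 9, 0, 1, 0, 0), (1, 4, 0, 14,
  17, 5, 0, 0, 1, 0), (1, 7, 0, 14, 20, 10, 1, 0, 0, 0), (1, 8, 0, 14, 21, 11, 1, 0, 0, 0), (1, 15, 2, 11, 23,
  14, 1, 0, 0, 0), (1, 16, 3, 10, 23, 14, 1, 0, 0, 0), (1, 19, 6, 5, 23, 14, 0, 1, 0, 0), (2, 3, 0, 15, 16, 5,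
  0, 1, 1, 1), (2, 6, 0, 15, 19, 10, 1, 1, 0, 1), (2, 9, 0, 15, 22, 12, 1, 1, 0, 1), (2, 14, 1, 12, 23, 15, 1,
  0, 1, 1), (2, 17, 4, 10, 23, 15, 1, 0, 1, 1), (2, 20, 7, 5, 23, 15, 0, 1, 1, 1), (3, 2, 0, 16, 15, 5, 0, 1, 1,
  1), (3, 6, 0, 16, 19, 11, 1, 1, 0, 1), (3, 9, 0, 16, 22, 13, 1, 1, 0, 1), (3, 14, 1, 13, 23, 16, 1, 0, 1, 1),
  (3, 17, 4, 11, 23, 16, 1, 0, 1, 1), (3, 21, 8, 5, 23, 16, 0, 1, 1, 1), (4, 1, 0, 17, 14, 5, 0, 0, 1, 0), (4,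
  7, 0, 17, 20, 12, 1, 0, 0, 0), (4, 8, 0, 17, 21, 13, 1, 0, 0, 0), (4, 15, 2, 13, 23, 17, 1, 0, 0, 0), (4, 16,
  3, 12, 23, 17, 1, 0, 0, 0), (4, 22, 9, 5, 23, 17, 0, 1, 0, 0), (5, 0, 1, 17, 9, 4, 0, 0, 1, 0), (5, 10, 1, 17,
  20, 15, 0, 0, 0, 1), (5, 11, 1, 17, 21, 16, 0, 0, 0, 1), (5, 12, 2, 16, 22, 17, 0, 0, 0, 1), (5, 13, 3, 15,
  22, 17, 0, 0, 0, 1), (5, 23, 14, 4, 22, 17, 0, 1, 0, 0), (6, 2, 0, 19, 15, 10, 1, 1, 0, 1), (6, 3, 0, 19, 16,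
  11, 1, 1, 0, 1), (6, 9, 0, 19, 22, 18, 0, 1, 1, 1), (6, 14, 1, 18, 23, 19, 0, 1, 1, 1), (6, 20, 7, 11, 23, 19,
  1, 0, 1, 1), (6, 21, 8, 10, 23, 19, 1, 0, 1, 1), (7, 1, 0, 20, 14, 10, 1, 0, 0, 0), (7, 4, 0, 20, 17, 12, 1,
  0, 0, 0), (7, 8, 0, 20, 21, 18, 0, 0, 1, 0), (7, 15, 2, 18, 23, 20, 0, 1, 0, 0), (7, 19, 6, 12, 23, 20, 1, 0,
  0, 0), (7, 22, 9, 10, 23, 20, 1, 0, 0, 0), (8, 1, 0, 21, 14, 11, 1, 0, 0, 0), (8, 4, 0, 21, 17, 13, 1, 0, 0,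
  0), (8, 7, 0, 21, 20, 18, 0, 0, 1, 0), (8, 16, 3, 18, 23, 21, 0, 1, 0, 0), (8, 19, 6, 13, 23, 21, 1, 0, 0, 0),
  (8, 22, 9, 11, 23, 21, 1, 0, 0, 0), (9, 2, 0, 22, 15, 12, 1, 1, 0, 1), (9, 3, 0, 22, 16, 13, 1, 1, 0, 1), (9,
  6, 0, 22, 19, 18, 0, 1, 1, 1), (9, 17, 4, 18, 23, 22, 0, 1, 1, 1), (9, 20, 7, 13, 23, 22, 1, 0, 1, 1), (9, 21,
  8, 12, 23, 22, 1, 0, 1, 1), (10, 0, 1, 20, 9, 7, 0, 1, 0, 0), (10, 5, 1, 20, 17, 15, 1, 1, 1, 0), (10, 11, 1,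
  20, 21, 19, 0, 1, 1, 1), (10, 12, 2, 19, 22, 20, 0, 1, 1, 1), (10, 18, 6, 15, 22, 20, 1, 1, 1, 0), (10, 23,
  14, 7, 22, 20, 0, 0, 1, 0), (11, 0, 1, 21, 9, 8, 0, 1, 0, 0), (11, 5, 1, 21, 17, 16, 1, 1, 1, 0), (11, 10, 1,
  21, 20, 19, 0, 1, 1, 1), (11, 13, 3, 19, 22, 21, 0, 1, 1, 1), (11, 18, 6, 16, 22, 21, 1, 1, 1, 0), (11, 23,
  14, 8, 22, 21, 0, 0, 1, 0), (12, 0, 2, 22, 8, 9, 1, 1, 0, 1), (12, 5, 2, 22, 16, 17, 1, 1, 1, 0), (12, 10, 2,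
  22, 19, 20, 0, 1, 1, 1), (12, 13, 4, 20, 21, 22, 0, 1, 1, 1), (12, 18, 7, 17, 21, 22, 1, 1, 1, 0), (12, 23,
  15, 9, 21, 22, 1, 0, 1, 1), (13, 0, 3, 22, 7, 9, 1, 1, 0, 1), (13, 5, 3, 22, 15, 17, 1, 1, 1, 0), (13, 11, 3,
  22, 19, 21, 0, 1, 1, 1), (13, 12, 4, 21, 20, 22, 0, 1, 1, 1), (13, 18, 8, 17, 20, 22, 1, 1, 1, 0), (13, 23,
  16, 9, 20, 22, 1, 0, 1, 1), (14, 2, 1, 23, 12, 15, 0, 1, 0, 0), (14, 3, 1, 23, 13, 16, 0, 1, 0, 0), (14, 6, 1,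
  23, 18, 19, 0, 1, 1, 1), (14, 17, 5, 19, 22, 23, 0, 1, 1, 1), (14, 20, 10, 16, 22, 23, 0, 0, 1, 0), (14, 21,
  11, 15, 22, 23, 0, 0, 1, 0), (15, 1, 2, 23, 11, 14, 1, 0, 0, 0), (15, 4, 2, 23, 13, 17, 1, 0, 0, 0), (15, 7,
  2, 23, 18, 20, 1, 0, 1, 1), (15, 16, 5, 20, 21, 23, 1, 1, 0, 1), (15, 19, 10, 17, 21, 23, 1, 0, 0, 0), (15,
  22, 12, 14, 21, 23, 1, 0, 0, 0), (16, 1, 3, 23, 10, 14, 1, 0, 0, 0), (16, 4, 3, 23, 12, 17, 1, 0, 0, 0), (16,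
  8, 3, 23, 18, 21, 1, 0, 1, 1), (16, 15, 5, 21, 20, 23, 1, 1, 0, 1), (16, 19, 11, 17, 20, 23, 1, 0, 0, 0), (16,
  22, 13, 14, 20, 23, 1, 0, 0, 0), (17, 2, 4, 23, 10, 15, 0, 1, 0, 0), (17, 3, 4, 23, 11, 16, 0, 1, 0, 0), (17,
  9, 4, 23, 18, 22, 0, 1, 1, 1), (17, 14, 5, 22, 19, 23, 0, 1, 1, 1), (17, 20, 12, 16, 19, 23, 0, 0, 1, 0), (17,
  21, 13, 15, 19, 23, 0, 0, 1, 0), (18, 0, 6, 22, 4, 9, 1, 0, 1, 1), (18, 10, 6, 22, 15, 20, 0, 0, 0, 1), (18,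
  11, 6, 22, 16, 21, 0, 0, 0, 1), (18, 12, 7, 21, 17, 22, 0, 0, 0, 1), (18, 13, 8, 20, 17, 22, 0, 0, 0, 1), (18,
  23, 19, 9, 17, 22, 1, 1, 0, 1), (19, 1, 6, 23, 5, 14, 1, 0, 1, 1), (19, 7, 6, 23, 12, 20, 1, 0, 0, 0), (19, 8,
  6, 23, 13, 21, 1, 0, 0, 0), (19, 15, 10, 21, 17, 23, 1, 0, 0, 0), (19, 16, 11, 20, 17, 23, 1, 0, 0, 0), (19,
  22, 18, 14, 17, 23, 1, 1, 0, 1), (20, 2, 7, 23, 5, 15, 0, 1, 1, 1), (20, 6, 7, 23, 11, 19, 0, 1, 0, 0), (20,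
  9, 7, 23, 13, 22, 0, 1, 0, 0), (20, 14, 10, 22, 16, 23, 0, 0, 1, 0), (20, 17, 12, 19, 16, 23, 0, 0, 1, 0),
  (20, 21, 18, 15, 16, 23, 0, 1, 1, 1), (21, 3, 8, 23, 5, 16, 0, 1, 1, 1), (21, 6, 8, 23, 10, 19, 0, 1, 0, 0),
  (21, 9, 8, 23, 12, 22, 0, 1, 0, 0), (21, 14, 11, 22, 15, 23, 0, 0, 1, 0), (21, 17, 13, 19, 15, 23, 0, 0, 1,
  0), (21, 20, 18, 16, 15, 23, 0, 1, 1, 1), (22, 4, 9, 23, 5, 17, 1, 0, 1, 1), (22, 7, 9, 23, 10, 20, 1, 0, 0,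
  0), (22, 8, 9, 23, 11, 21, 1, 0, 0, 0), (22, 15, 12, 21, 14, 23, 1, 0, 0, 0), (22, 16, 13, 20, 14, 23, 1, 0,
  0, 0), (22, 19, 18, 17, 14, 23, 1, 1, 0, 1), (23, 5, 14, 22, 4, 17, 1, 0, 1, 1), (23, 10, 14, 22, 7, 20, 0, 0,
  1, 0), (23, 11, 14, 22, 8, 21, 0, 0, 1, 0), (23, 12, 15, 21, 9, 22, 0, 1, 0, 0), (23, 13, 16, 20, 9, 22, 0, 1,
  0, 0), (23, 18, 19, 17, 9, 22, 1, 1, 0, 1)]

theorem t2A3_D4 : t2A3 chevD4 a3WD4 = true := by decide +kernel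

theorem CExt.torH_D4 (C : CExt chevD4 K E) (A : AllH chevD4 T W K) (hK : ∃ v : K, v ≠ 0 ∧ v ≠ 1) :
    C.TorH A.hB where
  self := A.tor_self_of_p1 p1OK_D4 hK
  ab := C.ab_of_check A.hB abB_D4
  pair := by
    intro r s hr hs h1 h2
    by_cases h : ∃ v : K, v ≠ 0 ∧ v ^ 2 ≠ 1
    · obtain ⟨v, hv0, hv2⟩ := h
      exact Or.inl (exists_tor_of_t2B4 A.hB t2B4_D4 hv0 hv2 hr hs h1 h2)
    · push Not at h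
      obtain ⟨v, hv0, hv1⟩ := hK
      have hv2 := h v hv0
      have h2K : (2 : K) ≠ 0 := by
        intro e2
        apply hv1
        have e3 : (v - 1) ^ 2 = 0 := by linear_combination hv2 - v * e2 + e2
        have := pow_eq_zero_iff (two_ne_zero) |>.mp e3
        linear_combination this
      exact C.pair_of_t2A3 A.hB t2A3_D4 h2K hr hs h1 h2

theorem CExt.exists_std_D4 (C : CExt chevD4 K E) (A : AllH chevD4 T W K) (hK : ∃ v : K, v ≠ 0 ∧ v ≠ 1) :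
    ∃ S : StD chevD4 K E, S.θ = C.ψ :=
  C.exists_std' A (C.torH_D4 A hK) (trOK_of_mem (by simp))

end Cfsg.Agent.Lib.Helper17
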