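import Cfsg.Agent.Lib.Helper17.UgY

set_option autoImplicit false

/-! Central extensions of the Chevalley group over the field with three elements: sign tricks. -/

namespace Cfsg.Agent.Lib.Helper17

open Cfsg.Lie Matrix Cfsg.Agent.Lib.Helper18 Cfsg.Agent.Lib.Helper36

variable {D : ChevalleyDatum} {T : Fast} {W : WTab} {K : Type*} [Field K] {E : Type*} [Group E]

lemma eq_one_of_sq_cube {z : E} (h2 : z * z = 1) (h3 : z * z * z = 1) : z = 1 := by
  rw [h2, one_mul] at h3; exact h3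

lemma cm_left_central {a b : E} (ha : a ∈ Subgroup.center E) : cm a b = 1 := by
  unfold cm
  rw [← Subgroup.mem_center_iff.mp ha b, mul_inv_cancel_right, mul_inv_cancel]

lemma cm_right_central {a b : E} (hb : b ∈ Subgroup.center E) : cm a b = 1 := by
  unfold cm
  rw [Subgroup.mem_center_iff.mp hb a, mul_inv_cancel_right, mul_inv_cancel]

lemma cm_inv_swap (a b : E) : (cm a b)⁻¹ = cm b a := by unfold cm; group

lemma cm_mul_left_central {a b c : E} (hz : cm b c ∈ Subgroup.center E) : cm (a * b) c = cm a c * cm b c := by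
  rw [cm_mul_left, Subgroup.mem_center_iff.mp hz a, mul_inv_cancel_right,
    Subgroup.mem_center_iff.mp hz (cm a c)]

lemma cm_mul_right_central {a b c : E} (hz : cm a c ∈ Subgroup.center E) : cm a (b * c) = cm a b * cm a c := by
  rw [cm_mul_right, Subgroup.mem_center_iff.mp hz b, mul_inv_cancel_right]

lemma cm_inv_left_central {a b : E} (hz : cm a b ∈ Subgroup.center E) : cm a⁻¹ b = (cm a b)⁻¹ := by
  have h1 : cm (a⁻¹ * a) b = cm a⁻¹ b * cm a b := cm_mul_left_central hz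
  rw [inv_mul_cancel] at h1
  have h2 : cm (1 : E) b = 1 := by unfold cm; group
  rw [h2] at h1
  exact eq_inv_of_mul_eq_one_left h1.symm

lemma xg_comm_of_nil (hB : Base D K) {r s : ℕ} (hr : r < D.nroots) (hs : s < D.nroots) (h1 : s ≠ r)
    (h2 : s ≠ D.neg r) (h : D.commTerms r s = []) (t u : K) : cm (hB.xg r t) (hB.xg s u) = 1 := by
  have := hB.comm_xg hr hs h1 h2 (-t) u
  unfold ChevalleyDatum.commWord at this
  rw [h] at this
  simp only [List.map_nil, Base.wg, List.prod_nil, mul_one] at this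
  rw [hB.xg_inv, neg_neg] at this
  unfold cm
  rw [hB.xg_inv r t, this, mul_inv_cancel]

namespace CExt

variable (C : CExt D K E)

lemma Cm.symm {C : CExt D K E} {hB : Base D K} {r s : ℕ} (h : C.Cm hB r s) : C.Cm hB s r :=
  fun e₁ e₂ t u h1 h2 => (h e₂ e₁ u t h2 h1).symm

lemma mem_center_of_ψ {e : E} (h : C.ψ e = 1) : e ∈ Subgroup.center E := C.central h

lemma comm_of_cm {a b : E} (h : cm a b = 1) : a * b = b * a := by
  unfold cm at h
  rw [mul_inv_eq_one, mul_inv_eq_iff_eq_mul] at h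
  exact h

/-- over the field with three elements the lifts of the elements of a root subgroup commute -/
lemma ab_F3 (hB : Base D K) (hF : ∀ t : K, t = 0 ∨ t = 1 ∨ t = -1) {q : ℕ} (hq : q < D.nroots) : C.Ab hB q := by
  have key : ∀ (e : E) (t : K), C.ψ e = hB.xg q t → ∃ (n : ℤ), ∃ z ∈ Subgroup.center E,
      e = C.lft (hB.xg q 1) ^ n * z := by
    intro e t he
    have hl := C.ψ_lft (hB.xg_mem_group hq (1 : K))
    rcases hF t with rfl | rfl | rfl
    · exact ⟨0, e, C.mem_center_of_ψ (by rw [he, hB.xg_zero]), by simp⟩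
    · obtain ⟨z, hz, e1⟩ := C.eq_mul_central (hl.trans he.symm)
      exact ⟨1, z, hz, by rw [zpow_one]; exact e1⟩
    · have : C.ψ (C.lft (hB.xg q 1))⁻¹ = C.ψ e := by rw [map_inv, hl, he, hB.xg_inv]
      obtain ⟨z, hz, e1⟩ := C.eq_mul_central this
      exact ⟨-1, z, hz, by rw [_root_.zpow_neg_one]; exact e1⟩
  intro e₁ e₂ t u h1 h2
  obtain ⟨n, z, hz, rfl⟩ := key e₁ t h1
  obtain ⟨m, w, hw, rfl⟩ := key e₂ u h2
  have hz' := Subgroup.mem_center_iff.mp hz
  have hw' := Subgroup.mem_center_iff.mp hw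
  set a := C.lft (hB.xg q 1)
  calc a ^ n * z * (a ^ m * w) = a ^ n * (z * a ^ m) * w := by group
    _ = a ^ n * (a ^ m * z) * w := by rw [hz' (a ^ m)]
    _ = (a ^ n * a ^ m) * (z * w) := by group
    _ = (a ^ m * a ^ n) * (w * z) := by rw [← _root_.zpow_add, ← _root_.zpow_add, add_comm, hz' w]
    _ = a ^ m * (a ^ n * w) * z := by group
    _ = a ^ m * (w * a ^ n) * z := by rw [hw' (a ^ n)]
    _ = _ := by group

variable {C}

/-- the sign trick: a torus element inverting `X_r` and centralising `X_s` -/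
lemma cm_of_sign (A : AllH D T W K) (h30 : (3 : K) = 0) {r s : ℕ}
    (hcomm : ∀ t u, cm (A.hB.xg r t) (A.hB.xg s u) = 1) {h : GL D.Idx K} (hr : TorG A.hB h r (-1))
    (hs : TorG A.hB h s 1) : C.Cm A.hB r s := by
  intro e₁ e₂ t u h1 h2
  apply comm_of_cm
  have hz : cm e₁ e₂ ∈ Subgroup.center E := C.mem_center_of_ψ (by rw [C.ψ_cm, h1, h2, hcomm])
  have hlh := C.ψ_lft (A.hB.H_le_group A.hT hr.1)
  apply eq_one_of_sq_cube
  · have e1 : C.lft h * cm e₁ e₂ * (C.lft h)⁻¹ = cm e₁ e₂ := by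
      rw [Subgroup.mem_center_iff.mp hz (C.lft h), mul_inv_cancel_right]
    rw [conj_cm] at e1
    have e2 : cm (C.lft h * e₁ * (C.lft h)⁻¹) (C.lft h * e₂ * (C.lft h)⁻¹) = cm e₁⁻¹ e₂ := by
      apply C.cm_congr
      · rw [map_mul, map_mul, map_inv, map_inv, hlh, h1, hr.2, A.hB.xg_inv]; congr 1; ring
      · rw [map_mul, map_mul, map_inv, hlh, h2, hs.2, one_mul]
    rw [e2, cm_inv_left_central hz] at e1
    exact inv_eq_iff_mul_eq_one.mp e1
  · have e3 : cm (e₁ * e₁ * e₁) e₂ = cm e₁ e₂ * cm e₁ e₂ * cm e₁ e₂ := by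
      rw [cm_mul_left_central hz, cm_mul_left_central hz]
    rw [← e3]
    apply cm_left_central
    apply C.mem_center_of_ψ
    rw [map_mul, map_mul, h1, A.hB.xg_add, A.hB.xg_add]
    have : t + t + t = 0 := by linear_combination t * h30
    rw [this, A.hB.xg_zero]

/-- the swap trick: an element interchanging `X_r` and `X_s` with signs of product one -/
lemma cm_of_swap (A : AllH D T W K) (hF : ∀ t : K, t = 0 ∨ t = 1 ∨ t = -1) (h30 : (3 : K) = 0) {r s : ℕ}
    (hr : r < D.nroots) (hs : s < D.nroots)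
    (hcomm : ∀ t u, cm (A.hB.xg r t) (A.hB.xg s u) = 1) {g : GL D.Idx K} (hg : g ∈ D.group K) {η : K}
    (hη : η = 1 ∨ η = -1)
    (h1 : ∀ v, g * A.hB.xg r v * g⁻¹ = A.hB.xg s (η * v)) (h2 : ∀ v, g * A.hB.xg s v * g⁻¹ = A.hB.xg r (η * v)) :
    C.Cm A.hB r s := by
  have hlr : ∀ t, C.ψ (C.lft (A.hB.xg r t)) = A.hB.xg r t := fun t => C.ψ_lft (A.hB.xg_mem_group hr t)
  have hls : ∀ t, C.ψ (C.lft (A.hB.xg s t)) = A.hB.xg s t := fun t => C.ψ_lft (A.hB.xg_mem_group hs t)
  have hlg := C.ψ_lft hg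
  set F : K → K → E := fun t u => cm (C.lft (A.hB.xg r t)) (C.lft (A.hB.xg s u)) with hFd
  have hFeq : ∀ (e₁ e₂ : E) (t u : K), C.ψ e₁ = A.hB.xg r t → C.ψ e₂ = A.hB.xg s u → cm e₁ e₂ = F t u :=
    fun e₁ e₂ t u a b => C.cm_congr (a.trans (hlr t).symm) (b.trans (hls u).symm)
  have hcen : ∀ t u, F t u ∈ Subgroup.center E := fun t u =>
    C.mem_center_of_ψ (by rw [C.ψ_cm, hlr, hls, hcomm])
  have negL : ∀ t u, F (-t) u = (F t u)⁻¹ := by
    intro t u
    rw [← cm_inv_left_central (hcen t u)]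
    exact (hFeq _ _ _ _ (by rw [map_inv, hlr, A.hB.xg_inv]) (hls u)).symm
  have negR : ∀ t u, F t (-u) = (F t u)⁻¹ := by
    intro t u
    have h3 : cm (C.lft (A.hB.xg s u)) (C.lft (A.hB.xg r t)) ∈ Subgroup.center E := by
      rw [← cm_inv_swap]; exact inv_mem (hcen t u)
    have h4 := cm_inv_left_central h3
    rw [← cm_inv_swap, ← cm_inv_swap (C.lft (A.hB.xg r t)) (C.lft (A.hB.xg s u)), _root_.inv_inj] at h4
    rw [← hFeq _ (C.lft (A.hB.xg s u))⁻¹ t (-u) (hlr t) (by rw [map_inv, hls, A.hB.xg_inv]), h4]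
  have zL : ∀ u, F 0 u = 1 := fun u =>
    cm_left_central (C.mem_center_of_ψ (by rw [hlr, A.hB.xg_zero]))
  have zR : ∀ t, F t 0 = 1 := fun t =>
    cm_right_central (C.mem_center_of_ψ (by rw [hls, A.hB.xg_zero]))
  have hsw : F 1 1 = (F η η)⁻¹ := by
    have e1 : C.lft g * F 1 1 * (C.lft g)⁻¹ = F 1 1 := by
      rw [Subgroup.mem_center_iff.mp (hcen 1 1) (C.lft g), mul_inv_cancel_right]
    rw [← e1]
    show C.lft g * cm _ _ * (C.lft g)⁻¹ = _
    rw [conj_cm, ← cm_inv_swap, _root_.inv_inj]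
    apply hFeq
    · rw [map_mul, map_mul, map_inv, hlg, hls, h2, mul_one]
    · rw [map_mul, map_mul, map_inv, hlg, hlr, h1, mul_one]
  have hηη : F η η = F 1 1 := by
    rcases hη with rfl | rfl
    · rfl
    · rw [negL, negR, inv_inv]
  have h11 : F 1 1 = 1 := by
    apply eq_one_of_sq_cube
    · rw [hηη] at hsw
      exact inv_eq_iff_mul_eq_one.mp hsw.symm
    · have e3 : cm (C.lft (A.hB.xg r 1) * C.lft (A.hB.xg r 1) * C.lft (A.hB.xg r 1)) (C.lft (A.hB.xg s 1)) =
          F 1 1 * F 1 1 * F 1 1 := by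
        rw [cm_mul_left_central (hcen 1 1), cm_mul_left_central (hcen 1 1)]
      rw [← e3]
      apply cm_left_central
      apply C.mem_center_of_ψ
      rw [map_mul, map_mul, hlr, A.hB.xg_add, A.hB.xg_add]
      have : (1 : K) + 1 + 1 = 0 := by linear_combination h30
      rw [this, A.hB.xg_zero]
  intro e₁ e₂ t u a b
  apply comm_of_cm
  rw [hFeq e₁ e₂ t u a b]
  rcases hF t with rfl | rfl | rfl
  · exact zL u
  · rcases hF u with rfl | rfl | rfl
    · exact zR 1
    · exact h11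
    · rw [negR, h11, inv_one]
  · rcases hF u with rfl | rfl | rfl
    · exact zR _
    · rw [negL, h11, inv_one]
    · rw [negL, negR, h11, inv_one, inv_one]

end CExt

end Cfsg.Agent.Lib.Helper17
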