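import Cfsg.Agent.Lib.Helper17.UgUniv
import Cfsg.Agent.Lib.Helper17.UhB3
import Cfsg.Agent.Lib.Helper17.UhB4
import Cfsg.Agent.Lib.Helper17.UhD4
import Cfsg.Agent.Lib.Helper17.StPres4
import Cfsg.Agent.Lib.Helper36.StMult2

set_option autoImplicit false

/-! The group presented by Steinberg's relations over a finite field: finiteness, triviality of the Schur
multiplier. -/

namespace Cfsg.Agent.Lib.Helper17

open Cfsg.Lie Matrix Cfsg.Agent.Lib.Helper18 Cfsg.Agent.Lib.Helper36

universe u

variable {D : ChevalleyDatum} {T : Fast} {W : WTab}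

theorem finite_cover {K : Type*} [Field K] [Finite K]
    (hD : D ∈ [chevG2, chevB2, chevD4, chevF4, chevE6, chevE7, chevE8]) : Finite (D.SteinbergCover K) := by
  obtain ⟨T, W, A⟩ := exists_allH K hD
  let S₀ := stdOf A.hB (D.steinbergRelsAB K) subset_rfl (lift_relsAB A.hB)
  have hgen := stdOf_gen A.hB (D.steinbergRelsAB K) subset_rfl (lift_relsAB A.hB)
  obtain ⟨M, φ, hM, hker, hφ⟩ := exists_cox K hD
  have h1 : S₀.θ.ker ≤ S₀.HH := S₀.ker_le_HH A hgen M hM φ hker hφ
  have h3 : S₀.R3 := S₀.R3_of_finite A hgen (hg_mul hD A.hB)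
  have hfinHH : (S₀.HH : Set (D.SteinbergCover K)).Finite := by
    apply Set.Finite.subset (Set.finite_range (fun c : Fin D.rank → K =>
      S₀.hp (List.range D.rank) (fun i => if h : i < D.rank then c ⟨i, h⟩ else 1)))
    intro z hz
    obtain ⟨c, -, rfl⟩ := S₀.exists_hp A h3 hz
    refine ⟨fun i => c i, S₀.hp_congr ?_⟩
    intro i hi
    rw [dif_pos (List.mem_range.mp hi)]
  have f1 : Finite S₀.θ.ker := (hfinHH.subset h1).to_subtype
  have f2 : Finite (D.SteinbergCover K ⧸ S₀.θ.ker) :=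
    Finite.of_equiv S₀.θ.range (QuotientGroup.quotientKerEquivRange S₀.θ).symm.toEquiv
  exact Finite.of_equiv _ (Subgroup.groupEquivQuotientProdSubgroup (s := S₀.θ.ker)).symm

/-- universality of the presented group from the lifting of the relations -/
theorem universal_of_std {K : Type*} [Field K] (hD : D ∈ [chevG2, chevB2, chevD4, chevF4, chevE6, chevE7, chevE8])
    (hK1 : D ∈ [chevB2, chevG2] → ∃ x : K, x ≠ 0 ∧ x ≠ 1) (A : AllH D T W K)
    {G₁ E : Type*} [Group G₁] [Group E] (π₁ : E →* G₁) (hπ : Function.Surjective π₁)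
    (hc : π₁.ker ≤ Subgroup.center E) (σ : D.SteinbergCover K →* G₁)
    (hstd : ∀ C : CExt D K ↥(commutator ↥((π₁.comp (MonoidHom.fst E (D.SteinbergCover K))).eqLocus
      (σ.comp (MonoidHom.snd E (D.SteinbergCover K))))), ∃ S : StD D K _, S.θ = C.ψ) :
    ∃! τ : D.SteinbergCover K →* E, π₁.comp τ = σ := by
  have hperf := Cfsg.Agent.S2395.result (K := K) D hD hK1
  let S₀ := stdOf A.hB (D.steinbergRelsAB K) subset_rfl (lift_relsAB A.hB)
  have hgen := stdOf_gen A.hB (D.steinbergRelsAB K) subset_rfl (lift_relsAB A.hB)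
  have hθs : ∀ g ∈ D.group K, ∃ x, S₀.θ x = g := by
    intro g hg
    obtain ⟨x, hx⟩ := thetaOf_surj A.hB (D.steinbergRelsAB K) (lift_relsAB A.hB) ⟨g, hg⟩
    exact ⟨x, congrArg Subtype.val hx⟩
  apply universal_of_lift hperf S₀.θ (S₀.ker_le_center A hgen) hθs π₁ hπ hc σ
  intro C
  obtain ⟨S, hS⟩ := hstd C
  obtain ⟨τ₀, hτ₀⟩ := S.exists_hom A.h
  refine ⟨τ₀, ?_⟩
  apply PresentedGroup.ext
  rintro ⟨r, t⟩
  have e1 : PresentedGroup.of (rels := D.steinbergRelsAB K) (r, t) = D.scGen K r.1 t := by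
    unfold Cfsg.Lie.ChevalleyDatum.scGen Cfsg.Lie.ChevalleyDatum.stX
    rw [dif_pos r.2]
    rfl
  rw [e1, MonoidHom.comp_apply, hτ₀ r.1 r.2, ← hS, S.θ_X A.hB r.2]
  exact (S₀.θ_X A.hB r.2 t).symm

/-- the Schur multiplier of the presented group is trivial if the group presented by (R1), (R2) covers its central
extensions -/
theorem schur_trivial {K : Type u} [Field K] [Finite K]
    (hD : D ∈ [chevG2, chevB2, chevD4, chevF4, chevE6, chevE7, chevE8])
    (hK1 : D ∈ [chevB2, chevG2] → ∃ x : K, x ≠ 0 ∧ x ≠ 1)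
    (huniv : ∀ (ε : D.SteinbergCover K ≃* D.SteinbergGroup K), (∀ r t, ε (D.scGen K r t) = D.stGen K r t) →
      ∀ (Γ : Type u) [Group Γ] (σ : Γ →* D.SteinbergGroup K),
      Function.Surjective σ → σ.ker ≤ Subgroup.center Γ →
      ∃ τ : D.SteinbergCover K →* Γ, σ.comp τ = ε.toMonoidHom) :
    Cfsg.HasCyclicSchurMultiplier (D.SteinbergGroup K) 1 := by
  obtain ⟨ε, hε⟩ := Cfsg.Agent.S2397.result (K := K) D hD hK1
  have hperf := Cfsg.Agent.S2395.result (K := K) D hD hK1
  have hperf' : commutator (D.SteinbergGroup K) = ⊤ := by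
    have := congrArg (Subgroup.map ε.toMonoidHom) hperf
    rw [commutator_def, Subgroup.map_commutator, ← MonoidHom.range_eq_map,
      MonoidHom.range_eq_top.mpr ε.surjective] at this
    exact this
  haveI : Finite (D.SteinbergCover K) := finite_cover hD
  haveI : Finite (D.SteinbergGroup K) := Finite.of_equiv _ ε.toEquiv
  have u1 : Unique (MonoidHom.id (D.SteinbergGroup K)).ker :=
    ⟨⟨1⟩, fun x => Subtype.ext (by
      have := x.2
      rw [MonoidHom.mem_ker, MonoidHom.id_apply] at this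
      exact this)⟩
  have u2 : Unique (Multiplicative (ZMod 1)) := ⟨⟨1⟩, fun x => Subsingleton.elim (α := ZMod 1) _ _⟩
  haveI : Finite (Multiplicative (ZMod 1)) := Finite.of_subsingleton
  refine hasSchur_of_universal (MonoidHom.id (D.SteinbergGroup K)) Function.surjective_id ?_ hperf' ?_
    MulEquiv.ofUnique
  · intro x hx
    rw [MonoidHom.mem_ker, MonoidHom.id_apply] at hx
    rw [hx]; exact one_mem _
  · intro Γ _ σ hσ hc
    obtain ⟨τ, hτ⟩ := huniv ε hε Γ σ hσ hc
    refine ⟨τ.comp ε.symm.toMonoidHom, ?_⟩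
    rw [← MonoidHom.comp_assoc, hτ]
    ext x
    simp

theorem schur_E {K : Type u} [Field K] [Finite K] (hD : D ∈ [chevE6, chevE7, chevE8]) :
    Cfsg.HasCyclicSchurMultiplier (D.SteinbergGroup K) 1 := by
  have hD' : D ∈ [chevG2, chevB2, chevD4, chevF4, chevE6, chevE7, chevE8] := by
    simp only [List.mem_cons, List.mem_nil_iff, or_false] at hD ⊢
    tauto
  have hK : D ∈ [chevB2, chevG2] → ∃ x : K, x ≠ 0 ∧ x ≠ 1 := by
    intro h
    exfalso
    simp only [List.mem_cons, List.mem_nil_iff, or_false] at hD h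
    rcases hD with rfl | rfl | rfl <;> rcases h with h | h <;>
      exact absurd (congrArg ChevalleyDatum.rank h) (by decide)
  obtain ⟨T, dT, hA, hroom, hsl⟩ := exists_room hD K
  apply schur_trivial hD' hK
  intro ε hε Γ _ σ hσ hc
  obtain ⟨θ, hθ, hker, hθX⟩ := Cfsg.Agent.S1077.result (K := K) D hD'
  have hB := Cfsg.Agent.Lib.Helper18.base_of_mem K hD'
  have hinj : ∀ r, r < D.nroots → ∀ t u, ε.toMonoidHom (D.scGen K r t) = ε.toMonoidHom (D.scGen K r u) → t = u := by
    intro r hr t u h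
    have h1 : D.stGen K r t = D.stGen K r u := by
      rw [← hε, ← hε]; exact h
    have h2 : D.x K r t = D.x K r u := by
      rw [← hθX r t hr, ← hθX r u hr, h1]
    have h3 : D.x K r (t + -u) = 1 := by
      rw [← hB.x_add r hr, h2, hB.x_add r hr, add_neg_cancel]
      exact (hB.x_one r hr 0).mpr rfl
    have := (hB.x_one r hr _).mp h3
    linear_combination this
  exact exists_cover_lift hA hroom hsl ε.toMonoidHom hinj σ hσ hc

lemma exists_ne_zero_one {K : Type*} [Field K] [Fintype K] (h : 2 < Fintype.card K) : ∃ x : K, x ≠ 0 ∧ x ≠ 1 := by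
  classical
  by_contra hc
  push Not at hc
  have h1 : (Finset.univ : Finset K) ⊆ {0, 1} := by
    intro x _
    by_cases hx : x = 0
    · simp [hx]
    · simp [hc x hx]
  have h2 := Finset.card_le_card h1
  rw [Finset.card_univ] at h2
  have h3 : ({0, 1} : Finset K).card ≤ 2 := Finset.card_le_two
  omega

lemma isF3_of_card {K : Type*} [Field K] [Fintype K] (h : Fintype.card K = 3) : IsF3 K := by
  classical
  have h3 : (3 : K) = 0 := by
    have := Nat.cast_card_eq_zero K
    rw [h] at this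
    exact_mod_cast this
  have hne : (-1 : K) ≠ 1 := by
    intro e
    have : (1 : K) = 0 := by linear_combination h3 + e
    exact one_ne_zero this
  refine ⟨fun t => ?_, h3⟩
  have hcard : ({0, 1, -1} : Finset K).card = 3 := by
    rw [Finset.card_insert_of_notMem, Finset.card_insert_of_notMem, Finset.card_singleton]
    · simpa using hne.symm
    · simp
  have hu := Finset.eq_univ_of_card _ (hcard.trans h.symm)
  have ht : t ∈ ({0, 1, -1} : Finset K) := by rw [hu]; exact Finset.mem_univ t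
  simpa using ht

lemma two_eq_zero_of_card {K : Type*} [Field K] [Fintype K] (h : Fintype.card K = 4) : (2 : K) = 0 := by
  have := Nat.cast_card_eq_zero K
  rw [h] at this
  have h4 : (2 : K) * 2 = 0 := by
    push_cast at this
    linear_combination this
  exact mul_self_eq_zero.mp h4

theorem schur_B2 {K : Type u} [Field K] [Fintype K] (hK : Fintype.card K ≠ 2) :
    Cfsg.HasCyclicSchurMultiplier (chevB2.SteinbergGroup K) 1 := by
  have hD : chevB2 ∈ [chevG2, chevB2, chevD4, chevF4, chevE6, chevE7, chevE8] := by simp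
  obtain ⟨T, W, A⟩ := exists_allH K hD
  have h3 : 2 < Fintype.card K := by
    have := Fintype.one_lt_card (α := K)
    omega
  have hK1 : ∃ x : K, x ≠ 0 ∧ x ≠ 1 := exists_ne_zero_one h3
  apply schur_trivial hD (fun _ => hK1)
  intro ε hε Γ _ σ hσ hc
  have key := universal_of_std hD (fun _ => hK1) A σ hσ hc ε.toMonoidHom
  obtain ⟨τ, hτ, -⟩ := key (fun C => by
    rcases (by omega : Fintype.card K = 3 ∨ Fintype.card K = 4 ∨ 4 < Fintype.card K) with h | h | h
    · exact C.exists_std_B2_F3 A (isF3_of_card h)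
    · have h2 := two_eq_zero_of_card h
      obtain ⟨v, hv0, hv1⟩ := hK1
      refine C.exists_std_B2_two A h2 ⟨v, hv0, fun e => hv1 ?_⟩
      have e3 : (v - 1) ^ 2 = 0 := by linear_combination e + (1 - v) * h2
      have := pow_eq_zero_iff (two_ne_zero) |>.mp e3
      linear_combination this
    · exact C.exists_std_all hD A ⟨Finset.univ, by rwa [Finset.card_univ]⟩)
  exact ⟨τ, hτ⟩

theorem schur_D4 {K : Type u} [Field K] [Fintype K] (hK : Fintype.card K ≠ 2) :
    Cfsg.HasCyclicSchurMultiplier (chevD4.SteinbergGroup K) 1 := by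
  have hD : chevD4 ∈ [chevG2, chevB2, chevD4, chevF4, chevE6, chevE7, chevE8] := by simp
  obtain ⟨T, W, A⟩ := exists_allH K hD
  have h3 : 2 < Fintype.card K := by
    have := Fintype.one_lt_card (α := K)
    omega
  have hK1 : ∃ x : K, x ≠ 0 ∧ x ≠ 1 := exists_ne_zero_one h3
  apply schur_trivial hD (fun _ => hK1)
  intro ε hε Γ _ σ hσ hc
  have key := universal_of_std hD (fun _ => hK1) A σ hσ hc ε.toMonoidHom
  obtain ⟨τ, hτ, -⟩ := key (fun C => C.exists_std_D4 A hK1)
  exact ⟨τ, hτ⟩

end Cfsg.Agent.Lib.Helper17
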