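import Cfsg.Agent.Lib.Helper17.UhA3
import Cfsg.Agent.Lib.Helper17.UhNL

set_option autoImplicit false

/-! Central extensions of the Chevalley group in characteristic `p` whose kernel has no `p`-torsion. -/

namespace Cfsg.Agent.Lib.Helper17

open Cfsg.Lie Matrix Cfsg.Agent.Lib.Helper18 Cfsg.Agent.Lib.Helper36

variable {D : ChevalleyDatum} {T : Fast} {W : WTab} {K : Type*} [Field K] {E : Type*} [Group E]

lemma xg_pow (hB : Base D K) (r : ℕ) (t : K) (n : ℕ) : hB.xg r t ^ n = hB.xg r (n * t) := by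
  induction n with
  | zero => rw [pow_zero, Nat.cast_zero, zero_mul, hB.xg_zero]
  | succ n ih => rw [pow_succ, ih, hB.xg_add]; congr 1; push_cast; ring

lemma cm_pow_left_central {a c : E} (hz : cm a c ∈ Subgroup.center E) (n : ℕ) : cm (a ^ n) c = cm a c ^ n := by
  induction n with
  | zero => rw [pow_zero, pow_zero]; unfold cm; group
  | succ n ih => rw [pow_succ, pow_succ, cm_mul_left_central hz, ih]

lemma HL.of_suffix {ε : ℤ} {P : List ℕ} (hP : HL D ε P) : ∀ L : List ℕ, L <:+ P → HL D ε L := by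
  induction P with
  | nil => intro L h; rw [List.suffix_nil.mp h]; exact hP
  | cons k P ih =>
    intro L h
    rcases List.suffix_cons_iff.mp h with rfl | h
    · exact hP
    · exact ih hP.tail L h

namespace CExt

/-- characteristic `p`, and no `p`-torsion in the kernel -/
structure PF (C : CExt D K E) (p : ℕ) : Prop where
  char : (p : K) = 0
  tf : ∀ z : E, C.ψ z = 1 → z ^ p = 1 → z = 1

variable {C : CExt D K E} {p : ℕ}

lemma PF.tf_pow (F : C.PF p) : ∀ (m : ℕ) (z : E), C.ψ z = 1 → z ^ (p ^ m) = 1 → z = 1 := by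
  intro m
  induction m with
  | zero => intro z _ h; simpa using h
  | succ m ih =>
    intro z hz h
    apply ih z hz
    apply F.tf _ (by rw [map_pow, hz, one_pow])
    rw [← pow_mul, ← pow_succ]
    exact h

lemma PF.ψ_pow (F : C.PF p) (hB : Base D K) {e : E} {r : ℕ} {t : K} (h : C.ψ e = hB.xg r t) : C.ψ (e ^ p) = 1 := by
  rw [map_pow, h, xg_pow, F.char, zero_mul, hB.xg_zero]

/-- commuting root subgroups have commuting lifts -/
lemma PF.cmOf (F : C.PF p) (hB : Base D K) {r s : ℕ} (hcomm : ∀ t u, cm (hB.xg r t) (hB.xg s u) = 1) :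
    C.Cm hB r s := by
  intro e₁ e₂ t u h1 h2
  apply comm_of_cm
  have hψ : C.ψ (cm e₁ e₂) = 1 := by rw [C.ψ_cm, h1, h2, hcomm]
  apply F.tf _ hψ
  rw [← cm_pow_left_central (C.mem_center_of_ψ hψ)]
  exact cm_left_central (C.mem_center_of_ψ (F.ψ_pow hB h1))

lemma PF.ab (F : C.PF p) (hB : Base D K) (q : ℕ) : C.Ab hB q := by
  apply F.cmOf hB
  intro t u
  unfold Cfsg.Agent.Lib.Helper17.cm
  rw [hB.xg_add, add_comm, ← hB.xg_add, mul_inv_cancel_right, mul_inv_cancel]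

/-- elements of `p`-power order -/
def IsPE (p : ℕ) (e : E) : Prop := ∃ m : ℕ, e ^ (p ^ m) = 1

lemma PF.eq_of_isPE (F : C.PF p) {e e' : E} (h : IsPE p e) (h' : IsPE p e') (hψ : C.ψ e = C.ψ e') : e = e' := by
  obtain ⟨m, hm⟩ := h
  obtain ⟨m', hm'⟩ := h'
  obtain ⟨z, hz, rfl⟩ := C.eq_mul_central hψ
  have hzψ : C.ψ z = 1 := by
    rw [map_mul] at hψ
    exact (mul_eq_left.mp hψ.symm)
  have hcomm : Commute e z := (Subgroup.mem_center_iff.mp hz e)
  have h1 : e ^ (p ^ (m + m')) = 1 := by rw [pow_add, pow_mul, hm, one_pow]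
  have h2 : (e * z) ^ (p ^ (m + m')) = 1 := by rw [pow_add, mul_comm, pow_mul, hm', one_pow]
  rw [hcomm.mul_pow, h1, one_mul] at h2
  rw [F.tf_pow _ z hzψ h2, mul_one]

/-- lifts of the root elements of order dividing `p` -/
structure YP (C : CExt D K E) (hB : Base D K) (p : ℕ) (Y : ℕ → K → E) : Prop where
  ψY : ∀ q, q < D.nroots → ∀ t, C.ψ (Y q t) = hB.xg q t
  pow : ∀ q, q < D.nroots → ∀ t, Y q t ^ p = 1

variable {Y : ℕ → K → E}

lemma isPE_of_pow {e : E} (h : e ^ p = 1) : IsPE p e := ⟨1, by rwa [pow_one]⟩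

lemma isPE_conj {e : E} (g : E) (h : IsPE p e) : IsPE p (g * e * g⁻¹) := by
  obtain ⟨m, hm⟩ := h
  exact ⟨m, by rw [conj_pow, hm, mul_one, mul_inv_cancel]⟩

section

variable (F : C.PF p) (A : AllH D T W K) (hY : C.YP A.hB p Y)

include F hY

lemma YP.add {q : ℕ} (hq : q < D.nroots) (t u : K) : Y q t * Y q u = Y q (t + u) := by
  apply F.eq_of_isPE _ (isPE_of_pow (hY.pow q hq _))
  · rw [map_mul, hY.ψY q hq, hY.ψY q hq, hY.ψY q hq, A.hB.xg_add]
  · apply isPE_of_pow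
    have hc : Commute (Y q t) (Y q u) := F.ab A.hB q _ _ _ _ (hY.ψY q hq t) (hY.ψY q hq u)
    rw [hc.mul_pow, hY.pow q hq, hY.pow q hq, one_mul]

lemma YP.zero {q : ℕ} (hq : q < D.nroots) : Y q 0 = 1 := by
  have := hY.add F A hq 0 0
  rw [add_zero] at this
  exact mul_eq_left.mp this

lemma YP.inv {q : ℕ} (hq : q < D.nroots) (t : K) : (Y q t)⁻¹ = Y q (-t) := by
  rw [inv_eq_iff_mul_eq_one, hY.add F A hq, add_neg_cancel, hY.zero F A hq]

lemma YP.mv {i : ℕ} (hi : i < D.rank) : ∃ g : E, ∀ q, q < D.nroots → ∃ c : K, c ≠ 0 ∧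
    ∀ t, g * Y q t * g⁻¹ = Y (D.reflectRoot i q) (c * t) := by
  have hnN := A.hB.ng_one_mem (A.hT.simple_lt i hi)
  have hl : C.ψ (C.lft (A.hB.ng (D.simple i) 1)) = A.hB.ng (D.simple i) 1 :=
    C.ψ_lft (A.hB.N_le_group A.hT hnN)
  refine ⟨C.lft (A.hB.ng (D.simple i) 1), fun q hq => ?_⟩
  obtain ⟨η, hη, h2⟩ := A.hB.ng_conj_xg hi hq
  have hη0 : η ≠ 0 := by rcases hη with rfl | rfl <;> simp
  refine ⟨η, hη0, fun t => ?_⟩
  have hq' := A.hT.refl_lt i q hi hq
  apply F.eq_of_isPE (isPE_conj _ (isPE_of_pow (hY.pow q hq t))) (isPE_of_pow (hY.pow _ hq' _))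
  rw [map_mul, map_mul, map_inv, hl, hY.ψY q hq, hY.ψY _ hq', (h2 t).1]

lemma YP.ψ_wdY (w : List (ℕ × K)) (hw : ∀ p ∈ w, p.1 < D.nroots) : C.ψ (wdY Y w) = A.hB.wg w := by
  unfold wdY Base.wg
  rw [map_list_prod, List.map_map]
  congr 1
  apply List.map_congr_left
  intro p hp
  exact hY.ψY p.1 (hw p hp) p.2

lemma YP.step_nl {ε : ℤ} {k : ℕ} {L : List ℕ} (hL : HL D ε (k :: L)) (hgood : ∀ e ∈ NL Y L, IsPE p e) {s : ℕ}
    (hs : s ∈ L) (t u : K) : Y k t * Y s u * (Y k t)⁻¹ ∈ NL Y L := by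
  have hkL : ∀ r ∈ L, r ≠ k := fun r hr e => (List.nodup_cons.mp hL.nodup).1 (e ▸ hr)
  obtain ⟨hk, hk0⟩ := hL.pos k List.mem_cons_self
  obtain ⟨hsn, hs0⟩ := hL.pos s (List.mem_cons_of_mem _ hs)
  have hLn : ∀ r ∈ L, r < D.nroots := fun r hr => (hL.pos r (List.mem_cons_of_mem _ hr)).1
  have hks : fE D ε k ≤ fE D ε s := (List.pairwise_cons.mp hL.sorted).1 s hs
  have hneg : s ≠ D.neg k := by
    rintro rfl
    rw [fE_neg A.h ε hk] at hs0
    omega
  have hmemw : ∀ p ∈ D.commWord K k s (-t) u, p.1 ∈ L := by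
    intro p hp
    unfold ChevalleyDatum.commWord at hp
    rw [List.mem_map] at hp
    obtain ⟨c, hc, rfl⟩ := hp
    obtain ⟨hcn, i, j, hi, hj, hd⟩ := dJ_commTerms A.h ∅ hk hsn hc
    have hf : fE D ε c.1 = i * fE D ε k + j * fE D ε s := by
      unfold fE; rw [hd]; ring
    have h1 : (1 : ℤ) ≤ i := by exact_mod_cast hi
    have h2 : (1 : ℤ) ≤ j := by exact_mod_cast hj
    have h3 : fE D ε s < fE D ε c.1 := by rw [hf]; nlinarith
    have h4 := hL.up s (List.mem_cons_of_mem _ hs) c.1 hcn h3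
    rcases List.mem_cons.mp h4 with h5 | h5
    · exfalso
      show False
      rw [h5] at h3
      omega
    · exact h5
  set w : E := Y s u * wdY Y (D.commWord K k s (-t) u) with hw
  have hwm : w ∈ NL Y L := mul_mem (Y_mem_NL hs _) (wdY_mem_NL hmemw)
  have e2 : C.ψ (Y k t * Y s u * (Y k t)⁻¹) = C.ψ w := by
    rw [hw, map_mul, map_mul, map_mul, map_inv, hY.ψY k hk, hY.ψY s hsn,
      hY.ψ_wdY F A _ (fun p hp => hLn _ (hmemw p hp)), ← A.hB.comm_xg hk hsn (hkL s hs) hneg, A.hB.xg_inv, A.hB.xg_inv,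
      neg_neg]
  rw [F.eq_of_isPE (isPE_conj _ (isPE_of_pow (hY.pow s hsn u))) (hgood w hwm) e2]
  exact hwm

lemma YP.good {ε : ℤ} : ∀ L : List ℕ, HL D ε L → ∀ e ∈ NL Y L, IsPE p e := by
  intro L
  induction L with
  | nil =>
    intro _ e he
    have : NL Y ([] : List ℕ) = ⊥ := by
      unfold NL
      rw [Subgroup.closure_eq_bot_iff]
      rintro x ⟨s, hs, -⟩
      simp at hs
    rw [this, Subgroup.mem_bot] at he
    exact ⟨0, by rw [he, one_pow]⟩
  | cons k L ih =>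
    intro hL e he
    have hgood := ih hL.tail
    obtain ⟨hk, hk0⟩ := hL.pos k List.mem_cons_self
    have hnl : ∀ s ∈ L, ∀ t u, Y k t * Y s u * (Y k t)⁻¹ ∈ NL Y L :=
      fun s hs t u => hY.step_nl F A hL hgood hs t u
    have hconj : ∀ t, ∀ w ∈ NL Y L, Y k t * w * (Y k t)⁻¹ ∈ NL Y L := by
      intro t w hw
      unfold NL at hw
      induction hw using Subgroup.closure_induction with
      | mem x hx =>
        obtain ⟨s, hs, u, rfl⟩ := hx
        exact hnl s hs t u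
      | one => simp [one_mem]
      | mul x y _ _ hx hy =>
        have : Y k t * (x * y) * (Y k t)⁻¹ = (Y k t * x * (Y k t)⁻¹) * (Y k t * y * (Y k t)⁻¹) := by group
        rw [this]; exact mul_mem hx hy
      | inv x _ hx =>
        have : Y k t * x⁻¹ * (Y k t)⁻¹ = (Y k t * x * (Y k t)⁻¹)⁻¹ := by group
        rw [this]; exact inv_mem hx
    have step : ∀ s ∈ k :: L, ∀ (u t : K) (w : E), w ∈ NL Y L →
        ∃ (t' : K) (w' : E), w' ∈ NL Y L ∧ Y s u * (Y k t * w) = Y k t' * w' := by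
      intro s hs u t w hw
      rcases List.mem_cons.mp hs with rfl | hs
      · exact ⟨u + t, w, hw, by rw [← mul_assoc, hY.add F A hk]⟩
      · refine ⟨t, Y k (-t) * Y s u * (Y k (-t))⁻¹ * w, mul_mem (hnl s hs _ _) hw, ?_⟩
        rw [← hY.inv F A hk]
        group
    have key : ∃ (t : K) (w : E), w ∈ NL Y L ∧ e = Y k t * w := by
      unfold NL at he
      induction he using Subgroup.closure_induction_left with
      | one => exact ⟨0, 1, one_mem _, by rw [hY.zero F A hk, one_mul]⟩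
      | mul_left x hx y _ ih2 =>
        obtain ⟨s, hs, u, rfl⟩ := hx
        obtain ⟨t, w, hw, rfl⟩ := ih2
        exact step s hs u t w hw
      | inv_mul_cancel x hx y _ ih2 =>
        obtain ⟨s, hs, u, rfl⟩ := hx
        obtain ⟨t, w, hw, rfl⟩ := ih2
        rw [hY.inv F A (hL.pos s hs).1]
        exact step s hs (-u) t w hw
    obtain ⟨t, w, hw, rfl⟩ := key
    have hpow : ∀ n : ℕ, ∃ w' ∈ NL Y L, (Y k t * w) ^ n = Y k t ^ n * w' := by
      intro n
      induction n with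
      | zero => exact ⟨1, one_mem _, by simp⟩
      | succ n ihn =>
        obtain ⟨w', hw', e⟩ := ihn
        refine ⟨Y k (-t) * w' * (Y k (-t))⁻¹ * w, mul_mem (hconj _ _ hw') hw, ?_⟩
        rw [pow_succ, e, pow_succ, ← hY.inv F A hk]
        group
    obtain ⟨w', hw', e⟩ := hpow p
    rw [hY.pow k hk, one_mul] at e
    obtain ⟨m, hm⟩ := hgood w' hw'
    exact ⟨m + 1, by rw [pow_succ', pow_mul, e, hm]⟩

theorem YP.toYA {P : List ℕ} (hP : HL D 1 P) : C.YA A.hB P Y where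
  ψY := hY.ψY
  add := fun _ hq t u => hY.add F A hq t u
  mv := fun _ hi => hY.mv F A hi
  nl := fun k L h s hs t u =>
    hY.step_nl F A (hP.of_suffix _ h) (hY.good F A L (hP.of_suffix _ h).tail) hs t u

end

/-- existence of the lifts of order dividing `p`: torus or decomposition -/
theorem PF.exists_YP (F : C.PF p) (A : AllH D T W K)
    (hex : ∀ q, q < D.nroots → (∃ (h : GL D.Idx K) (χ : K), TorG A.hB h q χ ∧ χ ≠ 1) ∨
      ∃ (c d : ℕ) (k : ℤ), trickB D q q c d k = true ∧ (k : K) ≠ 0) : ∃ Y : ℕ → K → E, C.YP A.hB p Y := by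
  have hl : ∀ q, q < D.nroots → ∀ t, C.ψ (C.lft (A.hB.xg q t)) = A.hB.xg q t :=
    fun q hq t => C.ψ_lft (A.hB.xg_mem_group hq t)
  have key : ∀ q, q < D.nroots → ∀ t : K, ∃ e : E, C.ψ e = A.hB.xg q t ∧ e ^ p = 1 := by
    intro q hq t
    rcases hex q hq with ⟨h, χ, hT, hχ⟩ | ⟨c, d, k, htr, hk⟩
    · have hχ' : χ - 1 ≠ 0 := sub_ne_zero.mpr hχ
      have hlh : C.ψ (C.lft h) = h := C.ψ_lft (A.hB.H_le_group A.hT hT.1)
      have hT' : C.Tor A.hB (C.lft h) q χ := by unfold Tor; rw [hlh]; exact hT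
      set e : E := C.lft (A.hB.xg q (t / (χ - 1))) with he
      refine ⟨cm (C.lft h) e, by rw [ψ_cm_tor hT' (hl q hq _), mul_div_cancel₀ _ hχ'], ?_⟩
      have e1 : cm (C.lft h) e = (C.lft h * e * (C.lft h)⁻¹) * e⁻¹ := rfl
      have hc : Commute (C.lft h * e * (C.lft h)⁻¹) e⁻¹ := by
        apply F.ab A.hB q _ _ (χ * (t / (χ - 1))) (-(t / (χ - 1)))
        · rw [map_mul, map_mul, map_inv, hlh, hl q hq, hT.2]
        · rw [map_inv, hl q hq, A.hB.xg_inv]
      rw [e1, hc.mul_pow, conj_pow, inv_pow]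
      have hz := Subgroup.mem_center_iff.mp (C.mem_center_of_ψ (F.ψ_pow A.hB (hl q hq (t / (χ - 1)))))
      rw [hz (C.lft h), mul_inv_cancel_right, mul_inv_cancel]
    · have htr' := htr
      unfold trickB at htr
      simp only [Bool.and_eq_true, decide_eq_true_eq] at htr
      obtain ⟨⟨⟨⟨⟨⟨⟨⟨⟨⟨hc, hd⟩, c1⟩, c2⟩, d1⟩, d2⟩, d3⟩, d4⟩, t1⟩, t2⟩, t3⟩ := htr
      set a : E := C.lft (A.hB.xg d (-(t / k))) with ha
      set b : E := C.lft (A.hB.xg c 1) with hb
      have hψ : C.ψ (cm a b) = A.hB.xg q t := by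
        rw [C.ψ_cm, hl d hd, hl c hc, xg_cm_single A.hB hc hd d3 d4 t3]
        congr 1
        field_simp
      refine ⟨cm a b, hψ, ?_⟩
      -- `a` commutes with `cm a b`
      have hqd : C.Cm A.hB q d := F.cmOf A.hB (fun t u => xg_comm_of_nil A.hB hq hd d1 d2 t2 t u)
      have hcomm : cm a b * a = a * cm a b := hqd _ _ _ _ hψ (hl d hd _)
      have hpw : ∀ n : ℕ, cm (a ^ n) b = cm a b ^ n := by
        intro n
        induction n with
        | zero => rw [pow_zero, pow_zero]; unfold Cfsg.Agent.Lib.Helper17.cm; group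
        | succ n ih =>
          rw [pow_succ', pow_succ', cm_mul_left, ih]
          have : a * cm a b ^ n * a⁻¹ = cm a b ^ n := by
            have hc' : Commute a (cm a b) := hcomm.symm
            rw [(hc'.pow_right n).eq, mul_inv_cancel_right]
          rw [this, ← pow_succ, ← pow_succ']
      rw [← hpw]
      exact cm_left_central (C.mem_center_of_ψ (F.ψ_pow A.hB (hl d hd _)))
  classical
  have hex2 : ∀ q : ℕ, ∀ t : K, ∃ e : E, q < D.nroots → C.ψ e = A.hB.xg q t ∧ e ^ p = 1 := by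
    intro q t
    by_cases hq : q < D.nroots
    · obtain ⟨e, he⟩ := key q hq t
      exact ⟨e, fun _ => he⟩
    · exact ⟨1, fun h => absurd h hq⟩
  choose Y hY using hex2
  exact ⟨Y, fun q hq t => (hY q t hq).1, fun q hq t => (hY q t hq).2⟩

theorem PF.exists_std (F : C.PF p) (A : AllH D T W K) (htr : TrOK D)
    (hex : ∀ q, q < D.nroots → (∃ (h : GL D.Idx K) (χ : K), TorG A.hB h q χ ∧ χ ≠ 1) ∨
      ∃ (c d : ℕ) (k : ℤ), trickB D q q c d k = true ∧ (k : K) ≠ 0) : ∃ S : StD D K E, S.θ = C.ψ := by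
  obtain ⟨Y, hY⟩ := F.exists_YP A hex
  obtain ⟨P, hP, hmem⟩ := exists_HL D 1
  exact ⟨(hY.toYA F A hP).toStD A hP hmem htr, rfl⟩

end CExt

end Cfsg.Agent.Lib.Helper17
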