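import Cfsg.Agent.Lib.Helper17.UiP
import Cfsg.Agent.Lib.Helper17.UhFin

set_option autoImplicit false

/-! Projective representations of the Chevalley groups in the natural characteristic lift to the group presented
by (R1), (R2). -/

namespace Cfsg.Agent.Lib.Helper17

open Cfsg.Lie Matrix Cfsg.Agent.Lib.Helper18 Cfsg.Agent.Lib.Helper36

variable {D : ChevalleyDatum} {T : Fast} {W : WTab} {K : Type*} [Field K]

lemma finite_of_not_five (h : ¬ ∃ s : Finset K, 4 < s.card) : Finite K := by
  by_contra hinf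
  rw [not_finite_iff_infinite] at hinf
  obtain ⟨s, hs⟩ := Infinite.exists_subset_card_eq K 5
  exact h ⟨s, by omega⟩

lemma hex_of_abB {Wt : List (ℕ × ℕ)} (h : abB D Wt = true) (q : ℕ) (hq : q < D.nroots) :
    ∃ (c d : ℕ) (k : ℤ), trickB D q q c d k = true ∧ (k : K) ≠ 0 := by
  unfold abB at h
  rw [List.all_eq_true] at h
  have h1 := h q (List.mem_range.mpr hq)
  rw [Bool.or_eq_true] at h1
  rcases h1 with h1 | h1
  · exact ⟨_, _, 1, h1, by simp⟩
  · exact ⟨_, _, -1, h1, by simp⟩

/-- lifting (R1), (R2) to a central extension whose kernel has no torsion in the characteristic -/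
theorem CExt.exists_std_tf {E : Type*} [Group E]
    (hD : D ∈ [chevG2, chevB2, chevD4, chevF4]) (hK : D ∈ [chevB2, chevG2] → ∃ x : K, x ≠ 0 ∧ x ≠ 1)
    (C : CExt D K E) (A : AllH D T W K)
    (htf : ∀ p : ℕ, p.Prime → (p : K) = 0 → ∀ z, C.ψ z = 1 → z ^ p = 1 → z = 1) :
    ∃ S : StD D K E, S.θ = C.ψ := by
  classical
  have hD' : D ∈ [chevG2, chevB2, chevD4, chevF4, chevE6, chevE7, chevE8] := by
    simp only [List.mem_cons, List.mem_nil_iff, or_false] at hD ⊢
    tauto
  by_cases h5 : ∃ s : Finset K, 4 < s.card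
  · exact C.exists_std_all hD' A h5
  have := finite_of_not_five h5
  have := Fintype.ofFinite K
  have hcard : Fintype.card K ≤ 4 := by
    by_contra hc
    exact h5 ⟨Finset.univ, by rw [Finset.card_univ]; omega⟩
  have hp : (ringChar K).Prime := CharP.char_is_prime K (ringChar K)
  have F : C.PF (ringChar K) := ⟨ringChar.Nat.cast_ringChar, htf _ hp ringChar.Nat.cast_ringChar⟩
  simp only [List.mem_cons, List.not_mem_nil, or_false] at hD
  rcases hD with rfl | rfl | rfl | rfl
  · exact F.exists_std A (trOK_of_mem hD') (fun q hq => Or.inl (A.tor_self_of_p1 p1OK_G2 (hK (by simp)) q hq))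
  · obtain ⟨v, hv0, hv1⟩ := hK (by simp)
    have h3 : 2 < Fintype.card K := by
      have h1 : ({0, 1, v} : Finset K).card = 3 := by
        rw [Finset.card_insert_of_notMem, Finset.card_insert_of_notMem, Finset.card_singleton]
        · simpa using hv1.symm
        · simp [hv0.symm]
      have := Finset.card_le_univ ({0, 1, v} : Finset K)
      omega
    rcases (by omega : Fintype.card K = 3 ∨ Fintype.card K = 4) with h | h
    · exact C.exists_std_B2_F3 A (isF3_of_card h)
    · have h2 := two_eq_zero_of_card h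
      refine C.exists_std_B2_two A h2 ⟨v, hv0, fun e => hv1 ?_⟩
      have e3 : (v - 1) ^ 2 = 0 := by linear_combination e + (1 - v) * h2
      have := pow_eq_zero_iff (two_ne_zero) |>.mp e3
      linear_combination this
  · exact F.exists_std A (trOK_of_mem hD') (fun q hq => Or.inr (hex_of_abB abB_D4 q hq))
  · exact F.exists_std A (trOK_of_mem hD') (fun q hq => Or.inr (hex_of_abB abB_F4 q hq))

theorem exists_lift_of_tf (hD : D ∈ [chevG2, chevB2, chevD4, chevF4, chevE6, chevE7, chevE8])
    (hK : D ∈ [chevB2, chevG2] → ∃ x : K, x ≠ 0 ∧ x ≠ 1)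
    (θ : D.SteinbergCover K →* ↥(D.group K))
    (hθ : ∀ (r : ℕ) (t : K), r < D.nroots →
      ((θ (D.scGen K r t) : GL D.Idx K) : Matrix D.Idx D.Idx K) = D.x K r t)
    {Γ : Type*} [Group Γ] (σ : Γ →* ↥(D.group K)) (hσ : Function.Surjective σ)
    (hc : σ.ker ≤ Subgroup.center Γ)
    (htf : ∀ p : ℕ, p.Prime → (p : K) = 0 → ∀ z, σ z = 1 → z ^ p = 1 → z = 1) :
    ∃ τ₀ : D.SteinbergCover K →* Γ, σ.comp τ₀ = θ := by
  by_cases hE : D ∈ [chevE6, chevE7, chevE8]
  · obtain ⟨T, dT, hA, hroom, hsl⟩ := exists_room hE K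
    have hB := Cfsg.Agent.Lib.Helper18.base_of_mem K hD
    have hinj : ∀ r, r < D.nroots → ∀ t u, θ (D.scGen K r t) = θ (D.scGen K r u) → t = u := by
      intro r hr t u h
      have h2 : D.x K r t = D.x K r u := by
        rw [← hθ r t hr, ← hθ r u hr, h]
      have h3 : D.x K r (t + -u) = 1 := by
        rw [← hB.x_add r hr, h2, hB.x_add r hr, add_neg_cancel]
        exact (hB.x_one r hr 0).mpr rfl
      have := (hB.x_one r hr _).mp h3
      linear_combination this
    exact exists_cover_lift hA hroom hsl θ hinj σ hσ hc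
  · have hD4 : D ∈ [chevG2, chevB2, chevD4, chevF4] := by
      simp only [List.mem_cons, List.mem_nil_iff, or_false] at hD hE ⊢
      tauto
    obtain ⟨T, W, A⟩ := exists_allH K hD
    have hker : ((D.group K).subtype.comp σ).ker = σ.ker := by
      ext x
      rw [MonoidHom.mem_ker, MonoidHom.mem_ker, MonoidHom.comp_apply]
      constructor
      · intro h; exact Subtype.ext h
      · intro h; rw [h]; rfl
    let C : CExt D K Γ :=
      { ψ := (D.group K).subtype.comp σ
        central := by rw [hker]; exact hc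
        surj := fun g hg => by
          obtain ⟨e, he⟩ := hσ ⟨g, hg⟩
          exact ⟨e, by rw [MonoidHom.comp_apply, he]; rfl⟩ }
    obtain ⟨S, hS⟩ := C.exists_std_tf hD4 hK A (fun p hp hp0 z hz => htf p hp hp0 z (by
      have : z ∈ ((D.group K).subtype.comp σ).ker := hz
      rw [hker] at this
      exact this))
    obtain ⟨τ₀, hτ₀⟩ := S.exists_hom A.h
    refine ⟨τ₀, ?_⟩
    apply PresentedGroup.ext
    rintro ⟨r, t⟩
    have e1 : PresentedGroup.of (rels := D.steinbergRelsAB K) (r, t) = D.scGen K r.1 t := by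
      unfold Cfsg.Lie.ChevalleyDatum.scGen Cfsg.Lie.ChevalleyDatum.stX
      rw [dif_pos r.2]
      rfl
    rw [e1, MonoidHom.comp_apply, hτ₀ r.1 r.2]
    apply Subtype.ext
    apply Units.ext
    rw [hθ r.1 t r.2]
    have e2 : ((σ (S.X r.1 t) : ↥(D.group K)) : GL D.Idx K) = S.θ (S.X r.1 t) := by rw [hS]; rfl
    rw [e2, S.θ_X A.hB r.2]
    exact A.hB.coe_xg r.1 t

theorem proj_lift (hD : D ∈ [chevG2, chevB2, chevD4, chevF4, chevE6, chevE7, chevE8])
    (hK : D ∈ [chevB2, chevG2] → ∃ x : K, x ≠ 0 ∧ x ≠ 1)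
    (θ : D.SteinbergCover K →* ↥(D.group K))
    (hθ : ∀ (r : ℕ) (t : K), r < D.nroots →
      ((θ (D.scGen K r t) : GL D.Idx K) : Matrix D.Idx D.Idx K) = D.x K r t)
    {L : Type*} [Field L] (hL : ringChar L = ringChar K) {n : ℕ}
    (φ : ↥(D.group K) →* GL (Fin n) L ⧸ Subgroup.center (GL (Fin n) L)) :
    ∃! ψ : D.SteinbergCover K →* GL (Fin n) L,
      (QuotientGroup.mk' (Subgroup.center (GL (Fin n) L))).comp ψ = φ.comp θ := by
  classical
  have hperf := Cfsg.Agent.S2395.result (K := K) D hD hK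
  let π := QuotientGroup.mk' (Subgroup.center (GL (Fin n) L))
  let P := (π.comp (MonoidHom.fst (GL (Fin n) L) ↥(D.group K))).eqLocus
    (φ.comp (MonoidHom.snd (GL (Fin n) L) ↥(D.group K)))
  let σ : ↥P →* ↥(D.group K) := (MonoidHom.snd _ _).comp P.subtype
  let pr₁ : ↥P →* GL (Fin n) L := (MonoidHom.fst _ _).comp P.subtype
  have hmem : ∀ x : ↥P, π (pr₁ x) = φ (σ x) := fun x => x.2
  have hσ : Function.Surjective σ := by
    intro g
    obtain ⟨a, ha⟩ := QuotientGroup.mk'_surjective (Subgroup.center (GL (Fin n) L)) (φ g)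
    exact ⟨⟨(a, g), ha⟩, rfl⟩
  have hker1 : ∀ x : ↥P, σ x = 1 → pr₁ x ∈ Subgroup.center (GL (Fin n) L) := by
    intro x hx
    have := hmem x
    rw [hx, map_one] at this
    exact (QuotientGroup.eq_one_iff _).mp this
  have hc : σ.ker ≤ Subgroup.center ↥P := by
    intro x hx
    rw [MonoidHom.mem_ker] at hx
    have h1 := Subgroup.mem_center_iff.mp (hker1 x hx)
    rw [Subgroup.mem_center_iff]
    intro y
    apply Subtype.ext
    apply Prod.ext
    · exact h1 (pr₁ y)
    · show σ y * σ x = σ x * σ y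
      rw [hx, mul_one, one_mul]
  have htf : ∀ p : ℕ, p.Prime → (p : K) = 0 → ∀ z, σ z = 1 → z ^ p = 1 → z = 1 := by
    intro p hp hp0 z hz hzp
    have hchar : ringChar K = p := by
      rcases (Nat.dvd_prime hp).mp (ringChar.dvd hp0) with h | h
      · exact absurd h (CharP.ringChar_ne_one)
      · exact h
    have : CharP L p := by
      rw [← hchar, ← hL]
      exact ringChar.charP L
    have : Fact p.Prime := ⟨hp⟩
    have h1 : pr₁ z = 1 := by
      obtain ⟨a, ha⟩ := Matrix.GeneralLinearGroup.mem_center_iff_val_mem_range_scalar.mp (hker1 z hz)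
      have h2 : (pr₁ z) ^ p = 1 := by rw [← map_pow, hzp, map_one]
      rcases Nat.eq_zero_or_pos n with rfl | hn
      · exact Subsingleton.elim _ _
      · have : Nonempty (Fin n) := ⟨⟨0, hn⟩⟩
        have h3 : Matrix.scalar (Fin n) (a ^ p) = Matrix.scalar (Fin n) 1 := by
          rw [map_pow, ha, map_one, ← Units.val_pow_eq_pow_val, h2, Units.val_one]
        have h4 : a ^ p = 1 := Matrix.scalar_inj.mp h3
        have h5 : a = 1 := by
          apply frobenius_inj L p
          rw [frobenius_def, frobenius_def, h4, one_pow]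
        apply Units.ext
        rw [← ha, h5, map_one, Units.val_one]
    apply Subtype.ext
    exact Prod.ext h1 hz
  obtain ⟨τ₀, hτ₀⟩ := exists_lift_of_tf hD hK θ hθ σ hσ hc htf
  have hτ' : ∀ x, σ (τ₀ x) = θ x := fun x => DFunLike.congr_fun hτ₀ x
  refine ⟨pr₁.comp τ₀, ?_, ?_⟩
  · apply MonoidHom.ext
    intro x
    show π (pr₁ (τ₀ x)) = φ (θ x)
    rw [hmem, hτ']
  · intro ψ' hψ'
    apply hom_eq_of_perfect hperf π (by rw [QuotientGroup.ker_mk'])
    rw [hψ']
    apply MonoidHom.ext
    intro x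
    show φ (θ x) = π (pr₁ (τ₀ x))
    rw [hmem, hτ']

end Cfsg.Agent.Lib.Helper17
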